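import Cfsg.Agent.Lib.AltSec.Wt2

/-! The Sylow 3-subgroup of `A₁₂` and 27-dimensional modules. -/

set_option autoImplicit false
set_option linter.style.haveILetI false
set_option linter.unusedSectionVars false
set_option maxRecDepth 100000

namespace Cfsg.Agent.Lib.AltSec

open Equiv Module Cfsg.Agent.Lib.Forms Matrix Cfsg.Agent.Lib.Core

def c4 (i : Fin 4) : Perm (Fin 4 × Z3) := cc (Pi.single i 1)
def y4 (_ : Fin 1) : Perm (Fin 4 × Z3) := (sq (c3 0 1 2) 1)⁻¹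
def S4 : Subgroup (Perm (Fin 4 × Z3)) := Subgroup.closure (Set.range c4 ∪ Set.range y4)
def hb4 : Perm (Fin 4 × Z3) := ⟨hbF 4, hbG 4, by decide +kernel, by decide +kernel⟩
def cd4 (l : Fin 4 → Z3) : ℕ := 9 * (l 0).val + 3 * (l 1).val + (l 2).val

theorem y4_mem : y4 0 ∈ S4 := Subgroup.subset_closure (Or.inr ⟨0, rfl⟩)
theorem cc4_mem (a : Fin 4 → Z3) : cc a ∈ S4 := cc_mem (fun i => Subgroup.subset_closure (Or.inl ⟨i, rfl⟩)) a

theorem c4_y4 : ∀ i k, ∃ i', y4 k * c4 i * (y4 k)⁻¹ = c4 i' := by decide +kernel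

theorem S4_p : IsPGroup 3 S4 :=
  isPGroup_closure₂ (by decide +kernel) (by decide +kernel) (by decide +kernel) (by decide +kernel) c4_y4

theorem S4_syl : IsSyl 3 S4 (alternatingGroup _) := by
  haveI := Fact.mk Nat.prime_three
  refine isSyl_of_le S4_p (le_alt (by decide) S4_p) (k := 5) (pow_le_card S4_p
    ![c4 0, c4 1, c4 2, c4 3, y4 0] (fun i => ?_)
    (fun i p => if i.val < 4 then p = (Fin.ofNat 4 i.val, 0) else p.1.val = 0)
    (by decide +kernel +revert) (by decide +kernel +revert)) (by decide +kernel)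
  fin_cases i
  exacts [cc4_mem _, cc4_mem _, cc4_mem _, cc4_mem _, y4_mem]

theorem sign4 : ∀ i j k : Fin 4, i ≠ j → Perm.sign (sq (swap i j) (ng k)) = 1 := by decide +kernel

theorem canon4 : ∀ l : Fin 4 → Z3, l = cn 4 (sz l) ∨ (∃ k, sz (sg 1 (ng k) l) = sz l ∧ pot (sg 1 (ng k) l) < pot l) ∨
    ∃ i j, sz (sg (swap i j) 1 l) = sz l ∧ pot (sg (swap i j) 1 l) < pot l := by decide +kernel

theorem Min.ker12 {H : Type*} [Group H] [Finite H] {π : H →* Perm (Fin 4 × Z3)} (h : Min π)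
    (hZ : ∀ κ, π κ = 1 → PE 3 κ → κ ∈ Subgroup.center H) {κ : H} (h1 : π κ = 1) (h2 : PE 3 κ) : κ = 1 := by
  haveI := Fact.mk Nat.prime_three
  refine h.ker_triv (by decide) hZ S4_syl (j := 1) (by decide) (fun i i' => ⟨by revert i i'; decide +kernel, ?_⟩)
    (fun i i' => ⟨rfl, .inl (Subsingleton.elim _ _)⟩) c4_y4 (ι := sq 1 fun _ => -1) (by decide +kernel)
    (by decide +kernel) (by decide +kernel) h1 h2
  have : ∀ i i' : Fin 4, i = i' ∨ ∃ k, Perm.sign (sq 1 (ng i * ng k)) = 1 ∧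
    sq 1 (ng i * ng k) * c4 i * (sq 1 (ng i * ng k))⁻¹ = c4 i ^ (1 + 1) ∧
    sq 1 (ng i * ng k) * c4 i' * (sq 1 (ng i * ng k))⁻¹ = c4 i' := by decide +kernel
  exact (this i i').imp_right fun ⟨k, hk⟩ => ⟨_, hk⟩

/-- the multiplicities -/
def mx (l : Fin 4 → Z3) : ℕ := if sz l = 0 then 3 else if sz l = 1 ∨ sz l = 4 then 1 else 0

universe u
variable {k V : Type*} [Field k] [AddCommGroup V] [Module k V] [FiniteDimensional k V] {H : Type u} [Group H]
  {π : H →* Perm (Fin 4 × Z3)} {x : Perm (Fin 4 × Z3) → H} {ρ : H →* End k V} {ω : k}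

theorem mult12 (hω : IsPrimitiveRoot ω 3) (hx : Fus π S4 x) (hV : finrank k V = 27)
    (hf : ∀ a, a ≠ 0 → finrank k (Eg ρ ω (x (cc a)) 0) ≤ 18) (l : Fin 4 → Z3) :
    finrank k (Wt ρ ω (fun a => x (cc a)) l) = mx l := by
  have add := hx.add cc4_mem
  obtain ⟨M, hm⟩ : ∃ M : ℕ → ℕ, ∀ l, finrank k (Wt ρ ω (fun a => x (cc a)) l) = M (sz l) :=
    ⟨fun s => finrank k (Wt ρ ω (fun a => x (cc a)) (cn 4 s)), hx.canon cc4_mem (by decide) sign4 pot (cn 4) canon4 ρ ω⟩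
  have e1 := (total (ρ := ρ) hω add).trans ((Finset.sum_congr rfl fun l _ => (if_pos trivial).symm).trans
    (sum_sz' hm (fun _ => True) (n := 5) (by decide) ![1, 8, 24, 32, 16] (by decide +kernel)))
  have e0 := fun a ha => (sum_le (ρ := ρ) (xx := fun a => x (cc a)) hω (fun l => a ⬝ᵥ l = 0) (U := Eg ρ ω (x (cc a)) 0) fun l hl v hv => mem_Eg.2 (by
      simpa [hl] using mem_Wt.1 hv a)).trans (hf a ha)
  have e2 := (sum_sz' hm _ (n := 5) (by decide) ![1, 6, 12, 8, 0] (by decide +kernel)).ge.trans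
    (e0 ![1, 0, 0, 0] (by decide))
  have e3 := (sum_sz' hm _ (n := 5) (by decide) ![1, 4, 6, 8, 8] (by decide +kernel)).ge.trans
    (e0 ![1, 1, 0, 0] (by decide))
  have hy : ∀ a, x (y4 0) * x (cc a) * (x (y4 0))⁻¹ = x (cc (sg (c3 0 1 2) 1 a)) := fun a => by
    rw [hx.cj y4_mem (cc4_mem a), ← sq_conj]; rfl
  obtain ⟨g, -, hg⟩ := hx.conj hb4 (by decide +kernel)
  have g1 : hb4 * cc ![1, 1, 1, 0] * hb4⁻¹ = y4 0 := by decide +kernel
  have g2 : hb4 * cc ![0, 0, 0, 1] * hb4⁻¹ = cc ![0, 0, 0, 1] := by decide +kernel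
  have e4 := yr3 hω add (fun _ : Fin 1 => ![0, 0, 0, 1]) (fun _ => 1) ![1, 1, 1, 0] (sg (c3 0 1 2) 1)
    (sg_bij _ _) (sg_dot _ _) hy (h := g) (by rw [hg _ (cc4_mem _) (g1 ▸ y4_mem), g1])
    (fun j => by rw [hg _ (cc4_mem _) (g2.symm ▸ cc4_mem _), g2]) (by decide +kernel) (by decide +kernel) cd4
    (fun _ => True) hm (G := M) (n := 5) (hn := by decide)
    (fun l _ _ => by rw [if_pos trivial, ← hm]; exact Submodule.finrank_mono inf_le_right)
    ![0, 0, 3, 3, 3] ![0, 0, 2, 4, 2] ![0, 1, 0, 0, 2] (by decide +kernel) (by decide +kernel) (by decide +kernel)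
  simp [Fin.sum_univ_succ, hV] at e1 e2 e3 e4
  have h1 : M 0 = 3 ∧ M 1 = 1 ∧ M 2 = 0 ∧ M 3 = 0 ∧ M 4 = 1 := by
    have h1 : M 2 ≤ 1 := by omega
    have h2 : M 3 = 0 := by omega
    have h3 : M 4 ≤ 1 := by omega
    interval_cases M 2 <;> interval_cases M 4 <;> omega
  have h2 : sz l ≤ 4 := Finset.card_le_univ _
  rw [hm, mx]
  generalize sz l = s at h2
  interval_cases s <;> simp [h1]

end Cfsg.Agent.Lib.AltSec
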