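import Cfsg.Agent.Lib.AltSec.Wt2

/-! The Sylow 3-subgroup of `A₁₈`. -/

set_option autoImplicit false
set_option linter.style.haveILetI false
set_option linter.unusedSectionVars false
set_option maxRecDepth 100000

namespace Cfsg.Agent.Lib.AltSec

open Equiv Module Cfsg.Agent.Lib.Forms Matrix Cfsg.Agent.Lib.Core

def c6 (i : Fin 6) : Perm (Fin 6 × Z3) := cc (Pi.single i 1)
def y6 : Fin 2 → Perm (Fin 6 × Z3) := ![(sq (c3 0 1 2) 1)⁻¹, (sq (c3 3 4 5) 1)⁻¹]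
def S6 : Subgroup (Perm (Fin 6 × Z3)) := Subgroup.closure (Set.range c6 ∪ Set.range y6)
def yy6 (a : Fin 2 → Z3) : Perm (Fin 6 × Z3) := y6 0 ^ (a 0).val * y6 1 ^ (a 1).val
def hb6 : Perm (Fin 6 × Z3) := ⟨hbF 6, hbG 6, by decide +kernel, by decide +kernel⟩
def b6 (j : Fin 3) : Fin 6 → Z3 := Pi.single (Fin.natAdd 3 j) 1
def cd6 (l : Fin 6 → Z3) : ℕ := 9 * (l 0).val + 3 * (l 1).val + (l 2).val
def s6 : Perm (Fin 6) := (swap 0 3 * List.formPerm [1, 4, 2, 5])⁻¹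

theorem y6_mem (j : Fin 2) : y6 j ∈ S6 := Subgroup.subset_closure (Or.inr ⟨j, rfl⟩)
theorem cc6_mem (a : Fin 6 → Z3) : cc a ∈ S6 := cc_mem (fun i => Subgroup.subset_closure (Or.inl ⟨i, rfl⟩)) a
theorem yy6_mem (a : Fin 2 → Z3) : yy6 a ∈ S6 := mul_mem (pow_mem (y6_mem 0) _) (pow_mem (y6_mem 1) _)

theorem c6_y6 : ∀ i k, ∃ i', y6 k * c6 i * (y6 k)⁻¹ = c6 i' := by decide +kernel

theorem S6_p : IsPGroup 3 S6 :=
  isPGroup_closure₂ (by decide +kernel) (by decide +kernel) (by decide +kernel) (by decide +kernel) c6_y6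

theorem S6_syl : IsSyl 3 S6 (alternatingGroup _) := by
  haveI := Fact.mk Nat.prime_three
  refine isSyl_of_le S6_p (le_alt (by decide) S6_p) (k := 8) (pow_le_card S6_p
    ![c6 0, c6 1, c6 2, c6 3, c6 4, c6 5, y6 0, y6 1] (fun i => ?_)
    (fun i p => if i.val < 6 then p = (Fin.ofNat 6 i.val, 0) else p.1.val = 3 * (i.val - 6))
    (by decide +kernel +revert) (by decide +kernel +revert)) (by decide +kernel)
  fin_cases i
  exacts [cc6_mem _, cc6_mem _, cc6_mem _, cc6_mem _, cc6_mem _, cc6_mem _, y6_mem 0, y6_mem 1]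

theorem sign6 : ∀ i j k : Fin 6, i ≠ j → Perm.sign (sq (swap i j) (ng k)) = 1 := by decide +kernel

theorem canon6 : ∀ l : Fin 6 → Z3, l = cn 6 (sz l) ∨ (∃ k, sz (sg 1 (ng k) l) = sz l ∧ pot (sg 1 (ng k) l) < pot l) ∨
    ∃ i j, sz (sg (swap i j) 1 l) = sz l ∧ pot (sg (swap i j) 1 l) < pot l := by decide +kernel

theorem Min.ker18 {H : Type*} [Group H] [Finite H] {π : H →* Perm (Fin 6 × Z3)} (h : Min π)
    (hZ : ∀ κ, π κ = 1 → PE 3 κ → κ ∈ Subgroup.center H) {κ : H} (h1 : π κ = 1) (h2 : PE 3 κ) : κ = 1 := by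
  haveI := Fact.mk Nat.prime_three
  refine h.ker_triv (by decide) hZ S6_syl (j := 1) (by decide) (fun i i' => ⟨by revert i i'; decide +kernel, ?_⟩)
    (fun i i' => ⟨by revert i i'; decide +kernel, ?_⟩) c6_y6 (ι := sq 1 fun _ => -1) (by decide +kernel)
    (by decide +kernel) (by decide +kernel) h1 h2
  · have : ∀ i i' : Fin 6, i = i' ∨ ∃ k, Perm.sign (sq 1 (ng i * ng k)) = 1 ∧
      sq 1 (ng i * ng k) * c6 i * (sq 1 (ng i * ng k))⁻¹ = c6 i ^ (1 + 1) ∧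
      sq 1 (ng i * ng k) * c6 i' * (sq 1 (ng i * ng k))⁻¹ = c6 i' := by decide +kernel
    exact (this i i').imp_right fun ⟨k, hk⟩ => ⟨_, hk⟩
  · let σ : Fin 2 → Perm (Fin 6 × Z3) := ![sq (swap 0 1) (ng 3 * ng 4 * ng 5), sq (swap 3 4) (ng 0 * ng 1 * ng 2)]
    have : ∀ i i' : Fin 2, i = i' ∨ Perm.sign (σ i) = 1 ∧ σ i * y6 i * (σ i)⁻¹ = y6 i ^ (1 + 1) ∧
      σ i * y6 i' * (σ i)⁻¹ = y6 i' := by decide +kernel +revert
    exact (this i i').imp_right fun hk => ⟨_, hk⟩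

end Cfsg.Agent.Lib.AltSec
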