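import Cfsg.Agent.Lib.AltSec.Nrm

/-! Torus elements of finite order: reduction to the fundamental alcove. -/

set_option autoImplicit false
set_option linter.style.haveILetI false
set_option linter.unusedSectionVars false

namespace Cfsg.Agent.Lib.AltSec
open Matrix Cfsg.Lie Cfsg.Agent.Lib.Chev Equiv

section
variable {Φ : Type} [Fintype Φ] {n : ℕ} (R : RS Φ n)

structure Kil (h : ℕ) (θ : Fin n → ℤ) : Prop where
  pos : 0 < h
  kil : ∀ i j, ∑ r, R.ρ r j * (R.cart i ⬝ᵥ R.ρ r) = if i = j then 2 * (h : ℤ) else 0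
  th : ∑ i, θ i * (R.cart i ⬝ᵥ θ) = 2

variable {R}

theorem dot_sL (l : Fin n → ℤ) (i : Fin n) (v : Fin n → ℤ) : (l - l i • R.cart i) ⬝ᵥ v = l ⬝ᵥ R.sL i v := by
  rw [RS.sL_apply, sub_dotProduct, smul_dotProduct, dotProduct_sub, dotProduct_smul, dotProduct_single, mul_one,
    smul_eq_mul, smul_eq_mul, mul_comm]; rfl

theorem Kil.sum {h : ℕ} {θ : Fin n → ℤ} (hK : Kil R h θ) (l c : Fin n → ℤ) :
    ∑ r, (l ⬝ᵥ R.ρ r) * ((∑ i, c i • R.cart i) ⬝ᵥ R.ρ r) = 2 * h * (l ⬝ᵥ c) := by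
  have : ∀ r, (l ⬝ᵥ R.ρ r) * ((∑ i, c i • R.cart i) ⬝ᵥ R.ρ r) =
      ∑ j, ∑ i, l j * c i * (R.ρ r j * (R.cart i ⬝ᵥ R.ρ r)) := fun r => by
    rw [sum_dotProduct, dotProduct, Finset.sum_mul_sum]
    exact Finset.sum_congr rfl fun j _ => Finset.sum_congr rfl fun i _ => by rw [smul_dotProduct, smul_eq_mul]; ring
  simp only [this]
  rw [Finset.sum_comm, dotProduct, Finset.mul_sum]
  refine Finset.sum_congr rfl fun j _ => ?_
  rw [Finset.sum_comm]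
  simp only [← Finset.mul_sum, hK.kil, mul_ite, mul_zero, Finset.sum_ite_eq', Finset.mem_univ, if_true]
  ring

theorem alcove {h : ℕ} {θ : Fin n → ℤ} (hK : Kil R h θ) {m : ℕ} (hm : 0 < m) (l : Fin n → ℤ) :
    ∃ l' : Fin n → ℤ, (∃ w, ∀ v, ((l' ⬝ᵥ v : ℤ) : ZMod m) = (l ⬝ᵥ R.LW w v : ℤ)) ∧ (∀ i, 0 ≤ l' i) ∧ l' ⬝ᵥ θ ≤ m := by
  let S : Set (Fin n → ℤ) := {l' | ∃ w, ∀ v, ((l' ⬝ᵥ v : ℤ) : ZMod m) = (l ⬝ᵥ R.LW w v : ℤ)}
  let Q : (Fin n → ℤ) → ℤ := fun l => ∑ r, (l ⬝ᵥ R.ρ r) ^ 2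
  let Q' : (Fin n → ℤ) → ℤ := fun l => ∑ r, (l ⬝ᵥ R.ρ r - 1 ⬝ᵥ R.ρ r) ^ 2
  have hQ : ∀ l, 0 ≤ Q l := fun l => Finset.sum_nonneg fun _ _ => sq_nonneg _
  have hQ' : ∀ l, 0 ≤ Q' l := fun l => Finset.sum_nonneg fun _ _ => sq_nonneg _
  obtain ⟨l1, h1, h2⟩ := (measure fun l => (Q l).toNat).wf.has_min S ⟨l, [], fun _ => rfl⟩
  obtain ⟨l2, ⟨⟨w, h3⟩, h4⟩, h5⟩ := (measure fun l => (Q' l).toNat).wf.has_min {l' | l' ∈ S ∧ Q l' = Q l1} ⟨l1, h1, rfl⟩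
  have hh : (0 : ℤ) < h := by exact_mod_cast hK.pos
  have e : ∀ l, Q' l = Q l - 2 * ∑ r, (1 ⬝ᵥ R.ρ r) * (l ⬝ᵥ R.ρ r) + ∑ r, (1 ⬝ᵥ R.ρ r) ^ 2 := fun l => by
    simp only [Q, Q', Finset.mul_sum, ← Finset.sum_sub_distrib, ← Finset.sum_add_distrib]
    exact Finset.sum_congr rfl fun r _ => by ring
  refine ⟨l2, ⟨w, h3⟩, fun i => not_lt.1 fun h6 => ?_, not_lt.1 fun h6 => ?_⟩
  · have h7 : Q (l2 - l2 i • R.cart i) = Q l2 := by
      simp only [Q, dot_sL, ← R.ρ_refl']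
      exact Equiv.sum_comp (Function.Involutive.toPerm _ (R.refl_refl i)) fun r => (l2 ⬝ᵥ R.ρ r) ^ 2
    suffices h9 : Q' (l2 - l2 i • R.cart i) < Q' l2 from
      h5 (l2 - l2 i • R.cart i) ⟨⟨i :: w, fun v => by rw [dot_sL, h3]; rfl⟩, h7.trans h4⟩
        ((Int.toNat_lt_toNat ((hQ' _).trans_lt h9)).2 h9)
    · have h8 := hK.sum 1 (Pi.single i 1)
      simp only [Pi.single_apply, ite_smul, one_smul, zero_smul, Finset.sum_ite_eq', Finset.mem_univ, if_true,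
        dotProduct_single, Pi.one_apply, mul_one] at h8
      rw [e, e, h7]
      simp only [sub_dotProduct, smul_dotProduct, smul_eq_mul, mul_sub, Finset.sum_sub_distrib, mul_left_comm _ (l2 i),
        ← Finset.mul_sum, h8]
      nlinarith
  · let c := ∑ i, θ i • R.cart i
    have h7 : Q (l2 - (m : ℤ) • c) < Q l1 := by
      have h8 := hK.sum l2 θ
      have h9 := hK.sum c θ
      have h10 : c ⬝ᵥ θ = 2 := by
        simp only [c, sum_dotProduct, smul_dotProduct, smul_eq_mul, hK.th]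
      have : Q (l2 - (m : ℤ) • c) = Q l2 - 2 * m * ∑ r, (l2 ⬝ᵥ R.ρ r) * (c ⬝ᵥ R.ρ r) +
          m * m * ∑ r, (c ⬝ᵥ R.ρ r) * (c ⬝ᵥ R.ρ r) := by
        simp only [Q, Finset.mul_sum, ← Finset.sum_sub_distrib, ← Finset.sum_add_distrib, sub_dotProduct,
          smul_dotProduct, smul_eq_mul]
        exact Finset.sum_congr rfl fun r _ => by ring
      have h11 : (0 : ℤ) < m := by exact_mod_cast hm
      rw [this, h8, h9, h10, h4]
      nlinarith [mul_pos (mul_pos hh h11) (sub_pos.2 h6)]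
    exact h2 _ ⟨w, fun v => by rw [← h3, sub_dotProduct, smul_dotProduct]; simp⟩ ((Int.toNat_lt_toNat ((hQ _).trans_lt h7)).2 h7)

variable (R) in
def Stab {N : ℕ} (u : Fin N → Fin n → ℤ) : Prop := ∀ w, ∃ σ : Perm (Fin N), ∀ a, u (σ a) = R.LW w (u a)

omit [Fintype Φ] in
theorem stab_of {N : ℕ} {u : Fin N → Fin n → ℤ} (h1 : Function.Injective u) (h2 : ∀ i a, ∃ b, u b = R.sL i (u a)) :
    Stab R u := fun w => by
  choose f hf using h2
  induction w with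
  | nil => exact ⟨1, fun _ => rfl⟩
  | cons i w ih =>
    obtain ⟨σ, hσ⟩ := ih
    exact ⟨σ * Function.Involutive.toPerm (f i) fun a => h1 (by rw [hf, hf, RS.sL_sL]), fun a =>
      (hσ (f i a)).trans (by rw [hf]; rfl)⟩

def cz {N : ℕ} (u : Fin N → Fin n → ℤ) (m : ℕ) (l : Fin n → ℤ) (t : ZMod m) : ℕ :=
  (Finset.univ.filter fun a => ((l ⬝ᵥ u a : ℤ) : ZMod m) = t).card

omit [Fintype Φ] in
theorem cz_eq {N : ℕ} {u : Fin N → Fin n → ℤ} (h : Stab R u) {m : ℕ} {l l' : Fin n → ℤ} {w : List (Fin n)}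
    {j : (ZMod m)ˣ} (e : ∀ v, (j : ZMod m) * (l' ⬝ᵥ v : ℤ) = (l ⬝ᵥ R.LW w v : ℤ)) (t : ZMod m) :
    cz u m l' t = cz u m l (j * t) := by
  obtain ⟨σ, hσ⟩ := h w
  exact Finset.card_equiv σ fun a => by simp only [Finset.mem_filter, Finset.mem_univ, true_and, hσ, ← e,
    Units.mul_right_inj]

end

/-! ### kernel computations -/

def allK (ms : List ℕ) : ℕ → (List ℕ → Bool) → Bool :=
  List.rec (fun _ p => p []) (fun m _ ih b p => nall (fun s => ih (Nat.sub b (Nat.mul m s)) fun l => p (s :: l))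
    (Nat.succ (Nat.div b m))) ms

theorem of_allK {n : ℕ} {θ : Fin n → ℕ} (hθ : ∀ i, 0 < θ i) {b : ℕ} {p : List ℕ → Bool}
    (h : allK (List.ofFn θ) b p = true) {l : Fin n → ℕ} (hl : l ⬝ᵥ θ ≤ b) : p (List.ofFn l) = true := by
  induction n generalizing b p with
  | zero => simpa [allK] using h
  | succ n ih =>
    rw [List.ofFn_succ] at h ⊢
    rw [dotProduct, Fin.sum_univ_succ] at hl
    refine ih (fun i => hθ i.succ) ((nall_iff (fun s => allK (List.ofFn fun i => θ i.succ) (b - θ 0 * s)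
      fun l => p (s :: l)) (b / θ 0 + 1)).1 h (l 0) (Nat.lt_succ_of_le ?_)) (l := fun i => l i.succ) ?_
    · exact (Nat.le_div_iff_mul_le (hθ 0)).2 (by omega)
    · exact Nat.le_sub_of_add_le (by rw [mul_comm, add_comm]; exact hl)

def dotN (f : ℕ → ℕ) (l : List ℕ) : ℕ → ℕ := List.rec (fun _ => 0) (fun a _ ih i => Nat.add (Nat.mul a (f i)) (ih (Nat.succ i))) l

theorem dotN_ofFn (f : ℕ → ℕ) {n : ℕ} (l : Fin n → ℕ) (k : ℕ) : dotN f (List.ofFn l) k = ∑ i, l i * f (k + i) := by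
  induction n generalizing k with
  | zero => simp [dotN]
  | succ n ih =>
    rw [List.ofFn_succ, Fin.sum_univ_succ]
    exact congrArg₂ _ rfl ((ih _ _).trans (Finset.sum_congr rfl fun i _ => by simp [add_assoc, add_comm 1]))

def cntB (p : ℕ → Bool) (N : ℕ) : ℕ := Nat.rec 0 (fun a ih => Bool.rec ih (Nat.succ ih) (p a)) N

theorem cntB_eq (p : ℕ → Bool) (N : ℕ) : cntB p N = (Finset.univ.filter fun a : Fin N => p a = true).card := by
  rw [Finset.card_filter, ← Finset.sum_range (fun a => if p a = true then 1 else 0)]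
  induction N with
  | zero => rfl
  | succ N ih =>
    rw [Finset.sum_range_succ, ← ih]
    change (Bool.rec (cntB p N) (cntB p N + 1) (p N) : ℕ) = _
    cases p N <;> simp

def cntN (tab : ℕ → ℕ → ℕ) (N m : ℕ) (l : List ℕ) (t : ℕ) : ℕ :=
  cntB (fun a => Nat.beq (Nat.mod (dotN (fun i => Nat.add (tab a i) (Nat.mul 8 (Nat.pred m))) l 0) m) t) N

theorem cz_cntN {n N : ℕ} {u : Fin N → Fin n → ℤ} {tab : ℕ → ℕ → ℕ} (h : ∀ a i, u a i = (tab a i : ℤ) - 8) {m : ℕ}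
    [NeZero m] (l : Fin n → ℕ) (t : ZMod m) : cz u m (fun i => l i) t = cntN tab N m (List.ofFn l) t.val := by
  rw [cntN, cntB_eq, cz]
  congr 1
  refine Finset.filter_congr fun a _ => ?_
  rw [Nat.beq_eq, dotN_ofFn, show ∀ x, Nat.mod x m = x % m from fun _ => rfl, ← ZMod.val_natCast,
    (ZMod.val_injective m).eq_iff]
  refine Eq.congr_left ?_
  obtain ⟨k, rfl⟩ := Nat.exists_eq_succ_of_ne_zero (NeZero.ne m)
  have : ((k : ℕ) : ZMod (k + 1)) = -1 := eq_neg_of_add_eq_zero_left (by exact_mod_cast ZMod.natCast_self (k + 1))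
  simp only [dotProduct, h, Nat.add_eq, Nat.mul_eq, Nat.pred_succ, zero_add]
  push_cast
  exact Finset.sum_congr rfl fun i _ => by rw [this]; ring

theorem alc {Φ : Type} [Fintype Φ] {n : ℕ} {R : RS Φ n} {h : ℕ} {θ : Fin n → ℕ} (hK : Kil R h fun i => θ i)
    (hθ : ∀ i, 0 < θ i) {m : ℕ} [NeZero m] {p : List ℕ → Bool} (hp : allK (List.ofFn θ) m p = true) (l : Fin n → ℤ) :
    ∃ L, p L = true ∧ ∀ {N : ℕ} {u : Fin N → Fin n → ℤ} {tab : ℕ → ℕ → ℕ}, Stab R u →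
      (∀ a i, u a i = (tab a i : ℤ) - 8) → ∀ t, cz u m l t = cntN tab N m L t.val := by
  obtain ⟨l', ⟨w, h1⟩, h2, h3⟩ := alcove hK (NeZero.pos m) l
  lift l' to Fin n → ℕ using h2
  refine ⟨_, of_allK hθ hp (l := l') (by simp only [dotProduct] at h3 ⊢; exact_mod_cast h3), fun hu ht t => ?_⟩
  rw [← cz_cntN ht, cz_eq hu (j := 1) (w := w) (l := l) (l' := fun i => l' i) (by simpa using h1), Units.val_one, one_mul]

variable {D : ChevalleyDatum} (K : Cert D) {F : Type*} [Field F]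

theorem stab_root : Stab K.R K.R.ρ := fun w => ⟨pw K w, K.R.ρ_inv w⟩

theorem exists_lam {n m : ℕ} [NeZero m] {ζ : Fˣ} (hζ : IsPrimitiveRoot ζ m) {χ : Chr n F} (h : χ ^ m = 1) :
    ∃ l : Fin n → ℤ, ∀ v, χ.ev v = ζ ^ (l ⬝ᵥ v) := by
  have : ∀ i, ∃ k : ℕ, ζ ^ k = χ.ev (Pi.single i 1) := fun i => by
    obtain ⟨k, -, hk⟩ := hζ.eq_pow_of_mem_rootsOfUnity (ξ := χ.ev (Pi.single i 1))
      (by rw [mem_rootsOfUnity, ← Chr.ev_pow, h, Chr.ev_one])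
    exact ⟨k, hk⟩
  choose l hl using this
  refine ⟨fun i => l i, fun v => ?_⟩
  rw [show χ = Chr.mk fun i => ζ ^ l i from Chr.ext' fun i => by rw [Chr.ev_mk_single, hl], Chr.ev_mk, dotProduct]
  induction (Finset.univ : Finset (Fin n)) using Finset.induction_on with
  | empty => simp
  | insert a s ha ih => rw [Finset.sum_insert ha, Finset.prod_insert ha, _root_.zpow_add, ih, _root_.zpow_mul, zpow_natCast]

theorem zpow_eq_iff {m : ℕ} {ζ : Fˣ} (hζ : IsPrimitiveRoot ζ m) {a b : ℤ} :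
    ζ ^ a = ζ ^ b ↔ (a : ZMod m) = b := by
  rw [← mul_inv_eq_one, ← _root_.zpow_sub, hζ.zpow_eq_one_iff_dvd, eq_comm, ZMod.intCast_eq_intCast_iff_dvd_sub]

/-- rational torus elements -/
theorem cz_rat {m : ℕ} {ζ : Fˣ} (hζ : IsPrimitiveRoot ζ m) {χ : Chr D.rank F} {l : Fin D.rank → ℤ}
    (hl : ∀ v, χ.ev v = ζ ^ (l ⬝ᵥ v)) {g : GL D.Idx F} (hg : g ∈ D.group F) {j : (ZMod m)ˣ} [NeZero m]
    (h : g * K.h χ * g⁻¹ = K.h χ ^ (j : ZMod m).val) {N : ℕ} {u : Fin N → Fin D.rank → ℤ} (hu : Stab K.R u)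
    (t : ZMod m) : cz u m l t = cz u m l (j * t) := by
  obtain ⟨w, _, _, _, -, -, -, -, hw⟩ := K.fusion hg
  refine cz_eq hu (w := w) (fun v => ?_) t
  have := congrArg (Chr.ev · v) (hw χ _ (h.trans (K.h.map_pow _ _).symm)).1
  simp only [Chr.ev_pow, Chr.ev_comp, hl] at this
  rw [← zpow_natCast, ← _root_.zpow_mul, zpow_eq_iff hζ] at this
  rw [← this]; simp [mul_comm]

theorem cz_lt {m : ℕ} {ζ : Fˣ} (hζ : IsPrimitiveRoot ζ m) {χ : Chr D.rank F} {l : Fin D.rank → ℤ}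
    (hl : ∀ v, χ.ev v = ζ ^ (l ⬝ᵥ v)) (h : K.h χ ≠ 1) : cz K.R.ρ m l 0 ≠ D.nroots := fun e => h (by
  replace e := (Finset.card_eq_iff_eq_univ _).1 (e.trans (Fintype.card_fin D.nroots).symm)
  rw [K.chr_ext (χ := χ) (ψ := 1) fun r => ?_, map_one]
  rw [hl, Chr.ev_one, ← zpow_zero ζ, zpow_eq_iff hζ, Int.cast_zero]
  exact (Finset.mem_filter.1 (e.ge (Finset.mem_univ r))).2)

end Cfsg.Agent.Lib.AltSec
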