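import Cfsg.Agent.Lib.AltSec.E7Dat

/-! Elementary abelian subgroups of the monomial group: cells of roots. -/

set_option autoImplicit false
set_option linter.style.haveILetI false
set_option linter.unusedSectionVars false

namespace Cfsg.Agent.Lib.AltSec
open Matrix Cfsg.Lie Cfsg.Agent.Lib.Chev Cfsg.Agent.Lib.Core Cfsg.Agent.Lib.Forms Equiv Module Finset
open scoped MatrixGroups

noncomputable section

def dl (m : ℕ) {n : ℕ} (l : Fin n → ℤ) : (Fin n → ℤ) →+ ZMod m :=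
  AddMonoidHom.mk' (fun v => ((l ⬝ᵥ v : ℤ) : ZMod m)) fun a b => by rw [dotProduct_add, Int.cast_add]

section
variable {D : ChevalleyDatum} {K : Cert D} {E : Type*} [Field E] {H : Type*} [Group H] {ι : H →* GL D.Idx E}
  {h : ℕ} {θ : Fin D.rank → ℕ} [Finite E] {l c d : ℕ} [hl : Fact l.Prime] {ζ : Eˣ}

structure Cells (K : Cert D) (l q : ℕ) {A : Type*} [CommGroup A] (X : A →* H) (w : A →* Perm (Fin D.nroots))
    (lam : A → Fin D.rank → ℤ) : Prop where
  card : Nat.card A ≤ l * Nat.card w.ker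
  weyl : ∀ a, ∃ u, ⇑(w a) = K.R.inv u
  fix : ∀ a, w a ≠ 1 → ∃ k < D.rank, q ^ k ≡ q ^ D.rank [MOD l] ∧ #{r | w a r = r} ≤ q ^ k
  mul : ∀ a ∈ w.ker, ∀ b ∈ w.ker, dl l (lam (a * b)) = dl l (lam a) + dl l (lam b)
  inv : ∀ z, ∀ a ∈ w.ker, ∀ r, dl l (lam a) (K.R.ρ (w z r)) = dl l (lam a) (K.R.ρ r)
  ne : ∀ a ∈ w.ker, a ≠ 1 → cz K.R.ρ l (lam a) 0 ≠ D.nroots
  fus : ∀ g, ∃ u, ∀ a ∈ w.ker, ∀ b ∈ w.ker, g * X a * g⁻¹ = X b → ∀ v, dl l (lam b) v = dl l (lam a) (K.R.LW u v)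

theorem Emb.cells (hD : Dat K h θ) (hp : Par D h l c d) (hζ : IsPrimitiveRoot ζ (l ^ (c + d + 1))) (he : Emb D ι)
    {q : ℕ} [Fact q.Prime] (hq : ∀ r s, (∀ i, (K.R.ρ r i : ZMod q) = K.R.ρ s i) → s = r)
    (hB : ¬ l ^ (1 + 1) ∣ Nat.card (GL (Fin D.rank) (ZMod q))) {A : Type*} [CommGroup A] [Finite A] {X : A →* H}
    (hX : Function.Injective X) (hA : ∀ a : A, a ^ l = 1) : ∃ w lam, Cells K l q X w lam := by
  have hs : Sep K q := fun r s e => Or.inl (hq r s e)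
  obtain ⟨y, h1, h2⟩ := he.toN hD hp hζ (P := X.range) (isPGroup_of_forall_pow (by
    rintro _ ⟨a, rfl⟩; exact ⟨1, by rw [pow_one, ← map_pow, hA, map_one]⟩))
  replace he := he.conj h1
  replace h2 : ∀ a, (MulAut.conj y).toMonoidHom.comp ι (X a) ∈ NN K E hD.eta := fun a => h2 _ ⟨a, rfl⟩
  generalize (MulAut.conj y).toMonoidHom.comp ι = ι at he h2
  let Y : A →* NN K E hD.eta := (ι.comp X).codRestrict _ h2
  have hY : ∀ a, Y a ^ l = 1 := fun a => by rw [← map_pow, hA, map_one]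
  have hζ' := prim_pow hl.out hζ
  have h3 : ∀ a, ∃ lam : Fin D.rank → ℤ, a ∈ ((sig K hD.eta).comp Y).ker → ∃ χ, K.h χ = ι (X a) ∧
      ∀ v, χ.ev v = (ζ ^ l ^ (c + d)) ^ (lam ⬝ᵥ v) := fun a => by
    by_cases ha : a ∈ ((sig K hD.eta).comp Y).ker
    · obtain ⟨χ, hχ⟩ := sig_eq_one.1 ha
      replace hχ : K.h χ = ι (X a) := hχ
      obtain ⟨lam, h⟩ := exists_lam hζ' (χ := χ) (K.h_inj (by
        rw [K.h.map_pow, hχ, ← map_pow, ← map_pow, hA, map_one, map_one, map_one]))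
      exact ⟨lam, fun _ => ⟨χ, hχ, h⟩⟩
    · exact ⟨0, fun h => absurd h ha⟩
  choose lam h3 using h3
  choose! χ h3 h4 using h3
  have hk : ∀ a, phi K hD.eta q (Y a) = 1 → sig K hD.eta (Y a) = 1 := fun a e =>
    sig_eq_one.2 (mem_T_of_phi hs e (hl.out.odd_of_ne_two hp.ne) (hY a))
  refine ⟨(sig K hD.eta).comp Y, lam, ?_, fun a => sig_W _, fun a ha => ?_, fun a ha b hb => ?_, fun z a ha r => ?_,
    fun a ha e => cz_lt K hζ' (h4 a ha) (by rwa [h3 a ha, Ne, map_eq_one_iff _ he.inj, map_eq_one_iff _ hX]),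
    fun g => ?_⟩
  · rw [Subgroup.card_eq_card_quotient_mul_card_subgroup ((phi K hD.eta q).comp Y).ker,
      Nat.card_congr (QuotientGroup.quotientKerEquivRange _).toEquiv]
    refine Nat.mul_le_mul ((card_le_of_exp ?_ hB).trans_eq (pow_one _)) (Subgroup.card_le_of_le hk)
    rintro _ ⟨a, rfl⟩
    rw [← map_pow, hA, map_one]
  · obtain ⟨k, h5, h6, h7⟩ := card_fix (l := l) (M := mat K q (sig K hD.eta (Y a)))
      (by rw [← phi_val, ← Units.val_pow_eq_pow_val, ← map_pow, hY, map_one, Units.val_one])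
      fun e => ha (hk a (Units.ext e))
    refine ⟨k, h5, h6, h7 ▸ card_le_card_of_injOn (fun r i => (K.R.ρ r i : ZMod q)) (fun r hr => ?_)
      fun r _ s _ e => (hq r s (congrFun e)).symm⟩
    simp only [coe_filter, mem_univ, true_and, Set.mem_ofPred_eq] at hr ⊢
    rw [mat_sig]
    exact congrArg (fun s i => (K.R.ρ s i : ZMod q)) hr
  · refine DFunLike.ext _ _ fun v => ?_
    have := h4 _ (mul_mem ha hb) v
    rw [K.h_inj (show K.h (χ (a * b)) = K.h (χ a * χ b) by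
      rw [map_mul, h3 a ha, h3 b hb, h3 _ (mul_mem ha hb), map_mul, map_mul]), Chr.ev_mul, h4 a ha, h4 b hb,
      ← _root_.zpow_add, zpow_eq_iff hζ', Int.cast_add] at this
    exact this.symm
  · have := sig_h (g := Y z) (χ := χ a) (χ' := χ a) (by
      rw [h3 a ha, mul_inv_eq_iff_eq_mul]
      exact (((Commute.all z a).map X).map ι).eq) r
    rwa [h4 a ha, h4 a ha, zpow_eq_iff hζ'] at this
  · obtain ⟨u, _, _, _, -, -, -, -, hu⟩ := K.fusion (he.mem g)
    refine ⟨u, fun a ha b hb e v => ?_⟩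
    have := congrArg (Chr.ev · v) (hu (χ a) (χ b) (by rw [h3 a ha, h3 b hb, ← e]; simp)).1
    simp only [Chr.ev_comp, h4 a ha, h4 b hb] at this
    exact (zpow_eq_iff hζ').1 this

variable {q : ℕ} {A : Type*} [CommGroup A] {X : A →* H} {w : A →* Perm (Fin D.nroots)} {lam : A → Fin D.rank → ℤ}

theorem Cells.one (h : Cells K l q X w lam) : dl l (lam 1) = 0 := by
  simpa using h.mul 1 (one_mem _) 1 (one_mem _)

theorem Cells.pow (h : Cells K l q X w lam) {a : A} (ha : a ∈ w.ker) (j : ℕ) : dl l (lam (a ^ j)) = j • dl l (lam a) := by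
  induction j with
  | zero => rw [pow_zero, h.one, zero_smul]
  | succ j ih => rw [pow_succ, h.mul _ (pow_mem ha _) _ ha, ih, succ_nsmul]

theorem Cells.rat (h : Cells K l q X w lam) {a : A} (ha : a ∈ w.ker) {j : (ZMod l)ˣ} {g : H}
    (e : g * X a * g⁻¹ = X (a ^ (j : ZMod l).val)) (t : ZMod l) : cz K.R.ρ l (lam a) t = cz K.R.ρ l (lam a) (j * t) := by
  obtain ⟨u, hu⟩ := h.fus g
  refine cz_eq (stab_root K) (w := u) (fun v => ?_) t
  have := hu a ha _ (pow_mem ha _) e v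
  rw [h.pow ha, AddMonoidHom.nsmul_apply, nsmul_eq_mul, ZMod.natCast_zmod_val] at this
  exact this

end

section
variable {α : Type*} [Fintype α] [DecidableEq α] {l : ℕ} [hl : Fact l.Prime] {σ : Perm α} (hσ : σ ^ l = 1)
  {p : α → Prop} [DecidablePred p] (hp : ∀ x, p (σ x) ↔ p x)
include hσ hp

theorem exists_fix (h : ¬ l ∣ #{x | p x}) : ∃ x, p x ∧ σ x = x := by
  obtain ⟨x, hx⟩ := Perm.exists_fixed_point_of_prime (p := l) (n := 1) (σ := σ.subtypePerm hp)
    (by rwa [Fintype.card_subtype]) (by rw [pow_one, Perm.subtypePerm_pow]; simp only [hσ]; rfl)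
  exact ⟨x, x.2, congrArg Subtype.val hx⟩

theorem fix_of_lt (h : #{x | p x} < l) {x : α} (hx : p x) : σ x = x := by
  have := perm_pow hl.out (f := σ.subtypePerm hp) (k := 1) (c := 0)
    (by rw [pow_one, Perm.subtypePerm_pow]; simp only [hσ]; rfl) (by rwa [Fintype.card_subtype, zero_add, pow_one])
  rw [pow_zero, pow_one] at this
  exact congrArg Subtype.val (DFunLike.congr_fun this ⟨x, hx⟩)

end

theorem card_eq_hom {B : Type*} [CommGroup B] [Fintype B] {l : ℕ} [hl : Fact l.Prime]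
    {φ ψ : B →* Multiplicative (ZMod l)} (h : φ ≠ ψ) : l * #{b | φ b = ψ b} = Fintype.card B := by
  have h1 : (φ / ψ).range = ⊤ := by
    haveI : Fact (Nat.card (Multiplicative (ZMod l))).Prime := ⟨by simpa using hl.out⟩
    exact ((φ / ψ).range.eq_bot_or_eq_top_of_prime_card).resolve_left fun e =>
      h (div_eq_one.1 (MonoidHom.range_eq_bot_iff.1 e))
  have h2 := Subgroup.card_eq_card_quotient_mul_card_subgroup (φ / ψ).ker
  rw [Nat.card_congr (QuotientGroup.quotientKerEquivRange _).toEquiv, h1, Subgroup.card_top,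
    Nat.card_eq_fintype_card (α := B)] at h2
  rw [h2, ← Fintype.card_subtype, ← Nat.card_eq_fintype_card]
  exact congrArg₂ _ (by simp) (Nat.card_congr (Equiv.subtypeEquivRight fun b => by simp [div_eq_one]))

theorem cell_count {Φ B : Type*} [Fintype Φ] [CommGroup B] [Fintype B] {l : ℕ} [hl : Fact l.Prime]
    (χ : Φ → B →* Multiplicative (ZMod l)) (ψ : B →* Multiplicative (ZMod l)) [DecidablePred fun r => χ r = ψ] :
    l * ∑ b, #{r | χ r b = ψ b} + #{r | χ r = ψ} * Fintype.card B =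
      (l * #{r | χ r = ψ} + Fintype.card Φ) * Fintype.card B := by
  have : ∑ b, #{r | χ r b = ψ b} = ∑ r, #{b | χ r b = ψ b} := by simp only [card_filter]; exact sum_comm
  rw [this, card_filter, ← card_univ (α := Φ), card_eq_sum_ones univ]
  simp only [mul_sum, sum_mul, ← sum_add_distrib]
  refine sum_congr rfl fun r _ => ?_
  split_ifs with h
  · simp [h, add_mul]
  · simp [card_eq_hom h]

theorem exists_top {Φ : Type} {n : ℕ} (R : RS Φ n) (β : Φ) {S : Finset Φ} (hS : S.Nonempty) :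
    ∃ γ ∈ S, ∀ δ ∈ S, R.ρ δ ≠ R.ρ β + R.ρ γ := by
  obtain ⟨γ, h1, h2⟩ := exists_max_image S (fun γ => R.ρ β ⬝ᵥ R.ρ γ) hS
  refine ⟨γ, h1, fun δ h3 e => R.ne_zero β (dotProduct_self_eq_zero.1 (le_antisymm ?_ ?_))⟩
  · have := h2 δ h3
    rw [e, dotProduct_add] at this
    omega
  · exact sum_nonneg fun i _ => mul_self_nonneg _

end

/-! ### the standard elementary abelian subgroup of the symmetric group -/

variable {k l : ℕ}

def cv (k l : ℕ) : Multiplicative (Fin k → ZMod l) →* Perm (Fin k × ZMod l) :=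
  MonoidHom.mk' (fun v => ⟨fun p => (p.1, p.2 + v.toAdd p.1), fun p => (p.1, p.2 - v.toAdd p.1), fun p => by simp,
    fun p => by simp⟩) fun a b => by ext p <;> simp [add_comm, add_left_comm]

theorem cv_inj : Function.Injective (cv k l) := fun a b h => Multiplicative.toAdd.injective (funext fun i => by
  simpa [cv] using congrArg Prod.snd (DFunLike.congr_fun h (i, 0)))

theorem cv_exp (a : Multiplicative (Fin k → ZMod l)) : a ^ l = 1 :=
  Multiplicative.toAdd.injective (funext fun i => by simp)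

def mo (τ : Perm (Fin k)) (g : (ZMod l)ˣ) (e : Fin k → ℕ) : Perm (Fin k × ZMod l) :=
  ⟨fun p => (τ p.1, (g : ZMod l) ^ e p.1 * p.2), fun p => (τ⁻¹ p.1, ((g⁻¹ :) : ZMod l) ^ e (τ⁻¹ p.1) * p.2),
    fun p => by simp [← mul_assoc, ← mul_pow], fun p => by simp [← mul_assoc, ← mul_pow]⟩

theorem mo_cv {τ : Perm (Fin k)} {g : (ZMod l)ˣ} {e : Fin k → ℕ} {a b : Multiplicative (Fin k → ZMod l)}
    (h : ∀ i, b.toAdd (τ i) = (g : ZMod l) ^ e i * a.toAdd i) : mo τ g e * cv k l a * (mo τ g e)⁻¹ = cv k l b := by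
  rw [mul_inv_eq_iff_eq_mul]
  ext p <;> simp [mo, cv, h, mul_add]

theorem exists_X [hl : Fact l.Prime] (h2 : l ≠ 2) {H : Type*} [Group H] [Finite H] {π : H →* Perm (Fin k × ZMod l)}
    (h : AS π) (hK : ∀ κ, π κ = 1 → PE l κ → κ = 1) : ∃ X : Multiplicative (Fin k → ZMod l) →* H,
      Function.Injective X ∧ ∀ τ g e, Perm.sign (mo (k := k) (l := l) τ g e) = 1 → ∃ x, ∀ a b,
        (∀ i, b.toAdd (τ i) = (g : ZMod l) ^ e i * a.toAdd i) → x * X a * x⁻¹ = X b := by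
  have hS : IsPGroup l (cv k l).range := isPGroup_of_forall_pow (by
    rintro _ ⟨a, rfl⟩; exact ⟨1, by rw [pow_one, ← map_pow, cv_exp, map_one]⟩)
  obtain ⟨x, hx⟩ := exists_fus h hS (le_alt (hl.out.odd_of_ne_two h2) hS) hK
  refine ⟨hx.hom.comp (cv k l).rangeRestrict, fun a b e => cv_inj ?_, fun τ g e hs => ?_⟩
  · exact (hx.pi _ ⟨a, rfl⟩).symm.trans ((congrArg π e).trans (hx.pi _ ⟨b, rfl⟩))
  · obtain ⟨y, -, hy⟩ := hx.conj _ hs
    exact ⟨y, fun a b e => (hy _ ⟨a, rfl⟩ ⟨b, (mo_cv e).symm⟩).trans (congrArg x (mo_cv e))⟩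

end Cfsg.Agent.Lib.AltSec
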