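import Cfsg.Agent.Lib.AltSec.Irr
import Cfsg.Agent.Lib.AltSec.A12

/-! Central extensions of `A₁₂`: small modules. -/

set_option autoImplicit false
set_option linter.style.haveILetI false
set_option linter.unusedSectionVars false
set_option maxRecDepth 100000
set_option maxHeartbeats 4000000

namespace Cfsg.Agent.Lib.AltSec

open Equiv Module Subgroup Cfsg.Agent.Lib.Forms Cfsg.Agent.Lib.Core Matrix
open scoped commutatorElement

universe u
variable {k V : Type} [Field k] [IsAlgClosed k] [AddCommGroup V] [Module k V] [FiniteDimensional k V]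
  {H : Type u} [Group H] {π : H →* Perm (Fin 4 × Z3)} {x : Perm (Fin 4 × Z3) → H} {ρ : H →* End k V} {ω : k}

theorem comm3 {a b a1 b1 a2 b2 z : H} (hz : ∀ g, Commute z g) (h0 : a * b = z * (b * a)) (h1 : a1 * b1 = z * (b1 * a1))
    (h2 : a2 * b2 = z * (b2 * a2)) (e1 : Commute a1 b) (e2 : Commute a2 b) (e3 : Commute a2 b1) (e4 : Commute a b1)
    (e5 : Commute a b2) (e6 : Commute a1 b2) : a * a1 * a2 * (b * b1 * b2) = z * z * z * (b * b1 * b2 * (a * a1 * a2)) :=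
  calc _ = a * (a1 * a2 * b) * b1 * b2 := by group
    _ = a * b * a1 * (a2 * b1) * b2 := by rw [(e1.mul_left e2).eq]; group
    _ = a * b * (a1 * b1) * (a2 * b2) := by rw [e3.eq]; group
    _ = z * (b * a * z) * (b1 * a1 * z) * (b2 * a2) := by rw [h0, h1, h2]; group
    _ = z * z * (b * a * z) * (b1 * a1) * (b2 * a2) := by
      rw [← (hz (b1 * a1)).eq]; nth_rw 1 [← (hz (b * a)).eq]; group
    _ = z * z * z * (b * (a * b1) * a1 * b2 * a2) := by rw [← (hz (b * a)).eq]; group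
    _ = z * z * z * (b * b1 * (a * a1 * b2) * a2) := by rw [e4.eq]; group
    _ = _ := by rw [(e5.mul_left e6).eq]; group

theorem cov12 (h2 : (2 : k) ≠ 0) (hω : IsPrimitiveRoot ω 3) (h : ACov π) (hx : Fus π S4 x) (inj : Function.Injective ρ)
    (irr : ∀ U : Submodule k V, (∀ h, ∀ v ∈ U, ρ h v ∈ U) → U = ⊥ ∨ U = ⊤)
    (hm : ∀ l, finrank k (Wt ρ ω (fun a => x (cc a)) l) ≤ mx l) {v : V} (hv : v ∈ Wt ρ ω (fun a => x (cc a)) 1)
    (hv' : v ≠ 0) : False := by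
  haveI : Nontrivial V := ⟨⟨v, 0, hv'⟩⟩
  have add := hx.add cc4_mem
  have c0 : ∀ g g' y, π g = π g' → g * y * g⁻¹ = g' * y * g'⁻¹ := fun g g' y e => by
    have := (h.cent (g'⁻¹ * g) (by simp [e]) y).eq
    calc _ = g' * (g'⁻¹ * g * y) * g⁻¹ := by group
      _ = _ := by rw [this]; group
  have c1 : ∀ g τ ε, π g = (sq τ ε)⁻¹ → ∀ a, g * x (cc a) * g⁻¹ = x (cc (sg τ ε a)) := fun g τ ε e a => by
    obtain ⟨g', h1, h3, -⟩ := hx.sq cc4_mem τ ε (by simpa [e] using h.even g)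
    rw [c0 g g' _ (e.trans h1.symm), h3]
  have c2 : ∀ g a, π g * cc a * (π g)⁻¹ = cc a → Commute (x (cc a)) g := fun g a e => by
    obtain ⟨g', h1, h3⟩ := hx.conj _ (h.even g)
    have := h3 _ (cc4_mem a) (e.symm ▸ cc4_mem a)
    rw [← c0 g g' _ h1.symm, e] at this
    exact (mul_inv_eq_iff_eq_mul.1 this).symm
  have c3 : ∀ (t : Z3) u w, (∀ p, p ∉ [(0, t), (1, t), (2, t), (3, t)] → π u p = p) →
      (∀ p ∈ [(0, t), (1, t), (2, t), (3, t)], π w p = p) → Commute u w := fun t u w =>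
    h.commute_of_fix _ (by simp)
  obtain ⟨a, ha⟩ := h.surj (swap (0, 0) (1, 0) * swap (2, 0) (3, 0)) (by decide +kernel)
  obtain ⟨b, hb⟩ := h.surj (swap (0, 0) (2, 0) * swap (1, 0) (3, 0)) (by decide +kernel)
  obtain ⟨r, hr⟩ := h.surj (cc 1) (by decide +kernel)
  have hz := h.cent ⁅a, b⁆ (by rw [map_commutatorElement, ha, hb]; decide +kernel)
  have e0 : a * b = ⁅a, b⁆ * (b * a) := by simp [commutatorElement_def]
  generalize ⁅a, b⁆ = z at hz e0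
  have e1 : ∀ {a b}, a * b = z * (b * a) → r * a * r⁻¹ * (r * b * r⁻¹) = z * (r * b * r⁻¹ * (r * a * r⁻¹)) := fun e => by
    rw [conj_mul, conj_mul, e, ← mul_assoc r, ← (hz r).eq]; group
  have e2 := comm3 hz e0 (e1 e0) (e1 (e1 e0)) (c3 1 _ _ (by simp only [map_mul, map_inv, ha, hr]; decide +kernel)
    (by rw [hb]; decide +kernel)) (c3 2 _ _ (by simp only [map_mul, map_inv, ha, hr]; decide +kernel)
    (by rw [hb]; decide +kernel)) (c3 2 _ _ (by simp only [map_mul, map_inv, ha, hr]; decide +kernel)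
    (by simp only [map_mul, map_inv, hb, hr]; decide +kernel)) (c3 0 _ _ (by rw [ha]; decide +kernel)
    (by simp only [map_mul, map_inv, hb, hr]; decide +kernel)) (c3 0 _ _ (by rw [ha]; decide +kernel)
    (by simp only [map_mul, map_inv, hb, hr]; decide +kernel))
    (c3 1 _ _ (by simp only [map_mul, map_inv, ha, hr]; decide +kernel)
    (by simp only [map_mul, map_inv, hb, hr]; decide +kernel))
  have ha2 := h.cent (a * a) (by rw [map_mul, ha]; decide +kernel)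
  have e3 : z * z = 1 := by
    rw [← mul_left_inj (b * (a * a)), one_mul]
    calc _ = z * (z * (b * a)) * a := by group
      _ = z * a * (b * a) := by rw [← e0]; group
      _ = a * a * b := by rw [(hz a).eq, mul_assoc, ← e0, mul_assoc]
      _ = _ := ha2 b
  have w1 : ∀ g τ, π g = (sq τ 1)⁻¹ → ∀ v ∈ Wt ρ ω (fun a => x (cc a)) 1, ρ g v ∈ Wt ρ ω (fun a => x (cc a)) 1 :=
    fun g τ e v hv => Wt_conj (sg_bij τ 1) (c1 g τ 1 e)
      (fun b => (congrArg _ (funext fun i => by simp [sg])).trans (sg_dot τ 1 b 1)) hv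
  have e4 := comm_of_finrank_le_one ((hm 1).trans (by decide))
    (w1 (a * (r * a * r⁻¹) * (r * (r * a * r⁻¹) * r⁻¹)) (swap 0 1 * swap 2 3)
      (by simp only [map_mul, map_inv, ha, hr]; decide +kernel))
    (w1 (b * (r * b * r⁻¹) * (r * (r * b * r⁻¹) * r⁻¹)) (swap 0 2 * swap 1 3)
      (by simp only [map_mul, map_inv, hb, hr]; decide +kernel)) hv
  obtain ⟨c, hc⟩ := exists_scalar irr (mem_center_iff.2 fun g => (hz g).eq.symm)
  rw [← rho_mul, ← rho_mul, e2, e3, one_mul, rho_mul, hc, LinearMap.smul_apply, End.one_apply] at e4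
  rw [smul_left_injective k (mt (rho_inj _) hv') (e4.trans (one_smul k _).symm), one_smul, map_eq_one_iff _ inj] at hc
  rw [hc, one_mul] at e0
  let C := centralizer {x (cc ![0, 0, 1, 0]), x (cc ![0, 0, 0, 1])}
  let W := Eg ρ ω (x (cc ![0, 0, 1, 0])) 1 ⊓ Eg ρ ω (x (cc ![0, 0, 0, 1])) 1
  have hW : ∀ g ∈ C, ∀ v ∈ W, ρ g v ∈ W := fun g hg v hv =>
    ⟨by simpa [← hg _ (.inl rfl)] using Eg_conj (g := g) hv.1, by simpa [← hg _ (.inr rfl)] using Eg_conj (g := g) hv.2⟩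
  have hC : ∀ g, π g * cc ![0, 0, 1, 0] * (π g)⁻¹ = cc ![0, 0, 1, 0] ∧
      π g * cc ![0, 0, 0, 1] * (π g)⁻¹ = cc ![0, 0, 0, 1] → g ∈ C := by
    rintro g e _ (rfl | rfl)
    exacts [c2 g _ e.1, c2 g _ e.2]
  have t0 := hx.pi _ (cc4_mem ![1, 0, 0, 0])
  have t1 : x (cc ![1, 0, 0, 0]) * x (cc ![1, 0, 0, 0]) * x (cc ![1, 0, 0, 0]) = 1 := by
    rw [← add, ← add, ← xx_zero (xx := fun a => x (cc a)) add]; congr 2; decide
  have t2 := hC _ (by rw [t0]; decide +kernel)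
  have t3 : ∀ v ∈ W, v + ρ (x (cc ![1, 0, 0, 0])) v + ρ (x (cc ![1, 0, 0, 0])) (ρ (x (cc ![1, 0, 0, 0])) v) = 0 :=
    fun v hv => eq_zero_of_Pj (ρ := ρ) hω add fun l => by
      have h3 := add_mem (add_mem hv (hW _ t2 v hv)) (hW _ t2 _ (hW _ t2 v hv))
      have h4 : ∀ l : Fin 4 → Z3, ![1, 0, 0, 0] ⬝ᵥ l ≠ 0 ∨ ![0, 0, 1, 0] ⬝ᵥ l ≠ 1 ∨ ![0, 0, 0, 1] ⬝ᵥ l ≠ 1 ∨ mx l = 0 := by
        decide +kernel
      rcases h4 l with e | e | e | e
      · refine Pj_eq_zero (xx := fun a => x (cc a)) hω add e (mem_Eg.2 ?_)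
        simp only [map_add, ← rho_mul, ← mul_assoc, t1, map_one, End.one_apply, ee_zero, one_smul]; abel
      · exact Pj_eq_zero (xx := fun a => x (cc a)) hω add e h3.1
      · exact Pj_eq_zero (xx := fun a => x (cc a)) hω add e h3.2
      · exact (Submodule.finrank_eq_zero.1 (Nat.le_zero.1 (e ▸ hm l))).le (Pj_mem hω add l _)
  obtain ⟨s, hs⟩ := h.surj (swap (0, 0) (1, 1) * swap (1, 0) (1, 2)) (by decide +kernel)
  obtain ⟨g, hg⟩ := h.surj (swap (0, 0) (0, 1) * swap (1, 0) (1, 2) * swap (2, 0) (1, 1) * swap (3, 0) (0, 2))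
    (by decide +kernel)
  have t4 := hC s (by rw [hs]; decide +kernel)
  generalize x (cc ![1, 0, 0, 0]) = t at t0 t1 t2 t3
  have t5 := a4 h2 hW (τ := s * t * s⁻¹) (d := g * a * g⁻¹) (mul_mem (mul_mem t4 t2) (inv_mem t4))
    (hC _ (by simp only [map_mul, map_inv, ha, hg]; decide +kernel)) (by rw [conj_mul, conj_mul, t1]; simp)
    (fun v hv => by
      have := congrArg (ρ s) (t3 _ (hW _ (inv_mem t4) v hv))
      simp only [map_add, ← rho_mul, map_zero, mul_inv_cancel, map_one, End.one_apply] at this ⊢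
      convert this using 3 <;> group)
    (by
      have := h.cent (s * t * s⁻¹ * (g * a * g⁻¹) * (s * t * s⁻¹)⁻¹ * (g * b * g⁻¹)⁻¹)
        (by simp only [map_mul, map_inv, ha, hb, hg, hs, t0]; decide +kernel) (g * a * g⁻¹)
      have := this.symm.mul_right (show Commute (g * a * g⁻¹) (g * b * g⁻¹) from
        (show Commute a b from e0).map (MulAut.conj g))
      rwa [inv_mul_cancel_right] at this)
    (h.cent _ (by simp only [map_mul, map_inv, ha, hg]; decide +kernel) _) (v := v)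
    ⟨mem_Eg.2 (mem_Wt.1 hv ![0, 0, 1, 0]), mem_Eg.2 (mem_Wt.1 hv ![0, 0, 0, 1])⟩
  have t6 := Wt_conj (sg_bij 1 (ng 0 * ng 1)) (c1 _ _ _ (show π (g * a * g⁻¹ * (s * t * s⁻¹ * (g * a * g⁻¹) *
    (s * t * s⁻¹)⁻¹)⁻¹) = _ by simp only [map_mul, map_inv, ha, hg, hs, t0]; decide +kernel))
    (fun b => sg_dot _ _ b 1) hv
  rw [t5] at t6
  exact hv' (eq_zero_of_ee hω (by decide +kernel) ((mem_Wt.1 hv ![1, 0, 0, 0]).symm.trans (mem_Wt.1 t6 _)))

theorem lines1 (l δ : Fin 4 → Z3) : mx l = 0 ∨ mx (l + δ) = 0 ∨ mx (l + δ + δ) = 0 ∨ δ = 0 ∨ ∀ δ', δ' = 0 ∨ δ' = δ ∨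
    δ' = -δ ∨ mx (l + δ') = 0 ∨ mx (l + δ' + δ') = 0 ∨ mx (l + δ + δ') = 0 ∨ mx (l + δ + δ + δ') = 0 ∨
    mx (l + δ' + δ' + δ) = 0 := of_decide_eq_true (by revert l δ; decide +kernel)

/-- the conditions on a family of signed permutations -/
def Fam {n : ℕ} (μ δ : Fin 4 → Z3) (τ : Fin n → Perm (Fin 4)) (ε : Fin n → Fin 4 → Z3ˣ) : Prop :=
  mx μ < n ∧ (∀ j, sg (τ j) (ε j) μ = μ) ∧ (∀ i j, i = j ∨ sg (τ i) (ε i) δ ≠ sg (τ j) (ε j) δ ∧
    sg (τ i) (ε i) δ ≠ -sg (τ j) (ε j) δ) ∧ ∀ j, Perm.sign (sq (τ j) (ε j)) = 1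

instance {n : ℕ} (μ δ : Fin 4 → Z3) (τ : Fin n → Perm (Fin 4)) (ε : Fin n → Fin 4 → Z3ˣ) : Decidable (Fam μ δ τ ε) := by
  unfold Fam; infer_instance

theorem lines2 (l δ : Fin 4 → Z3) : mx l = 0 ∨ mx (l + δ) = 0 ∨ mx (l + δ + δ) = 0 ∨ δ = 0 ∨ ∃ μ ∈ [l, l + δ, l + δ + δ],
    Fam μ δ ![1, swap 0 1 * swap 2 3, swap 0 2 * swap 1 3, swap 0 3 * swap 1 2] 1 ∨
    Fam μ δ 1 ![1, ng 0 * ng 1, ng 0 * ng 2, ng 0 * ng 3] ∨ ∃ i j, Fam μ δ 1 ![1, ng i * ng j] :=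
  of_decide_eq_true (by revert l δ; decide +kernel)

end Cfsg.Agent.Lib.AltSec
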