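import Cfsg.Agent.Lib.AltSec.E6Tab

/-! The 27-dimensional module of the covering group of E₆. -/

set_option autoImplicit false
set_option linter.style.haveILetI false
set_option linter.unusedSectionVars false
set_option maxRecDepth 100000

namespace Cfsg.Agent.Lib.AltSec
open Cfsg.Agent.Lib.Forms Matrix Cfsg.Agent.Lib.Chev Cfsg.Lie Cfsg.Agent.Lib.Core Equiv Module
open scoped MatrixGroups

noncomputable section
attribute [-instance] CStarMatrix.instHMulOfFintypeOfMulOfAddCommMonoid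

variable (F : Type*) [Field F]

def Φ6 : (chevE6.Idx → F) →ₗ[F] (Fin 27 → F) →ₗ[F] (Fin 27 → F) := Bil (enc chevE6) Fin.val Fin.val c27 F

def Γ6 : Subgroup (GL chevE6.Idx F × GL (Fin 27) F) where
  carrier := {p | Inv3 (Φ6 F) p.1 p.2 p.2}
  one_mem' := Inv3.one
  mul_mem' h h' := h.mul h'
  inv_mem' h := h.inv

variable {F}

theorem c27_r (a b : ℕ) (h : ∀ y : Fin 27, y.val ≠ b) : c27 a b = [] := by
  rw [c27, Nat.ble_eq_true_of_le (not_lt.1 fun h1 => h ⟨b, h1⟩ rfl)]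

theorem c27_l (a : ℕ) (h : ∀ x, enc chevE6 x ≠ a) (b : ℕ) : c27 a b = [] := by
  rw [c27, Nat.ble_eq_true_of_le (show 78 ≤ a from le_of_not_enc chevE6 h)]
  cases Nat.ble 27 b <;> rfl

theorem lift_x {r : Fin chevE6.nroots} (h : cI r = true) (t : F) : ∃ y, (e6Cert.x r t, y) ∈ Γ6 F := by
  simp only [cI, forceRD_eq, Bool.and_eq_true, nall_iff] at h
  have h1 := fun (t : F) c => rep_appU (t := t) (u := 1) Fin.val_injective (c27_r r) c 1 0
  have h2 : ∀ t : F, (1 + Mat Fin.val (c27 r) t : Matrix (Fin 27) _ F) * (1 + Mat Fin.val (c27 r) (-t)) = 1 := fun t => by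
    simpa using ((h1 t 1).mul (h1 t (-1))).eq Fin.val_injective Rep.one fun b => h.2 b b.2
  refine ⟨⟨_, _, h2 t, by simpa using h2 (-t)⟩, inv3_of_check (t := t) (u := 1) (enc_inj _) Fin.val_injective c27_l c27_r
    (f1 := appU (e6Cert.nil r) 1 1 0) (by simpa using e6Cert.rep_x t 1 r 1 1 0) (by simpa using h1 t 1) (by simpa using h1 t 1)
    fun a b => h.1 _ (enc_lt _ a) b b.2⟩

theorem lift6 {g : GL chevE6.Idx F} (hg : g ∈ chevE6.group F) : ∃ y, (g, y) ∈ Γ6 F := by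
  obtain ⟨p, h, rfl⟩ := e6Cert.le_of_simple ((Γ6 F).map (.fst _ _))
    (fun i t => (lift_x (cI_sim i).1 t).elim fun _ h => ⟨_, h, rfl⟩)
    (fun i t => (lift_x (cI_sim i).2 t).elim fun _ h => ⟨_, h, rfl⟩) hg
  exact ⟨p.2, h⟩

theorem Φ6_apply (l : chevE6.Idx → F) (v : Fin 27 → F) : Φ6 F l v = ∑ a, l a • ((Pz a).map Int.cast *ᵥ v) := by
  rw [Φ6, Bil_apply]
  exact Finset.sum_congr rfl fun a _ => congrArg (l a • · *ᵥ v) (Matrix.ext fun _ _ => Mat2_cast _ _ _)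

def D6 (χ : Chr chevE6.rank F) : GL (Fin 27) F :=
  ⟨diagonal fun a => (χ.ev (d27 a) : F), diagonal fun a => ((χ.ev (d27 a))⁻¹ : Fˣ),
    by simp [diagonal_mul_diagonal], by simp [diagonal_mul_diagonal]⟩

theorem hD_mem (χ : Chr chevE6.rank F) : (e6Cert.h χ, D6 χ) ∈ Γ6 F := fun l v => by
  simp only [Φ6_apply, mulVec_sum, mulVec_smul, mulVec_mulVec, e6Cert.h_val, mulVec_diagonal, D6]
  refine Finset.sum_congr rfl fun a _ => ?_
  rw [mul_comm, mul_smul, ← smul_mulVec]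
  congr 2
  ext b c
  rw [Matrix.smul_apply, mul_diagonal, diagonal_mul, map_apply, smul_eq_mul]
  rcases Pz_wt a b c with h | h
  · simp [h]
  · rw [show d27 b = e6Cert.wt a + d27 c from funext h, Chr.ev_add, Units.val_mul]; ring

variable (h2 : (2 : F) ≠ 0)
include h2

theorem scal {y : GL (Fin 27) F} (h : (1, y) ∈ Γ6 F) : ∃ c : Fˣ, y.1 = diagonal fun _ => (c : F) := by
  have h1 : ∀ l, (Pz l).map Int.cast * y.1 = y.1 * (Pz l).map Int.cast := fun l =>
    Matrix.ext_of_mulVec_single fun b => by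
      have := h (Pi.single l 1) (Pi.single b 1)
      rw [Units.val_one, one_mulVec] at this
      simpa [Φ6_apply, Pi.single_apply, ← mulVec_mulVec, -mulVec_single, -mulVec_single_one] using this
  have h3 : ∀ i, (Pz (.inl i)).map (Int.cast : ℤ → F) = diagonal fun a => (Pz (.inl i) a a : F) := fun i => by
    ext a b
    by_cases e : a = b
    · simp [e]
    · rw [diagonal_apply_ne _ e, map_apply, (Pz_wt _ a b).resolve_right fun h => e (d27_two a b fun i => by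
        simp [h, Cert.wt]), Int.cast_zero]
  have h4 : y.1 = diagonal fun a => y a a := by
    ext a b
    by_cases e : a = b
    · simp [e]
    obtain ⟨i, m, hm⟩ := (Pz_sep a b).resolve_left e
    have h5 := congrFun (congrFun (h1 (.inl i)) a) b
    rw [h3, diagonal_mul, mul_diagonal] at h5
    have h6 := congrArg (Int.cast : ℤ → F) hm
    push_cast at h6
    rw [diagonal_apply_ne _ e]
    exact (mul_eq_zero.1 (show 2 * y a b = 0 by rw [h6]; linear_combination m * h5)).resolve_left h2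
  have h5 : ∀ a, y a a = y 0 0 := fun a => by
    induction a using WellFoundedLT.induction with | _ a ih => ?_
    rcases Pz_con a with rfl | ⟨i, b, hb, e⟩
    · rfl
    have h5 := congrFun (congrFun (h1 (.inr (e6Cert.R.neg (e6Cert.R.sim i)))) a) b
    rw [h4, diagonal_mul, mul_diagonal, map_apply, e, Int.cast_one, one_mul, mul_one] at h5
    exact h5.symm.trans (ih b hb)
  have h6 := congrFun (congrFun y.mul_inv 0) 0
  rw [h4, diagonal_mul, one_apply_eq] at h6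
  exact ⟨Units.mk0 _ (left_ne_zero_of_mul_eq_one h6), h4.trans (congrArg _ (funext h5))⟩

theorem rel6 {g : GL chevE6.Idx F} {y : GL (Fin 27) F} (h : (g, y) ∈ Γ6 F) {χ χ' : Chr chevE6.rank F}
    (e : g * e6Cert.h χ * g⁻¹ = e6Cert.h χ') : ∃ c : Fˣ, ∀ b a, y b a ≠ 0 → χ.ev (d27 a) = c * χ'.ev (d27 b) := by
  have h1 := mul_mem (mul_mem (mul_mem h (hD_mem χ)) (inv_mem h)) (inv_mem (hD_mem χ'))
  simp only [Prod.inv_mk, Prod.mk_mul_mk, e, mul_inv_cancel] at h1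
  obtain ⟨c, hc⟩ := scal h2 h1
  refine ⟨c, fun b a h3 => Units.ext (mul_left_cancel₀ h3 ?_)⟩
  have h4 : y * D6 χ = y * D6 χ * y⁻¹ * (D6 χ')⁻¹ * (D6 χ' * y) := by group
  have h5 := congrArg Units.val h4
  rw [Units.val_mul _ (D6 χ' * y), hc] at h5
  replace h5 := congrFun (congrFun h5 b) a
  simp only [D6, Units.val_mul, mul_diagonal, diagonal_mul] at h5 ⊢
  linear_combination h5

omit h2 in
theorem NN_conj {D : ChevalleyDatum} {K : Cert D} {hη : K.EtaOK} {g : GL D.Idx F} (hg : g ∈ NN K F hη)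
    (χ : Chr D.rank F) : ∃ χ', g * K.h χ * g⁻¹ = K.h χ' := by
  obtain ⟨w, k, hk, rfl⟩ := hg
  exact ⟨_, by rw [mul_assoc _ k, (K.T_comm hk ⟨χ, rfl⟩).eq, ← K.nW_h w χ]; group⟩

theorem prim_two : IsPrimitiveRoot (-1 : Fˣ) 2 :=
  IsPrimitiveRoot.mk_of_lt _ (by decide) (by simp) fun l h1 h3 e => h2 (by
    rw [show l = 1 by omega, pow_one] at e
    have : (-1 : F) = 1 := congrArg Units.val e
    linear_combination -this)

/-- the sign characters -/
def sgc {n : ℕ} (i : Fin n) : Chr n F := Chr.mk (Pi.mulSingle i (-1))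

omit h2 in
theorem sgc_ev {n : ℕ} (i : Fin n) (v : Fin n → ℤ) : (sgc i : Chr n F).ev v = (-1) ^ v i := by
  rw [sgc, Chr.ev_mk, Finset.prod_eq_single i] <;> simp +contextual

theorem mono6 {g : GL chevE6.Idx F} {y : GL (Fin 27) F} (h : (g, y) ∈ Γ6 F) (hg : g ∈ NN e6Cert F dat6.eta) :
    ∃ s : Perm (Fin 27), (∀ b, y b (s b) ≠ 0) ∧ ∀ b a, a ≠ s b → y b a = 0 := by
  have h1 : ∀ b, ∃ a, y b a ≠ 0 := fun b => by_contra fun h1 => by
    simpa [mul_apply, not_not.1 (not_exists.1 h1 _)] using congrFun (congrFun y.mul_inv b) b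
  have h3 : ∀ a, ∃ b, y b a ≠ 0 := fun a => by_contra fun h1 => by
    simpa [mul_apply, not_not.1 (not_exists.1 h1 _)] using congrFun (congrFun y.inv_mul a) a
  choose s hs using h1
  have h4 : ∀ b a, y b a ≠ 0 → a = s b := fun b a h4 => d27_two _ _ fun i => by
    obtain ⟨χ', e⟩ := NN_conj hg (sgc i)
    obtain ⟨c, hc⟩ := rel6 h2 h e
    have := (hc b a h4).trans (hc b _ (hs b)).symm
    rwa [sgc_ev, sgc_ev, zpow_eq_iff (prim_two h2)] at this
  exact ⟨Equiv.ofBijective s (Finite.surjective_iff_bijective.1 fun a => (h3 a).imp fun b hb => (h4 b a hb).symm), hs,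
    fun b a h5 => by_contra fun h6 => h5 (h4 b a h6)⟩

omit h2 in
theorem exists_lamN {n m : ℕ} [NeZero m] {ζ : Fˣ} (hζ : IsPrimitiveRoot ζ m) {χ : Chr n F} (h : χ ^ m = 1) :
    ∃ l : Fin n → ℕ, (∀ i, l i < m) ∧ ∀ v, χ.ev v = ζ ^ ((fun i => (l i : ℤ)) ⬝ᵥ v) := by
  obtain ⟨l, hl⟩ := exists_lam hζ h
  refine ⟨fun i => (l i : ZMod m).val, fun i => ZMod.val_lt _, fun v => ?_⟩
  rw [hl, zpow_eq_iff hζ]
  simp [dotProduct]

omit h2 in
theorem cell3 {ω : Fˣ} (hω : IsPrimitiveRoot ω 3) {χ : Chr chevE6.rank F} (h : χ ^ 3 = 1) (h1 : χ ≠ 1) (c : Fˣ)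
    [DecidableEq F] : (Finset.univ.filter fun a => χ.ev (d27 a) = c).card ≤ 16 := by
  obtain ⟨l, h3, h4⟩ := exists_lamN hω h
  rcases (Finset.univ.filter fun a => χ.ev (d27 a) = c).eq_empty_or_nonempty with e | ⟨a, ha⟩
  · simp [e]
  have h5 := of_allB box3 h3
  simp only [Bool.or_eq_true, decide_eq_true_eq, nall_iff, Nat.ble_eq] at h5
  refine le_trans ?_ (h5.resolve_left (fun e => h1 (Chr.ext' fun i => by
    rw [h4, List.ofFn_injective e]; simp [dotProduct])) _ (ZMod.val_lt (((fun i => (l i : ℤ)) ⬝ᵥ d27 a : ℤ) : ZMod 3)))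
  refine le_trans (Finset.card_le_card fun b hb => ?_) (cz_cntN (u := d27) (fun _ _ => rfl) l _).le
  simp only [Finset.mem_filter, Finset.mem_univ, true_and] at ha hb ⊢
  rw [← zpow_eq_iff hω, ← h4, ← h4, ha, hb]

theorem cell2 {χ ψ : Chr chevE6.rank F} (h : χ ^ 2 = 1) (h' : ψ ^ 2 = 1) (h1 : χ ≠ 1) (h1' : ψ ≠ 1) (h3 : χ ≠ ψ)
    (c c' : Fˣ) {A : Finset (Fin 27)} (hA : ∀ a ∈ A, χ.ev (d27 a) = c ∧ ψ.ev (d27 a) = c') : A.card ≤ 14 := by
  obtain ⟨l, h4, h5⟩ := exists_lamN (prim_two h2) h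
  obtain ⟨l', h4', h5'⟩ := exists_lamN (prim_two h2) h'
  rcases A.eq_empty_or_nonempty with e | ⟨a, ha⟩
  · simp [e]
  have h6 := of_allB (of_allB box2 h4) h4'
  simp only [Bool.or_eq_true, decide_eq_true_eq, nall_iff, Nat.ble_eq, cntB_eq, band_iff, Nat.beq_eq] at h6
  have h7 : ∀ (l : Fin chevE6.rank → ℕ) a b, (-1 : Fˣ) ^ ((fun i => (l i : ℤ)) ⬝ᵥ d27 a) = (-1) ^ ((fun i => (l i : ℤ)) ⬝ᵥ d27 b) →
      Nat.mod (dotN (s27 a) (List.ofFn l) 0) 2 = Nat.mod (dotN (s27 b) (List.ofFn l) 0) 2 := fun l a b e => by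
    rw [zpow_eq_iff (prim_two h2)] at e
    rw [dotN_ofFn, dotN_ofFn]
    refine (ZMod.natCast_eq_natCast_iff' _ _ 2).1 ?_
    simpa [dotProduct, d27, show (8 : ZMod 2) = 0 from rfl] using e
  refine le_trans (Finset.card_le_card fun b hb => ?_) (h6.resolve_left (fun e => ?_) _
    (Nat.mod_lt (dotN (s27 a) (List.ofFn l) 0) two_pos) _ (Nat.mod_lt (dotN (s27 a) (List.ofFn l') 0) two_pos))
  · exact Finset.mem_filter.2 ⟨Finset.mem_univ _, h7 l b a (by rw [← h5, ← h5, (hA a ha).1, (hA b hb).1]),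
      h7 l' b a (by rw [← h5', ← h5', (hA a ha).2, (hA b hb).2])⟩
  · rcases e with (e | e) | e
    · exact h1 (Chr.ext' fun i => by rw [h5, List.ofFn_injective e]; simp [dotProduct])
    · exact h1' (Chr.ext' fun i => by rw [h5', List.ofFn_injective e]; simp [dotProduct])
    · exact h3 (Chr.ext' fun i => by rw [h5, h5', List.ofFn_injective e])

omit h2 in
theorem inv3 {G : Type*} [CommGroup G] {a b c : G} (ha : a ^ 2 = 1) (hb : b ^ 2 = 1) (hc : c ^ 2 = 1) :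
    (a * b) ^ 2 = 1 ∧ (b * c) ^ 2 = 1 ∧ (a * b = 1 → a = b) ∧ (b * c = 1 → b = c) ∧ (a * b = b * c → a = c) :=
  ⟨by rw [mul_pow, ha, hb, mul_one], by rw [mul_pow, hb, hc, mul_one],
    fun h => mul_right_cancel (h.trans (hb.symm.trans (pow_two b))),
    fun h => mul_right_cancel (h.trans (hc.symm.trans (pow_two c))), fun h => mul_right_cancel (h.trans (mul_comm b c))⟩

omit h2 in
theorem mon_apply {α R : Type*} [Fintype α] [CommRing R] {u : Matrix α α F} {s : α → α}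
    (h : ∀ b a, a ≠ s b → u b a = 0) (f : F →+* R) (v : α → R) (b : α) : (u.map f *ᵥ v) b = f (u b (s b)) * v (s b) := by
  rw [mulVec, dotProduct]
  exact Finset.sum_eq_single (s b) (fun a _ h1 => by simp [h b a h1]) (by simp)

theorem eig27 [Finite F] {ζ : Fˣ} (hζ : IsPrimitiveRoot ζ (3 ^ (3 + 2 + 1))) {k : Type*} [Field k] (φ : F →+* k) (ω : k)
    {p : GL chevE6.Idx F × GL (Fin 27) F} (hp : p ∈ Γ6 F) (hG : p.1 ∈ chevE6.group F) (h3 : p ^ 3 = 1) (h1 : p.1 ≠ 1) :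
    finrank k (Eg ((rep _ k).comp (Matrix.GeneralLinearGroup.map φ)) ω p.2 0) ≤ 18 := by
  classical
  haveI := Fact.mk Nat.prime_three
  obtain ⟨y, h4, h5⟩ := conjN dat6.eta dat6.rho (by decide) (c := 3) (d := 2 + 1) hζ (by decide) dat6.ht (by decide)
    (isPGroup_zpowers (k := 1) (x := p.1) (congrArg Prod.fst h3)) (Subgroup.zpowers_le.2 hG)
  obtain ⟨z, hz⟩ := lift6 h4
  refine (finrank_le_conj z fun v hv => Eg_conj hv).trans ?_
  have h6 := mul_mem (mul_mem hz hp) (inv_mem hz)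
  have h7 := h5 _ (Subgroup.mem_zpowers _)
  have h8 : (y * p.1 * y⁻¹) ^ 3 = 1 := by rw [conj_pow, show p.1 ^ 3 = 1 from congrArg Prod.fst h3]; simp
  have h8' : (z * p.2 * z⁻¹) ^ 3 = 1 := by rw [conj_pow, show p.2 ^ 3 = 1 from congrArg Prod.snd h3]; simp
  have h9 : y * p.1 * y⁻¹ ≠ 1 := by simpa
  change (y * p.1 * y⁻¹, z * p.2 * z⁻¹) ∈ _ at h6
  generalize y * p.1 * y⁻¹ = g at h6 h7 h8 h9
  generalize z * p.2 * z⁻¹ = u at h6 h8'
  obtain ⟨s, s1, s2⟩ := mono6 h2 h6 h7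
  have e2 : ∀ v ∈ Eg ((rep _ k).comp (Matrix.GeneralLinearGroup.map φ)) ω u 0, ∀ b, φ (u b (s b)) * v (s b) = v b :=
    fun v hv b => by simpa using (mon_apply s2 φ v b).symm.trans (congrFun (mem_Eg.1 hv) b)
  by_cases h10 : g ∈ (e6Cert.full F).T
  · obtain ⟨χ, rfl⟩ := h10
    obtain ⟨c, hc⟩ := scal h2 (show (1, u * (D6 χ)⁻¹) ∈ _ by simpa using mul_mem h6 (inv_mem (hD_mem χ)))
    have h11 : u.1 = diagonal fun a => ((c * χ.ev (d27 a) : Fˣ) : F) := by
      rw [← inv_mul_cancel_right u (D6 χ), Units.val_mul, hc]; simp [D6]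
    refine (finrank_le_card _ fun v hv h => funext fun a => by_contra fun h12 => h12 (h a ?_)).trans
      ((cell3 (prim_pow Nat.prime_three hζ) (χ := χ) (e6Cert.h_inj (by rw [e6Cert.h.map_pow, h8, map_one]))
        (fun e => h9 (by rw [e, map_one])) c⁻¹).trans (by decide))
    have h13 : s a = a := by_contra fun e => s1 a (by rw [h11, diagonal_apply_ne' _ e])
    have h14 := e2 v hv a
    rw [h13, mul_eq_right₀ h12, h11, diagonal_apply_eq, map_eq_one_iff _ φ.injective, Units.val_eq_one] at h14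
    simpa using eq_inv_of_mul_eq_one_right h14
  have h11 : ∀ b, s (s (s b)) = b := fun b => by_contra fun e => by
    have := congrArg (fun x : GL (Fin 27) F => (x.1 *ᵥ Pi.single (s (s (s b))) 1) b) h8'
    simp only [Units.val_one, one_mulVec, Pi.single_eq_of_ne' e, pow_three, Units.val_mul, ← mulVec_mulVec] at this
    have e3 := mon_apply s2 (RingHom.id F)
    simp only [RingHom.coe_id, Matrix.map_id, id] at e3
    simp [e3, s1, -mulVec_single, -mulVec_single_one, -mulVec_mulVec] at this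
  have h12 := finrank_mon (U := Eg ((rep _ k).comp (Matrix.GeneralLinearGroup.map φ)) ω u 0) s h11 fun v hv a _ h =>
    (mul_eq_zero.1 ((e2 v hv a).trans h)).resolve_left (by simpa using s1 a)
  obtain ⟨i, hi⟩ : ∃ i, g * e6Cert.h (sgc i) * g⁻¹ ≠ e6Cert.h (sgc i) := by_contra fun h => h10 <|
    mem_T_of_phi (g := ⟨g, h7⟩) sep6_2 (Units.ext (Matrix.ext fun i j => by
      have := sig_h (g := ⟨g, h7⟩) (not_not.1 (not_exists.1 h i)) (e6Cert.R.sim j)
      rw [sgc_ev, sgc_ev, zpow_eq_iff (prim_two h2), e6Cert.R.ρ_sim] at this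
      rw [phi_val, mat, of_apply, this]
      simp [Pi.single_apply, one_apply])) (n := 3) (by decide) (Subtype.ext h8)
  obtain ⟨χ1, e3⟩ := NN_conj h7 (sgc i)
  obtain ⟨χ2, e4⟩ := NN_conj h7 χ1
  have e5 : g * e6Cert.h χ2 * g⁻¹ = e6Cert.h (sgc i) := by
    rw [← e4, ← e3]
    calc _ = g ^ 3 * e6Cert.h (sgc i) * (g ^ 3)⁻¹ := by simp only [pow_three]; group
      _ = _ := by simp [h8]
  have q : ∀ {χ χ'}, g * e6Cert.h χ * g⁻¹ = e6Cert.h χ' → χ ^ 2 = 1 → χ' ^ 2 = 1 := fun e h => e6Cert.h_inj (by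
    rw [e6Cert.h.map_pow, ← e, conj_pow, ← e6Cert.h.map_pow, h]; simp)
  have q0 : (sgc i : Chr chevE6.rank F) ^ 2 = 1 := Chr.ext' fun j => by
    rw [Chr.ev_pow, sgc_ev, ← zpow_natCast, ← _root_.zpow_mul, mul_comm, _root_.zpow_mul]; simp
  have q1 := q e3 q0
  have q2 := q e4 q1
  obtain ⟨c1, r1⟩ := rel6 h2 h6 e3
  obtain ⟨c2, r2⟩ := rel6 h2 h6 e4
  obtain ⟨t1, t2, t3, t4, t5⟩ := inv3 q0 q1 q2
  have q3 : ∀ {χ : Chr chevE6.rank F}, χ ^ 2 = 1 → ∀ v, χ.ev v * χ.ev v = 1 := fun h v => by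
    rw [← pow_two, ← Chr.ev_pow, h, Chr.ev_one]
  have h13 := cell2 h2 t1 t2 (fun e => hi (by rw [e3, t3 e]))
    (fun e => hi (by rw [t4 e] at e4; rw [← e5, e4, e4])) (fun e => hi (by rw [t5 e] at e5 ⊢; exact e5)) c1 c2
    (A := Finset.univ.filter fun a => s a = a) fun a ha => by
    have h14 := s1 a
    rw [(Finset.mem_filter.1 ha).2] at h14
    exact ⟨by rw [Chr.ev_mul, r1 a a h14, mul_assoc, q3 q1, mul_one],
      by rw [Chr.ev_mul, r2 a a h14, mul_assoc, q3 q2, mul_one]⟩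
  rw [Fintype.card_fin] at h12
  omega

end
end Cfsg.Agent.Lib.AltSec
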