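import Cfsg.Agent.Lib.AltSec.No12
import Cfsg.Agent.Lib.AltSec.E6Cov

/-! Alternating sections of groups of type E₆. -/

set_option autoImplicit false
set_option linter.style.haveILetI false
set_option maxRecDepth 100000
set_option maxHeartbeats 400000

namespace Cfsg.Agent.Lib.AltSec

open Equiv Module Cfsg.Agent.Lib.Forms Matrix Cfsg.Agent.Lib.Core Cfsg.Agent.Lib.Chev Cfsg.Lie
open scoped MatrixGroups

theorem card_le_of_exp' {G : Type*} [Group G] [Finite G] {l : ℕ} [hl : Fact l.Prime] {Q : Subgroup G}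
    (h : ∀ x ∈ Q, x ^ l = 1) {v : ℕ} (hv : ¬ l ^ (v + 1 + 1) ∣ Nat.card G) {g : G} {n : ℕ} (h1 : g ^ l ^ n = 1)
    (h2 : g ^ l ≠ 1) : Nat.card Q ≤ l ^ v := by
  have hQ : IsPGroup l Q := isPGroup_of_forall_pow fun x hx => ⟨1, by simpa using h x hx⟩
  obtain ⟨m, hm⟩ := hQ.exists_card_eq
  refine hm ▸ Nat.pow_le_pow_right hl.out.pos (not_lt.1 fun h3 => h2 ?_)
  obtain ⟨y, -, hy⟩ := (isSyl_of_maximal le_top hQ fun R hR h4 _ => (Subgroup.eq_of_le_of_card_ge h4 (by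
    obtain ⟨a, ha⟩ := hR.exists_card_eq
    have := Subgroup.card_subgroup_dvd_card R
    rw [ha] at this ⊢
    exact hm ▸ Nat.pow_le_pow_right hl.out.pos ((not_lt.1 fun h5 => hv ((pow_dvd_pow _ h5).trans this)).trans h3))).symm
    ).exists_conj_le (isPGroup_zpowers h1) le_top
  simpa using h _ (hy ⟨g, Subgroup.mem_zpowers g, rfl⟩)

/-- an element of order 9 -/
def g9 : GL (Fin chevE6.rank) (ZMod 2) :=
  ⟨(!![0,1,0,0,0,0; 0,0,1,0,0,0; 0,0,0,1,0,0; 0,0,0,0,1,0; 0,0,0,0,0,1; 1,0,0,1,0,0] : Matrix (Fin 6) (Fin 6) _),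
   (!![0,0,1,0,0,1; 1,0,0,0,0,0; 0,1,0,0,0,0; 0,0,1,0,0,0; 0,0,0,1,0,0; 0,0,0,0,1,0] : Matrix (Fin 6) (Fin 6) _),
   by decide +kernel, by decide +kernel⟩

theorem Eg_comp {k V G H : Type*} [Field k] [AddCommGroup V] [Module k V] [Group G] [Group H] (ρ : G →* End k V)
    (f : H →* G) (ω : k) (x : H) (t : Z3) : Eg (ρ.comp f) ω x t = Eg ρ ω (f x) t := rfl

theorem cc_ne : ∀ a : Fin 4 → Z3, a ≠ 0 → 1 ≠ cc a := by decide +kernel
theorem mx_one : 1 ≤ mx 1 := by decide +kernel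

theorem exists_cov.{u, v} {E : Type u} [Field E] [Finite E] {H : Type v} [Group H] [Finite H] {ι : H →* GL chevE6.Idx E}
    (he : Emb chevE6 ι) {π : H →* Perm (Fin 4 × Z3)} (h : AS π) : ∃ (S : Type (max u v)) (_ : Group S) (_ : Finite S)
    (f : S →* H) (y : S →* GL (Fin 27) E), (∀ g, (ι (f g), y g) ∈ Γ6 E) ∧ (∀ {a b}, f a = f b → y a = y b → a = b) ∧
    Min (π.comp f) := by
  let H1 := (Γ6 E).comap (ι.prodMap (.id _))
  obtain ⟨S, hS⟩ := exists_min (π := π.comp ((MonoidHom.fst _ _).comp H1.subtype)) ⟨fun σ hσ => by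
    obtain ⟨g, rfl⟩ := h.surj σ hσ
    obtain ⟨y, hy⟩ := lift6 (he.mem g)
    exact ⟨⟨(g, y), hy⟩, rfl⟩, fun g => h.even _, h.card⟩
  exact ⟨S, _, inferInstance, ((MonoidHom.fst _ _).comp H1.subtype).comp S.subtype,
    ((MonoidHom.snd _ _).comp H1.subtype).comp S.subtype, fun g => g.1.2,
    fun h1 h2 => Subtype.ext (Subtype.ext (Prod.ext h1 h2)), hS⟩

theorem e6_12 {E : Type*} [Field E] [Finite E] {H : Type*} [Group H] [Finite H] {ι : H →* GL chevE6.Idx E} {ζ : Eˣ}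
    (h2 : (2 : E) ≠ 0) (he : Emb chevE6 ι) (hζ : IsPrimitiveRoot ζ (3 ^ (3 + 2 + 1))) {π : H →* Perm (Fin 4 × Z3)}
    (h : Min π) : False := by
  haveI := Fact.mk Nat.prime_three
  have hK := fun κ => h.ker12 (κ := κ) fun κ => h.central (by decide) fun D hD =>
    (he.card_le dat6 (c := 3) (d := 2) ⟨by decide, by decide, by decide⟩ hζ sep6_2 (fun Q hQ => card_le_of_exp' hQ (v := 3)
      (by rw [card_GL]; decide +kernel) (g := g9) (n := 2) (by decide +kernel) (by decide +kernel)) D hD).trans_lt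
      (by decide)
  obtain ⟨S, _, _, f, y, hy, hi, hS⟩ := exists_cov he h.toAS
  obtain ⟨x, hx⟩ := exists_fus hS.toAS S4_p S4_syl.le fun κ => hS.ker12 fun κ h1 ⟨n, hn⟩ => by
    have h3 := hK (f κ) h1 ⟨n, by rw [← map_pow, hn, map_one]⟩
    obtain ⟨c, hc⟩ := scal h2 (y := y κ) (by simpa [h3] using hy κ)
    refine Subgroup.mem_center_iff.2 fun g => hi (by simp [h3]) (Units.ext ?_)
    simp only [map_mul, Units.val_mul, hc, ← smul_one_eq_diagonal]; simp
  obtain ⟨p, hp⟩ := CharP.exists E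
  haveI := Fact.mk (CharP.char_is_prime E p)
  letI := ZMod.algebra E p
  let φ : E →+* AlgebraicClosure (ZMod p) :=
    (IsAlgClosed.lift (R := ZMod p) (M := AlgebraicClosure (ZMod p)) (S := E)).toRingHom
  have hω := (IsPrimitiveRoot.coe_units_iff.2 (prim_pow Nat.prime_three hζ)).map_of_injective φ.injective
  have hm := mult12 hω hx (ρ := ((rep _ _).comp (Matrix.GeneralLinearGroup.map φ)).comp y) (by simp) fun a ha => by
    have h3 : x (cc a) ^ 3 = 1 := by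
      rw [← hx.pow (cc4_mem a), show cc a ^ 3 = 1 by revert a; decide +kernel, hx.one]
    rw [Eg_comp]
    refine eig27 h2 hζ φ _ (p := (ι (f (x (cc a))), y (x (cc a)))) (hy _) (he.mem _) (by simp only [Prod.pow_mk, ← map_pow, h3, map_one]; rfl) fun e => ?_
    have := hx.pi _ (cc4_mem a)
    rw [MonoidHom.comp_apply, he.inj (e.trans (map_one ι).symm), map_one] at this
    exact cc_ne a ha this
  obtain ⟨v, hv, hv'⟩ := (Submodule.ne_bot_iff _).1 (Submodule.one_le_finrank_iff.1 (mx_one.trans (hm _).ge))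
  exact no12 (by rwa [← map_ofNat φ 2, map_ne_zero]) hω hS hx (fun l => (hm l).le) hv hv'

theorem e6_bound {F : Type*} [Field F] [Finite F] (p : ℕ) [hp : Fact p.Prime] [CharP F p] {G : Subgroup (GL chevE6.Idx F)}
    (hG : G ≤ chevE6.group F) {r : ℕ} {H : Subgroup G} {N : Subgroup H} [N.Normal]
    (e : H ⧸ N ≃* alternatingGroup (Fin r)) : r ≤ 11 + (if p = 2 ∨ p = 3 ∨ p = 5 then 1 else 0) := by
  have h0 : ∀ l n : ℕ, l.Prime → p ≠ l → ((l ^ n : ℕ) : F) ≠ 0 := fun l n hl h => mt (CharP.cast_eq_zero_iff F p _).mp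
    fun h1 => h ((Nat.prime_dvd_prime_iff_eq hp.out hl).mp (hp.out.dvd_of_dvd_pow h1))
  by_contra! h1
  split_ifs at h1 with h2
  · obtain ⟨E, _, _, -, ζ, H', _, _, ι, π, hζ, he, h⟩ := exists_emb e6Cert hG e (Fin 13) (by simpa) (by simp)
      (11 ^ (1 + 1 + 1)) (h0 _ _ (by norm_num) (by omega))
    exact e6_13 he hζ h.toAS
  · obtain ⟨E, _, _, f, ζ, H', _, _, ι, π, hζ, he, h⟩ := exists_emb e6Cert hG e (Fin 4 × Z3) (by simpa) (by simp)
      (3 ^ (3 + 2 + 1)) (h0 _ _ (by norm_num) (by omega))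
    exact e6_12 (by rw [← map_ofNat f 2, map_ne_zero]; simpa using h0 2 1 (by norm_num) (by omega)) he hζ h

theorem gen_le {D : ChevalleyDatum} (K : Cert D) (F : Type*) [Field F] (S : Set (List (ℕ × F))) :
    D.genSubgroup F S ≤ D.group F := (Subgroup.closure_le _).2 fun g ⟨w, _, hw⟩ => by
  have : ∃ g ∈ D.group F, (g : Matrix D.Idx D.Idx F) = D.wordMat F w := by
    clear * - K
    induction w with
    | nil => exact ⟨1, one_mem _, rfl⟩
    | cons a w ih =>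
      obtain ⟨g, h1, h2⟩ := ih
      by_cases h : a.1 < D.nroots
      · exact ⟨_, mul_mem (K.x_mem ⟨a.1, h⟩ a.2) h1, by rw [Units.val_mul, K.x_val', h2]; rfl⟩
      · exact ⟨g, h1, by simp [h2, ChevalleyDatum.wordMat, ChevalleyDatum.x, h]⟩
  obtain ⟨g', h1, h2⟩ := this
  exact (Units.ext (h2.trans hw.symm) : g' = g) ▸ h1

end Cfsg.Agent.Lib.AltSec
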