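import Cfsg.Agent.Lib.AltSec.E8Alt
import Cfsg.Agent.Lib.Chev.E6

/-! Root system facts for E₆, and the degree 13. -/

set_option autoImplicit false
set_option linter.style.haveILetI false
set_option maxHeartbeats 4000000
set_option maxRecDepth 100000

namespace Cfsg.Agent.Lib.AltSec
open Equiv Module Cfsg.Agent.Lib.Forms Matrix Cfsg.Agent.Lib.Core Cfsg.Agent.Lib.Chev Cfsg.Lie
open scoped MatrixGroups

def th6 : Fin chevE6.rank → ℕ := ![1, 2, 2, 3, 2, 1]

theorem dat6 : Dat e6Cert 12 th6 where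
  eta := by unfold Cert.EtaOK; decide +kernel
  rho := ⟨![16, 22, 30, 42, 30, 16], by decide +kernel⟩
  ht := by decide +kernel
  kil := ⟨by decide, by decide +kernel, by decide +kernel⟩
  pos := by decide +kernel

theorem sep6_2 : Sep e6Cert 2 := by unfold Sep; decide +kernel

def t27 (a i : ℕ) : ℕ := fld4 0x432456732456762456765456765486765756765759765786765789768786768789798786768a89798789a98786798a89a9878979ba89a98a8979bab9a9ba89a9bab9acba89acbab9aceab9acedb9acedbc (6 * a + i)

/-- three times the weights of the 27-dimensional module -/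
def u27 (a : Fin 27) (i : Fin chevE6.rank) : ℤ := (t27 a i : ℤ) - 8

theorem stab27 : Stab e6Cert.R u27 := stab_of (by unfold Function.Injective; decide +kernel) (by decide +kernel)

theorem alc6_11 : allK (List.ofFn th6) 11 (fun L =>
    !nall (fun t => Nat.beq (cntN t27 27 11 L t) (cntN t27 27 11 L (2 * t % 11))) 11 ||
    Nat.beq (cntN (e6Cert.C.rho 6) 72 11 L 0) 72) = true := by decide +kernel

/-- the unit `2` modulo `11` -/
def u2 : (ZMod 11)ˣ := ⟨2, 6, by decide, by decide⟩

theorem e6_13 {E : Type*} [Field E] [Finite E] {H : Type*} [Group H] [Finite H] {ι : H →* GL chevE6.Idx E} {ζ : Eˣ}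
    (he : Emb chevE6 ι) (hζ : IsPrimitiveRoot ζ (11 ^ (1 + 1 + 1))) {π : H →* Perm (Fin 13)} (h : AS π) : False := by
  haveI := Fact.mk (show Nat.Prime 11 by norm_num)
  haveI := Fact.mk Nat.prime_two
  obtain ⟨x, hx⟩ := h.surj (List.formPerm [0, 1, 2, 3, 4, 5, 6, 7, 8, 9, 10]) (by decide +kernel)
  obtain ⟨g, hg⟩ := h.surj (List.formPerm [1, 2, 4, 8, 5, 10, 9, 7, 3, 6] * swap 11 12) (by decide +kernel)
  obtain ⟨l, h1, h2⟩ := he.rat dat6 (c := 1) (d := 1) ⟨by decide, by decide, by decide⟩ hζ sep6_2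
    (by rw [card_GL]; decide +kernel) (π := π) (x := x) (g := g) u2
    (by rw [hx]; decide +kernel) (by rw [hx]; decide +kernel) (by rw [hx, hg]; change _ = _ ^ 2; decide +kernel)
  obtain ⟨L, h3, h4⟩ := alc dat6.kil dat6.pos alc6_11 l
  rw [h4 (stab_root _) fun _ _ => rfl] at h1
  replace h4 := h4 stab27 fun _ _ => rfl
  simp only [Bool.or_eq_true, Nat.beq_eq, Bool.not_eq_true', ← Bool.not_eq_true, nall_iff] at h3
  refine h3.elim (fun h3 => h3 fun t ht => ?_) h1
  have := h2 stab27 (t : ZMod 11)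
  rwa [h4, h4, ZMod.val_mul, ZMod.val_cast_of_lt ht] at this

end Cfsg.Agent.Lib.AltSec
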