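import Cfsg.Agent.Lib.AltSec.E8Alt
import Cfsg.Agent.Lib.Chev.E7

/-! Root system facts for E₇. -/

set_option autoImplicit false
set_option linter.style.haveILetI false
set_option maxHeartbeats 4000000
set_option maxRecDepth 100000

namespace Cfsg.Agent.Lib.AltSec
open Equiv Module Cfsg.Agent.Lib.Forms Matrix Cfsg.Agent.Lib.Core Cfsg.Agent.Lib.Chev Cfsg.Lie
open scoped MatrixGroups

def th7 : Fin chevE7.rank → ℕ := ![2, 2, 3, 4, 3, 2, 1]

theorem dat7 : Dat e7Cert 18 th7 where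
  eta := by unfold Cert.EtaOK; decide +kernel
  rho := ⟨![34, 49, 66, 96, 75, 52, 27], by decide +kernel⟩
  ht := by decide +kernel
  kil := ⟨by decide, by decide +kernel, by decide +kernel⟩
  pos := by decide +kernel

theorem inj7_3 : ∀ r s, (∀ i, (e7Cert.R.ρ r i : ZMod 3) = e7Cert.R.ρ s i) → s = r := by decide +kernel

theorem LW_inj {Φ : Type} {n : ℕ} (R : RS Φ n) (w : List (Fin n)) : Function.Injective (R.LW w) := by
  induction w with
  | nil => exact fun _ _ h => h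
  | cons i w ih => exact ih.comp (Function.Involutive.injective (R.sL_sL i))

theorem par_eq {D : ChevalleyDatum} (K : Cert D) (β : Fin D.nroots) :
    (Finset.univ.filter fun γ => ∃ δ, K.R.ρ δ = K.R.ρ β + K.R.ρ γ).card = cntB (fun γ => !nall (fun δ => !nall (fun j =>
      Nat.beq (K.C.rho D.rank δ j + 8) (K.C.rho D.rank β j + K.C.rho D.rank γ j)) D.rank) D.nroots) D.nroots := by
  rw [cntB_eq]
  congr 1
  refine Finset.filter_congr fun γ _ => ?_
  have e : ∀ (r : Fin D.nroots) (j : Fin D.rank), K.R.ρ r j = (K.C.rho D.rank r j : ℤ) - 8 := fun _ _ => rfl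
  simp only [Bool.not_eq_true', ← Bool.not_eq_true, nall_iff, Nat.beq_eq, not_forall, not_exists, not_not, funext_iff,
    Pi.add_apply, e]
  exact ⟨fun ⟨δ, h⟩ => ⟨δ, δ.2, fun j hj => by have := h ⟨j, hj⟩; simp only at this; omega⟩,
    fun ⟨δ, h1, h⟩ => ⟨⟨δ, h1⟩, fun j => by have := h j j.2; simp only; omega⟩⟩

theorem par7 (β : Fin chevE7.nroots) :
    (Finset.univ.filter fun γ => ∃ δ, e7Cert.R.ρ δ = e7Cert.R.ρ β + e7Cert.R.ρ γ).card = 32 := by
  obtain ⟨w, i, h⟩ := e7Cert.R.exists_inv_eq_sim β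
  have : (Finset.univ.filter fun γ => ∃ δ, e7Cert.R.ρ δ = e7Cert.R.ρ (e7Cert.R.sim i) + e7Cert.R.ρ γ).card = 32 := by
    rw [par_eq]; clear h; revert i; decide +kernel
  rw [← this, ← h]
  refine Finset.card_equiv (pw e7Cert w) fun γ => ?_
  simp only [Finset.mem_filter, Finset.mem_univ, true_and]
  refine (pw e7Cert w).exists_congr fun δ => ?_
  change _ ↔ e7Cert.R.ρ (e7Cert.R.inv w δ) = _ + e7Cert.R.ρ (e7Cert.R.inv w γ)
  rw [RS.ρ_inv, RS.ρ_inv, RS.ρ_inv, ← map_add, (LW_inj _ w).eq_iff]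

theorem alc7_7 : allK (List.ofFn th7) 7 (fun L =>
    !nall (fun t => Nat.beq (cntN (e7Cert.C.rho 7) 126 7 L t) (cntN (e7Cert.C.rho 7) 126 7 L (3 * t % 7))) 7 ||
    decide ((cntN (e7Cert.C.rho 7) 126 7 L 0, cntN (e7Cert.C.rho 7) 126 7 L 1) ∈
      [(126, 0), (30, 16), (12, 19), (24, 17)])) = true := by decide +kernel

theorem alc7_5 : allK (List.ofFn th7) 5 (fun L =>
    !nall (fun t => Nat.beq (cntN (e7Cert.C.rho 7) 126 5 L t) (cntN (e7Cert.C.rho 7) 126 5 L (2 * t % 5))) 5 ||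
    decide ((cntN (e7Cert.C.rho 7) 126 5 L 0, cntN (e7Cert.C.rho 7) 126 5 L 1) ∈ [(126, 0), (26, 25)])) = true := by
  decide +kernel

end Cfsg.Agent.Lib.AltSec
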