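import Cfsg.Agent.Lib.AltSec.Gen
import Cfsg.Agent.Lib.Chev.E8

/-! Root system facts for E₈. -/

set_option autoImplicit false
set_option maxHeartbeats 4000000
set_option maxRecDepth 100000

namespace Cfsg.Agent.Lib.AltSec
open Matrix Cfsg.Lie Cfsg.Agent.Lib.Chev

def th8 : Fin chevE8.rank → ℕ := ![2, 3, 4, 6, 5, 4, 3, 2]

theorem dat8 : Dat e8Cert 30 th8 where
  eta := by unfold Cert.EtaOK; decide +kernel
  rho := ⟨![92, 136, 182, 270, 220, 168, 114, 58], by decide +kernel⟩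
  ht := by decide +kernel
  kil := ⟨by decide, by decide +kernel, by decide +kernel⟩
  pos := by decide +kernel

theorem sep8_2 : Sep e8Cert 2 := by unfold Sep; decide +kernel
theorem sep8_3 : Sep e8Cert 3 := by unfold Sep; decide +kernel

theorem cz8_2 : ∀ l, cz e8Cert.R.ρ 2 l 0 = chevE8.nroots ∨ cz e8Cert.R.ρ 2 l 0 ≤ 128 := dat8.cz0 (by decide +kernel)
theorem cz8_3 : ∀ l, cz e8Cert.R.ρ 3 l 0 = chevE8.nroots ∨ cz e8Cert.R.ρ 3 l 0 ≤ 128 := dat8.cz0 (by decide +kernel)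

theorem alc8_17 : allK (List.ofFn th8) 17 (fun L => Nat.beq (cntN (e8Cert.C.rho 8) 240 17 L 0) 240 ||
    !nall (fun t => Nat.beq (cntN (e8Cert.C.rho 8) 240 17 L t) (cntN (e8Cert.C.rho 8) 240 17 L (3 * t % 17))) 17) =
    true := by decide +kernel

end Cfsg.Agent.Lib.AltSec
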