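import Cfsg.Agent.Lib.AltSec.No18
import Cfsg.Agent.Lib.AltSec.E8Dat

/-! Alternating sections of groups of type E₈. -/

set_option autoImplicit false
set_option linter.style.haveILetI false
set_option maxRecDepth 100000

namespace Cfsg.Agent.Lib.AltSec

open Equiv Module Cfsg.Agent.Lib.Forms Matrix Cfsg.Agent.Lib.Core Cfsg.Agent.Lib.Chev Cfsg.Lie
open scoped MatrixGroups

theorem card_GL (n q : ℕ) [Fact q.Prime] : Nat.card (GL (Fin n) (ZMod q)) = ∏ i : Fin n, (q ^ n - q ^ i.val) := by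
  rw [card_GL_field, ZMod.card]

/-- the unit `3` modulo `17` -/
def u3 : (ZMod 17)ˣ := ⟨3, 6, by decide, by decide⟩

variable {E : Type*} [Field E] [Finite E] {H : Type*} [Group H] [Finite H] {ι : H →* GL chevE8.Idx E} {ζ : Eˣ}

theorem e8_19 (he : Emb chevE8 ι) (hζ : IsPrimitiveRoot ζ (17 ^ (1 + 1 + 1))) {π : H →* Perm (Fin 19)} (h : AS π) :
    False := by
  haveI := Fact.mk (show Nat.Prime 17 by norm_num)
  haveI := Fact.mk Nat.prime_three
  obtain ⟨x, hx⟩ := h.surj (List.formPerm [0, 1, 2, 3, 4, 5, 6, 7, 8, 9, 10, 11, 12, 13, 14, 15, 16]) (by decide +kernel)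
  obtain ⟨g, hg⟩ := h.surj (List.formPerm [1, 3, 9, 10, 13, 5, 15, 11, 16, 14, 8, 7, 4, 12, 2, 6] * swap 17 18)
    (by decide +kernel)
  obtain ⟨l, h1, h2⟩ := he.rat dat8 (c := 1) (d := 1) ⟨by decide, by decide, by decide⟩ hζ sep8_3
    (by rw [card_GL]; decide +kernel) (π := π) (x := x) (g := g) u3
    (by rw [hx]; decide +kernel) (by rw [hx]; decide +kernel) (by rw [hx, hg]; change _ = _ ^ 3; decide +kernel)
  obtain ⟨L, h3, h4⟩ := alc dat8.kil dat8.pos alc8_17 l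
  replace h4 := h4 (stab_root _) fun _ _ => rfl
  rw [h4] at h1
  simp only [Bool.or_eq_true, Nat.beq_eq, Bool.not_eq_true', ← Bool.not_eq_true, nall_iff] at h3
  refine h3.elim h1 fun h3 => h3 fun t ht => ?_
  have := h2 (stab_root _) (t : ZMod 17)
  rwa [h4, h4, ZMod.val_mul, ZMod.val_cast_of_lt ht] at this

theorem e8_18 (he : Emb chevE8 ι) (hζ : IsPrimitiveRoot ζ (3 ^ (4 + 3 + 1))) {π : H →* Perm (Fin 6 × Z3)}
    (h : Min π) : False := by
  haveI := Fact.mk Nat.prime_three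
  have hp : Par chevE8 30 3 4 3 := ⟨by decide, by decide, by decide⟩
  obtain ⟨x, hx⟩ := exists_fus h.toAS S6_p S6_syl.le fun κ => h.ker18 fun κ => h.central (by decide) fun D hD =>
    (he.card_le dat8 hp hζ sep8_2 (fun Q hQ => card_le_of_exp hQ (v := 5) (by rw [card_GL]; decide +kernel))
      D hD).trans_lt (by decide)
  have hω := IsPrimitiveRoot.coe_units_iff.2 (prim_pow Nat.prime_three hζ)
  have h1 := fix_bound dat8 hp hζ sep8_2 cz8_2 cz8_3 (by decide) (he.mem (x (c6 0)))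
    (by rw [← map_pow, ← hx.pow (s := c6 0) (cc6_mem _), show c6 0 ^ 3 = 1 by decide +kernel, hx.one, map_one])
    (fun e => absurd ((hx.pi (c6 0) (cc6_mem _)).symm.trans (by rw [he.inj (e.trans (map_one ι).symm), map_one]))
      (show c6 0 ≠ 1 by decide +kernel)) (ζ ^ 3 ^ (4 + 3) : Eˣ)
  refine no18 hω hx (ρ := (rep _ E).comp ι) (by rw [finrank_fintype_fun_eq_card]; decide +kernel) ?_
  change 3 * finrank E (Eg ((rep _ E).comp ι) _ (x (c6 0)) 0) ≤ 3 * 8 + 240 + 2 * 128 at h1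
  omega

end Cfsg.Agent.Lib.AltSec
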