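import Cfsg.Agent.Lib.AltSec.Red

/-! Weight spaces of an elementary abelian 3-group. -/

set_option autoImplicit false
set_option linter.style.haveILetI false
set_option linter.unusedSectionVars false

namespace Cfsg.Agent.Lib.AltSec

open Equiv Module Cfsg.Agent.Lib.Forms Matrix

abbrev Z3 := ZMod 3

variable {k V H ι : Type*} [Field k] [AddCommGroup V] [Module k V] [Group H] [Fintype ι] [DecidableEq ι]

def ee (ω : k) (t : Z3) : k := ω ^ t.val

def Eg (ρ : H →* End k V) (ω : k) (x : H) (t : Z3) : Submodule k V := (ρ x).eigenspace (ee ω t)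

def Wt (ρ : H →* End k V) (ω : k) (xx : (ι → Z3) → H) (l : ι → Z3) : Submodule k V :=
  JE (fun a => ρ (xx a)) fun a => ee ω (a ⬝ᵥ l)

def Pj (ρ : H →* End k V) (ω : k) (xx : (ι → Z3) → H) (l : ι → Z3) : End k V :=
  ∑ a, ee ω (-(a ⬝ᵥ l)) • ρ (xx a)

variable {ρ : H →* End k V} {ω : k} {xx : (ι → Z3) → H}

theorem mem_Eg {x : H} {t : Z3} {v : V} : v ∈ Eg ρ ω x t ↔ ρ x v = ee ω t • v := End.mem_eigenspace_iff

theorem mem_Wt {l : ι → Z3} {v : V} : v ∈ Wt ρ ω xx l ↔ ∀ a, ρ (xx a) v = ee ω (a ⬝ᵥ l) • v := mem_JE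

theorem Pj_apply (l : ι → Z3) (v : V) : Pj ρ ω xx l v = ∑ a, ee ω (-(a ⬝ᵥ l)) • ρ (xx a) v := by
  simp [Pj, LinearMap.sum_apply]

@[simp] theorem ee_zero : ee ω 0 = 1 := pow_zero ω

theorem rho_inj (g : H) {v : V} (h : ρ g v = 0) : v = 0 := by
  simpa [← rho_mul] using congrArg (ρ g⁻¹) h

theorem finrank_le_conj [FiniteDimensional k V] (g : H) {A B : Submodule k V} (h : ∀ v ∈ A, ρ g v ∈ B) :
    finrank k A ≤ finrank k B :=
  LinearMap.finrank_le_finrank_of_injective (f := (ρ g).restrict h) ((injective_iff_map_eq_zero _).2 fun _ hv =>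
    Subtype.ext (rho_inj g (congrArg Subtype.val hv)))

theorem finrank_le_sum [FiniteDimensional k V] {Λ : Type*} [Fintype Λ] {U : Submodule k V} (T : Λ → Submodule k V)
    (p : Λ → End k V) (h1 : ∀ l, ∀ v ∈ U, p l v ∈ T l) (h2 : ∀ v ∈ U, (∀ l, p l v = 0) → v = 0) :
    finrank k U ≤ ∑ l, finrank k (T l) := by
  rw [← finrank_pi_fintype]
  exact LinearMap.finrank_le_finrank_of_injective (f := LinearMap.pi fun l => (p l).restrict (h1 l))
    ((injective_iff_map_eq_zero _).2 fun v hv => Subtype.ext (h2 v v.2 fun l => congrArg Subtype.val (congrFun hv l)))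

theorem sum_le_finrank [FiniteDimensional k V] {Λ : Type*} [Fintype Λ] {U : Submodule k V} {T : Λ → Submodule k V}
    (h : iSupIndep T) (h1 : ∀ l, T l ≤ U) : ∑ l, finrank k (T l) ≤ finrank k U := by
  classical
  rw [← finrank_directSum]
  refine LinearMap.finrank_le_finrank_of_injective (f := (DirectSum.coeLinearMap T).codRestrict U fun v => ?_)
    fun a b e => h.dfinsupp_lsum_injective (congrArg Subtype.val e)
  exact (iSup_le h1 : iSup T ≤ U) (DirectSum.range_coeLinearMap.le ⟨v, rfl⟩)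

theorem Pj_conj {g : H} {M : (ι → Z3) → ι → Z3} (hM : Function.Bijective M) (h : ∀ a, g * xx a * g⁻¹ = xx (M a))
    {l l' : ι → Z3} (h' : ∀ a, M a ⬝ᵥ l' = a ⬝ᵥ l) (v : V) : ρ g (Pj ρ ω xx l v) = Pj ρ ω xx l' (ρ g v) := by
  rw [Pj_apply, Pj_apply, map_sum]
  refine Fintype.sum_bijective M hM _ _ fun a => ?_
  rw [h', ← h, map_smul, ← rho_mul, ← rho_mul, inv_mul_cancel_right]

theorem Wt_conj {g : H} {M : (ι → Z3) → ι → Z3} (hM : Function.Bijective M) (h : ∀ a, g * xx a * g⁻¹ = xx (M a))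
    {l l' : ι → Z3} (h' : ∀ a, M a ⬝ᵥ l' = a ⬝ᵥ l) {v : V} (hv : v ∈ Wt ρ ω xx l) : ρ g v ∈ Wt ρ ω xx l' :=
  mem_Wt.2 fun a => by
    obtain ⟨a, rfl⟩ := hM.2 a
    rw [h', ← h, ← rho_mul, inv_mul_cancel_right, rho_mul, mem_Wt.1 hv, map_smul]

theorem Eg_conj {g x : H} {t : Z3} {v : V} (hv : v ∈ Eg ρ ω x t) : ρ g v ∈ Eg ρ ω (g * x * g⁻¹) t :=
  mem_Eg.2 (by rw [← rho_mul, inv_mul_cancel_right, rho_mul, mem_Eg.1 hv, map_smul])

section
variable (hω : IsPrimitiveRoot ω 3)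
include hω

theorem ee_add (s t : Z3) : ee ω (s + t) = ee ω s * ee ω t := by
  rw [ee, ee, ee, ← pow_add, ZMod.val_add, ← pow_eq_pow_mod _ hω.pow_eq_one]

theorem ee_neg (s : Z3) : ee ω (-s) * ee ω s = 1 := by rw [← ee_add hω, neg_add_cancel, ee_zero]

theorem ee_ne (s : Z3) : ee ω s ≠ 0 := right_ne_zero_of_mul_eq_one (ee_neg hω s)

theorem ee_inj : Function.Injective (ee ω) := fun _ _ e =>
  ZMod.val_injective 3 (hω.pow_inj (ZMod.val_lt _) (ZMod.val_lt _) e)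

theorem eq_zero_of_ee {s t : Z3} (h : s ≠ t) {v : V} (e : ee ω s • v = ee ω t • v) : v = 0 := by
  rw [← sub_eq_zero, ← sub_smul, smul_eq_zero, sub_eq_zero] at e
  exact e.resolve_left fun e => h (ee_inj hω e)

theorem Eg_inv {x : H} {t : Z3} {v : V} (hv : v ∈ Eg ρ ω x t) : v ∈ Eg ρ ω x⁻¹ (-t) := mem_Eg.2 (by
  have := congrArg (fun w => ee ω (-t) • ρ x⁻¹ w) (mem_Eg.1 hv)
  simp only [← rho_mul, inv_mul_cancel, map_one, End.one_apply, map_smul, smul_smul, ee_neg hω, one_smul] at this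
  exact this.symm)

theorem indep_Wt : iSupIndep (Wt ρ ω xx) := (iSupIndep_JE _).comp (f := fun l a => ee ω (a ⬝ᵥ l)) fun l l' e =>
  funext fun i => by simpa using ee_inj hω (congrFun e (Pi.single i 1))

theorem sum_ee {a : ι → Z3} (ha : a ≠ 0) : ∑ l, ee ω (-(a ⬝ᵥ l)) = 0 := by
  obtain ⟨i, hi⟩ := Function.ne_iff.1 ha
  refine eq_zero_of_ee hω (V := k) (s := -a i) (t := 0) (by simpa using hi) ?_
  rw [ee_zero, one_smul, Finset.smul_sum]
  refine Fintype.sum_equiv (Equiv.addRight (Pi.single i 1)) _ _ fun l => ?_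
  rw [smul_eq_mul, ← ee_add hω, coe_addRight, dotProduct_add, dotProduct_single, mul_one, neg_add, add_comm]

theorem card_ne : ((Fintype.card (ι → Z3) : ℕ) : k) ≠ 0 := by
  rw [Fintype.card_fun, ZMod.card, Nat.cast_pow]
  exact pow_ne_zero _ hω.neZero'.out

theorem Pj_self {l : ι → Z3} {v : V} (hv : v ∈ Wt ρ ω xx l) :
    Pj ρ ω xx l v = ((Fintype.card (ι → Z3) : ℕ) : k) • v := by
  simp only [Pj_apply, mem_Wt.1 hv, smul_smul, ee_neg hω, one_smul, Finset.sum_const, Finset.card_univ,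
    Nat.cast_smul_eq_nsmul]

theorem half [FiniteDimensional k V] {U : Submodule k V} {y j : H} (h : j * y * j⁻¹ = y⁻¹) (hj : ∀ v ∈ U, ρ j v ∈ U) :
    2 * finrank k ↥(Eg ρ ω y 1 ⊓ U) ≤ finrank k U := by
  have h1 : finrank k ↥(Eg ρ ω y 1 ⊓ U) ≤ finrank k ↥(Eg ρ ω y (-1) ⊓ U) := finrank_le_conj j fun v hv =>
    ⟨by simpa [h] using Eg_inv hω (Eg_conj (g := j) hv.1), hj v hv.2⟩
  have h2 := Submodule.finrank_add_finrank_le_of_disjoint (s := (Eg ρ ω y 1 ⊓ U).comap U.subtype)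
    (t := (Eg ρ ω y (-1) ⊓ U).comap U.subtype) (Submodule.disjoint_def.2 fun v h1 h2 => Subtype.ext
      (eq_zero_of_ee hω (by decide) ((mem_Eg.1 h1.1).symm.trans (mem_Eg.1 h2.1))))
  rw [(Submodule.comapSubtypeEquivOfLe inf_le_right).finrank_eq,
    (Submodule.comapSubtypeEquivOfLe inf_le_right).finrank_eq] at h2
  omega

variable (hx : ∀ a b, xx (a + b) = xx a * xx b)
include hx

omit hω in
theorem xx_zero : xx 0 = 1 := by simpa using hx 0 0

omit hω in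
theorem xx_conj (a b : ι → Z3) : xx a * xx b * (xx a)⁻¹ = xx b := by
  rw [← hx, add_comm, hx, mul_inv_cancel_right]

omit hω in
theorem Pj_xx (a l : ι → Z3) (v : V) : ρ (xx a) (Pj ρ ω xx l v) = Pj ρ ω xx l (ρ (xx a) v) :=
  Pj_conj Function.bijective_id (xx_conj hx a) (fun _ => rfl) v

theorem Pj_mem (l : ι → Z3) (v : V) : Pj ρ ω xx l v ∈ Wt ρ ω xx l := mem_Wt.2 fun b => by
  rw [Pj_apply, map_sum, Finset.smul_sum]
  refine Fintype.sum_equiv (Equiv.addLeft b) _ _ fun a => ?_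
  rw [map_smul, ← rho_mul, ← hx, coe_addLeft, smul_smul, ← ee_add hω, add_dotProduct, neg_add, add_neg_cancel_left]

theorem eq_zero_of_Pj {v : V} (h : ∀ l, Pj ρ ω xx l v = 0) : v = 0 := by
  have h1 : ∑ l, Pj ρ ω xx l v = ((Fintype.card (ι → Z3) : ℕ) : k) • v := by
    simp only [Pj_apply]
    rw [Finset.sum_comm, Finset.sum_eq_single 0 (fun a _ ha => by rw [← Finset.sum_smul, sum_ee hω ha, zero_smul])
      (by simp)]
    simp only [xx_zero hx, zero_dotProduct, neg_zero, ee_zero, one_smul, map_one, End.one_apply, Finset.sum_const,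
      Finset.card_univ, Nat.cast_smul_eq_nsmul]
  rw [Finset.sum_eq_zero fun l _ => h l] at h1
  exact (smul_eq_zero.1 h1.symm).resolve_left (card_ne hω)

theorem Pj_eq_zero {a l : ι → Z3} {t : Z3} (h : a ⬝ᵥ l ≠ t) {v : V} (hv : v ∈ Eg ρ ω (xx a) t) :
    Pj ρ ω xx l v = 0 :=
  eq_zero_of_ee hω h (by rw [← mem_Wt.1 (Pj_mem hω hx l v), Pj_xx hx, mem_Eg.1 hv, map_smul])

variable [FiniteDimensional k V]

theorem total : finrank k V = ∑ l, finrank k (Wt ρ ω xx l) := by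
  rw [← finrank_top]
  exact le_antisymm (finrank_le_sum _ (Pj ρ ω xx) (fun l v _ => Pj_mem hω hx l v) fun v _ => eq_zero_of_Pj hω hx)
    (sum_le_finrank (indep_Wt hω) fun _ => le_top)

omit hx in
theorem sum_le (p : (ι → Z3) → Prop) [DecidablePred p] {U : Submodule k V} (h : ∀ l, p l → Wt ρ ω xx l ≤ U) :
    ∑ l, (if p l then finrank k (Wt ρ ω xx l) else 0) ≤ finrank k U := by
  have := sum_le_finrank (U := U) (T := fun l => if p l then Wt ρ ω xx l else ⊥)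
    ((indep_Wt (ρ := ρ) (xx := xx) hω).mono fun l => by dsimp only; split_ifs <;> simp) fun l => by
      split_ifs with h1
      exacts [h l h1, bot_le]
  refine le_of_eq_of_le (Finset.sum_congr rfl fun l _ => ?_) this
  by_cases h1 : p l
  · rw [if_pos h1, if_pos h1]
  · rw [if_neg h1, if_neg h1, finrank_bot]

/-- the comparison of two conjugate elements -/
theorem yr {κ : Type*} [Fintype κ] (b : κ → ι → Z3) (μ : κ → Z3) {r : ι → Z3} {y h : H} {M : (ι → Z3) → ι → Z3}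
    (hM : Function.Bijective M) (hM' : ∀ a l, M a ⬝ᵥ M l = a ⬝ᵥ l) (hy : ∀ a, y * xx a * y⁻¹ = xx (M a))
    (h1 : h * xx r * h⁻¹ = y) (h2 : ∀ j, h * xx (b j) * h⁻¹ = xx (b j)) (R : (ι → Z3) → Prop) [DecidablePred R]
    (hR : ∀ l, (∀ j, b j ⬝ᵥ l = μ j) → ∃ l', R l' ∧ (l = l' ∨ l = M l' ∨ l = M (M l'))) :
    ∑ l, (if (∀ j, b j ⬝ᵥ l = μ j) ∧ r ⬝ᵥ l = 1 then finrank k (Wt ρ ω xx l) else 0) ≤
      ∑ l, if R l then if M l = l then finrank k ↥(Eg ρ ω y 1 ⊓ Wt ρ ω xx l) else finrank k (Wt ρ ω xx l) else 0 := by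
  let W := ⨅ j, Eg ρ ω (xx (b j)) (μ j)
  refine (sum_le hω (fun l => (∀ j, b j ⬝ᵥ l = μ j) ∧ r ⬝ᵥ l = 1) (U := Eg ρ ω (xx r) 1 ⊓ W) fun l hl v hv => ⟨mem_Eg.2 (hl.2 ▸ mem_Wt.1 hv _),
    (Submodule.mem_iInf _).2 fun j => mem_Eg.2 (hl.1 j ▸ mem_Wt.1 hv _)⟩).trans
    ((finrank_le_conj h (B := Eg ρ ω y 1 ⊓ W) fun v hv => ⟨h1 ▸ Eg_conj hv.1,
      (Submodule.mem_iInf _).2 fun j => h2 j ▸ Eg_conj ((Submodule.mem_iInf _).1 hv.2 j)⟩).trans ?_)
  have key : ∀ v ∈ Eg ρ ω y 1, ∀ l, ρ y (Pj ρ ω xx l v) = ee ω 1 • Pj ρ ω xx (M l) v := fun v hv l => by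
    rw [Pj_conj hM hy (fun a => hM' a l), mem_Eg.1 hv, map_smul]
  have key' : ∀ v ∈ Eg ρ ω y 1, ∀ l, Pj ρ ω xx l v = 0 → Pj ρ ω xx (M l) v = 0 := fun v hv l e => by
    have := key v hv l
    rw [e, map_zero, eq_comm, smul_eq_zero] at this
    exact this.resolve_left (ee_ne hω 1)
  refine (finrank_le_sum (fun l => if R l then if M l = l then Eg ρ ω y 1 ⊓ Wt ρ ω xx l else Wt ρ ω xx l else ⊥)
    (fun l => if R l then Pj ρ ω xx l else 0) (fun l v hv => ?_) fun v hv e => eq_zero_of_Pj (ρ := ρ) hω hx fun l => ?_).trans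
    (le_of_eq (Finset.sum_congr rfl fun l _ => ?_))
  rotate_right
  · by_cases h3 : R l
    · by_cases h4 : M l = l
      · rw [if_pos h3, if_pos h3, if_pos h4, if_pos h4]
      · rw [if_pos h3, if_pos h3, if_neg h4, if_neg h4]
    · rw [if_neg h3, if_neg h3, finrank_bot]
  · split_ifs with h3 h4
    · exact ⟨mem_Eg.2 (by rw [key v hv.1, h4]), Pj_mem hω hx l v⟩
    · exact Pj_mem hω hx l v
    · simp
  · by_cases h3 : ∀ j, b j ⬝ᵥ l = μ j
    · obtain ⟨l', h4, h5⟩ := hR l h3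
      have h6 := e l'
      rw [if_pos h4] at h6
      rcases h5 with rfl | rfl | rfl
      exacts [h6, key' v hv.1 _ h6, key' v hv.1 _ (key' v hv.1 _ h6)]
    · obtain ⟨j, hj⟩ := not_forall.1 h3
      exact Pj_eq_zero hω hx hj ((Submodule.mem_iInf _).1 hv.2 j)

end

/-! ### signed permutations -/

def sg (τ : Perm ι) (ε : ι → Z3ˣ) (a : ι → Z3) : ι → Z3 := fun l => ε l * a (τ l)

theorem sg_bij (τ : Perm ι) (ε : ι → Z3ˣ) : Function.Bijective (sg τ ε) :=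
  Finite.injective_iff_bijective.1 fun a b e => funext fun i => by
    simpa [sg] using congrFun e (τ.symm i)

theorem sg_dot (τ : Perm ι) (ε : ι → Z3ˣ) (a l : ι → Z3) : sg τ ε a ⬝ᵥ sg τ ε l = a ⬝ᵥ l := by
  refine Fintype.sum_equiv τ _ _ fun i => ?_
  have : ∀ u : Z3ˣ, (u : Z3) * u = 1 := by decide
  simp only [sg]
  linear_combination (a (τ i) * l (τ i)) * this (ε i)

def cc (a : ι → Z3) : Perm (ι × Z3) := Equiv.prodCongrRight fun i => Equiv.addRight (a i)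

def sq (τ : Perm ι) (ε : ι → Z3ˣ) : Perm (ι × Z3) :=
  τ.prodCongr (Equiv.refl _) * Equiv.prodCongrRight fun i => (ε i).mulLeft

theorem cc_add (a b : ι → Z3) : cc (a + b) = cc a * cc b := by
  ext ⟨i, t⟩ <;> simp [cc]
  ring

theorem sq_conj (τ : Perm ι) (ε : ι → Z3ˣ) (a : ι → Z3) : (sq τ ε)⁻¹ * cc a * (sq τ ε)⁻¹⁻¹ = cc (sg τ ε a) := by
  rw [inv_inv, mul_assoc, inv_mul_eq_iff_eq_mul]
  have : ∀ u : Z3ˣ, (u : Z3) * u = 1 := by decide
  ext ⟨i, t⟩ <;> simp [cc, sq, sg]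
  linear_combination (-a (τ i)) * this (ε i)

def ng (k : ι) (i : ι) : Z3ˣ := if i = k then -1 else 1

def sz (l : ι → Z3) : ℕ := (Finset.univ.filter fun i => l i ≠ 0).card

theorem canon {β : Type*} (h4 : 3 < Fintype.card ι) {f : (ι → Z3) → β}
    (hf : ∀ i j k l, i ≠ j → f (sg (swap i j) (ng k) l) = f l) (pot : (ι → Z3) → ℕ) (cn : ℕ → ι → Z3)
    (h : ∀ l, l = cn (sz l) ∨ (∃ k, sz (sg 1 (ng k) l) = sz l ∧ pot (sg 1 (ng k) l) < pot l) ∨
      ∃ i j, sz (sg (swap i j) 1 l) = sz l ∧ pot (sg (swap i j) 1 l) < pot l) (l : ι → Z3) : f l = f (cn (sz l)) := by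
  have h1 : ∀ k l, f (sg 1 (ng k) l) = f l := fun k l => by
    obtain ⟨i, j, hij, e⟩ := Fintype.exists_ne_map_eq_of_card_lt l (by simpa using h4)
    rw [← hf i j k l hij]
    exact congrArg f (funext fun m => by simp only [sg, Perm.one_apply, apply_swap_eq_self e])
  have h2 : ∀ i j l, f (sg (swap i j) 1 l) = f l := fun i j l => by
    by_cases hij : i = j
    · exact congrArg f (funext fun m => by simp [sg, hij])
    · rw [← hf i j i l hij, ← h1 i]
      exact congrArg f (funext fun m => by simp [sg])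
  induction hn : pot l using Nat.strong_induction_on generalizing l with | _ n ih => ?_
  subst hn
  rcases h l with e | ⟨k, e, e'⟩ | ⟨i, j, e, e'⟩
  · exact congrArg f e
  · rw [← e, ← ih _ e' _ rfl, h1]
  · rw [← e, ← ih _ e' _ rfl, h2]

theorem sum_sz {m : (ι → Z3) → ℕ} {M : ℕ → ℕ} (h : ∀ l, m l = M (sz l)) (p : (ι → Z3) → Prop) [DecidablePred p]
    (c : Fin (Fintype.card ι + 1) → ℕ) (hc : ∀ s, (Finset.univ.filter fun l => p l ∧ sz l = s.val).card = c s) :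
    ∑ l, (if p l then m l else 0) = ∑ s, c s * M s := by
  rw [← Finset.sum_fiberwise_of_maps_to (t := Finset.univ) (g := fun l => (⟨sz l, Nat.lt_succ_of_le
    (Finset.card_le_univ _)⟩ : Fin (Fintype.card ι + 1))) fun _ _ => Finset.mem_univ _]
  refine Finset.sum_congr rfl fun s _ => ?_
  rw [← hc, ← smul_eq_mul, ← Finset.sum_const, Finset.sum_filter, Finset.sum_filter]
  refine Finset.sum_congr rfl fun l _ => ?_
  by_cases h1 : sz l = s.val <;> by_cases h2 : p l <;> simp [h1, h2, h, Fin.ext_iff]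

end Cfsg.Agent.Lib.AltSec
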