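import Cfsg.Agent.Lib.AltSec.Alc
import Cfsg.Agent.Lib.AltSec.Wt

/-! Finite subgroups of Chevalley groups with an alternating quotient: common set-up. -/

set_option autoImplicit false
set_option linter.style.haveILetI false
set_option linter.unusedSectionVars false

namespace Cfsg.Agent.Lib.AltSec
open Matrix Cfsg.Lie Cfsg.Agent.Lib.Chev Cfsg.Agent.Lib.Core Cfsg.Agent.Lib.Forms Equiv Module
open scoped MatrixGroups

noncomputable section
universe u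

structure Dat {D : ChevalleyDatum} (K : Cert D) (h : ℕ) (θ : Fin D.rank → ℕ) : Prop where
  eta : K.EtaOK
  rho : Rho2 K
  ht : ∀ a, |RS.ht (K.wt a)| ≤ (h : ℤ) - 1
  kil : Kil K.R h fun i => θ i
  pos : ∀ i, 0 < θ i

structure Emb (D : ChevalleyDatum) {E H : Type*} [Field E] [Group H] (ι : H →* GL D.Idx E) : Prop where
  inj : Function.Injective ι
  mem : ∀ x, ι x ∈ D.group E

def rep (α E : Type*) [Fintype α] [DecidableEq α] [Field E] : GL α E →* End E (α → E) :=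
  (Matrix.toLinAlgEquiv' (R := E) (n := α)).toRingEquiv.toMonoidHom.comp (Units.coeHom _)

theorem rep_apply {α E : Type*} [Fintype α] [DecidableEq α] [Field E] (g : GL α E) (v : α → E) :
    rep α E g v = (g : Matrix α α E) *ᵥ v := rfl

theorem exists_emb {D : ChevalleyDatum} (K : Cert D) {F : Type u} [Field F] [Finite F] {G : Subgroup (GL D.Idx F)}
    (hG : G ≤ D.group F) {H : Subgroup G} {N : Subgroup H} [N.Normal] {r : ℕ}
    (e : H ⧸ N ≃* alternatingGroup (Fin r)) (Ω : Type) [Fintype Ω] [DecidableEq Ω] (h1 : Fintype.card Ω ≤ r)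
    (h9 : 9 ≤ Fintype.card Ω) (n : ℕ) [NeZero n] (hn : (n : F) ≠ 0) :
    ∃ (E : Type u) (_ : Field E) (_ : Finite E) (_ : F →+* E) (ζ : Eˣ) (H' : Type u) (_ : Group H') (_ : Finite H')
      (ι : H' →* GL D.Idx E) (π : H' →* Perm Ω), IsPrimitiveRoot ζ n ∧ Emb D ι ∧ Min π := by
  obtain ⟨E, _, _, f, ζ, hζ⟩ := exists_ext_prim F n hn
  obtain ⟨H', _, _, j, π, hj, h⟩ := exists_min' e h1 h9
  let c := (Fintype.equivFin Ω).symm
  refine ⟨E, _, ‹_›, f, ζ, H', _, ‹_›, (Matrix.GeneralLinearGroup.map f).comp (G.subtype.comp (H.subtype.comp j)),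
    c.permCongrHom.toMonoidHom.comp π, hζ, ⟨fun a b e => hj (Subtype.ext (Subtype.ext (Units.ext ?_))),
      fun x => K.map_mem f (hG (j x).1.2)⟩, ⟨fun σ hσ => ?_, fun x => ?_, h9⟩, fun S hS => h.min S fun σ hσ => ?_⟩
  · exact Matrix.map_injective f.injective (congrArg Units.val e)
  · exact (h.surj (c.permCongrHom.symm σ) ((Perm.sign_permCongr c.symm σ).trans hσ)).imp fun x hx =>
      (congrArg c.permCongrHom hx).trans (c.permCongrHom.apply_symm_apply σ)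
  · exact (Perm.sign_permCongr c _).trans (h.even x)
  · exact (hS _ ((Perm.sign_permCongr c σ).trans hσ)).imp fun x hx => ⟨hx.1, c.permCongrHom.injective hx.2⟩

variable {D : ChevalleyDatum} {K : Cert D} {E : Type*} [Field E] {H : Type*} [Group H] {ι : H →* GL D.Idx E}
  {h : ℕ} {θ : Fin D.rank → ℕ}

theorem Emb.conj (h : Emb D ι) {y : GL D.Idx E} (hy : y ∈ D.group E) : Emb D ((MulAut.conj y).toMonoidHom.comp ι) :=
  ⟨(MulAut.conj y).injective.comp h.inj, fun x => mul_mem (mul_mem hy (h.mem x)) (inv_mem hy)⟩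

theorem fix_le {hη : K.EtaOK} {q B : ℕ} (hq : Sep K q)
    (hB : ∀ l, cz K.R.ρ q l 0 = D.nroots ∨ cz K.R.ρ q l 0 ≤ B) {g : NN K E hη} {n : ℕ} (hn : Odd n) (h1 : g ^ n = 1)
    (h2 : g.1 ∉ (K.full E).T) : (Finset.univ.filter fun r => sig K hη g r = r).card ≤ B := by
  have h3 : ∀ i r, (((fun j => K.R.ρ (sig K hη g (K.R.sim j)) i - (Pi.single i 1 : _ → ℤ) j) ⬝ᵥ K.R.ρ r : ℤ) : ZMod q) =
      K.R.ρ (sig K hη g r) i - K.R.ρ r i := fun i r => by
    rw [← congrFun (mat_sig q g r) i]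
    simp [mat, mulVec, dotProduct, sub_mul, Pi.single_apply]
  by_contra h4
  refine h2 (mem_T_of_phi hq (Units.ext (Matrix.ext fun i j => ?_)) hn h1)
  rcases hB (fun j => K.R.ρ (sig K hη g (K.R.sim j)) i - (Pi.single i 1 : _ → ℤ) j) with h5 | h5
  · have := (Finset.mem_filter.1 (((Finset.card_eq_iff_eq_univ _).1 (h5.trans (Fintype.card_fin D.nroots).symm)).ge
      (Finset.mem_univ (K.R.sim j)))).2
    rw [h3, sub_eq_zero, K.R.ρ_sim] at this
    rw [phi_val, mat, of_apply, this]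
    simp [Pi.single_apply, one_apply]
  · exact absurd ((Finset.card_le_card fun r hr => by
      simp only [Finset.mem_filter, Finset.mem_univ, true_and] at hr ⊢
      rw [h3, hr, sub_self]).trans h5) h4

theorem prim_pow {ζ : Eˣ} {l n : ℕ} (hl : l.Prime) (hζ : IsPrimitiveRoot ζ (l ^ (n + 1))) :
    IsPrimitiveRoot (ζ ^ l ^ n) l := hζ.pow (pow_pos hl.pos _) (pow_succ l n)

structure Par (D : ChevalleyDatum) (h l c d : ℕ) : Prop where
  ne : l ≠ 2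
  c : D.nroots < l ^ (c + 1)
  d : 2 * ((h : ℤ) - 1) < (l ^ (d + 1) : ℕ)

variable [Finite E] {l c d : ℕ} [hl : Fact l.Prime] {ζ : Eˣ} (hD : Dat K h θ) (hp : Par D h l c d)
  (hζ : IsPrimitiveRoot ζ (l ^ (c + d + 1)))
include hD hp hζ

theorem Emb.toN (he : Emb D ι) {P : Subgroup H} (hP : IsPGroup l P) :
    ∃ y ∈ D.group E, ∀ x ∈ P, y * ι x * y⁻¹ ∈ NN K E hD.eta := by
  obtain ⟨y, h1, h2⟩ := conjN hD.eta hD.rho hp.ne (d := d + 1) hζ hp.c hD.ht hp.d (hP.map ι)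
    (by rintro _ ⟨x, -, rfl⟩; exact he.mem x)
  exact ⟨y, h1, fun x hx => h2 _ ⟨x, hx, rfl⟩⟩

theorem Emb.card_le (he : Emb D ι) {q : ℕ} [NeZero q] (hq : Sep K q) {B : ℕ}
    (hB : ∀ Q : Subgroup (GL (Fin D.rank) (ZMod q)), (∀ x ∈ Q, x ^ l = 1) → Nat.card Q ≤ B) (P : Subgroup H)
    (hP : ∀ x ∈ P, x ^ l = 1) : Nat.card P ≤ B * l ^ D.rank := by
  obtain ⟨y, h1, h2⟩ := he.toN hD hp hζ (P := P) (isPGroup_of_forall_pow fun x hx => ⟨1, by simpa using hP x hx⟩)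
  refine (card_N hq (f := (((MulAut.conj y).toMonoidHom.comp ι).comp P.subtype).codRestrict _ fun x => h2 x x.2)
    (fun a b e => Subtype.ext ((he.conj h1).inj (congrArg Subtype.val e))) (hl.out.odd_of_ne_two hp.ne)
    fun x => Subtype.ext (hP x x.2)).trans (Nat.mul_le_mul_right _ (hB _ ?_))
  rintro _ ⟨x, rfl⟩
  rw [← map_pow, show x ^ l = 1 from Subtype.ext (hP x x.2), map_one]

theorem Emb.tor (he : Emb D ι) {q : ℕ} [NeZero q] (hq : Sep K q) (hB : ¬ l ∣ Nat.card (GL (Fin D.rank) (ZMod q)))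
    {P : Subgroup H} (hP : IsPGroup l P) : ∃ y ∈ D.group E, ∀ x ∈ P, y * ι x * y⁻¹ ∈ (K.full E).T := by
  obtain ⟨y, h1, h2⟩ := he.toN hD hp hζ hP
  refine ⟨y, h1, fun x hx => ?_⟩
  obtain ⟨n, hn⟩ := pow_eq_one_of_isPGroup hP hx
  have h3 : (⟨_, h2 x hx⟩ : NN K E hD.eta) ^ l ^ n = 1 := Subtype.ext (by
    rw [Subgroup.coe_pow, conj_pow, ← map_pow, hn]; simp)
  exact mem_T_of_phi hq ((pow_eq_one_iff_of_coprime (((Nat.Prime.coprime_iff_not_dvd hl.out).2 hB).pow_left n)).1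
    ⟨by rw [← map_pow, h3, map_one], pow_card_eq_one'⟩) (hl.out.odd_of_ne_two hp.ne).pow h3

theorem Emb.rat [Finite H] (he : Emb D ι) {q : ℕ} [NeZero q] (hq : Sep K q)
    (hB : ¬ l ∣ Nat.card (GL (Fin D.rank) (ZMod q))) {G : Type*} [Group G] {π : H →* G} {x g : H} (j : (ZMod l)ˣ)
    (h1 : π x ^ l = 1) (h2 : π x ≠ 1) (h3 : π g * π x * (π g)⁻¹ = π x ^ (j : ZMod l).val) :
    ∃ lam, cz K.R.ρ l lam 0 ≠ D.nroots ∧ ∀ {N : ℕ} {u : Fin N → Fin D.rank → ℤ}, Stab K.R u →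
      ∀ t, cz u l lam t = cz u l lam (j * t) := by
  obtain ⟨x, g, h4, h5, h6⟩ := exists_eigen_elt (π := π) (fun P hP a b => by
    obtain ⟨y, h1, h2⟩ := he.tor hD hp hζ hq hB hP
    refine Subtype.ext ((he.conj h1).inj ?_)
    simp only [Subgroup.coe_mul, map_mul]
    exact (K.T_comm (h2 a a.2) (h2 b b.2)).eq) h1 h2 h3
  obtain ⟨y, h7, h8⟩ := he.tor hD hp hζ hq hB (isPGroup_zpowers (k := 1) (x := x) (by simpa))
  obtain ⟨χ, hχ⟩ := h8 x (Subgroup.mem_zpowers x)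
  replace he := he.conj h7
  replace hχ : K.h χ = (MulAut.conj y).toMonoidHom.comp ι x := hχ
  generalize (MulAut.conj y).toMonoidHom.comp ι = ι at he hχ
  obtain ⟨lam, h9⟩ := exists_lam (prim_pow hl.out hζ) (χ := χ) (K.h_inj (by
    rw [K.h.map_pow, hχ, ← map_pow, h5, map_one, map_one]))
  exact ⟨lam, cz_lt K (prim_pow hl.out hζ) h9 (by rwa [hχ, Ne, map_eq_one_iff _ he.inj]), fun hu =>
    cz_rat K (prim_pow hl.out hζ) h9 (he.mem g) (by rw [hχ, ← map_pow, ← h6]; simp) hu⟩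

omit hl hD hp hζ in
theorem fix_bound (hD : Dat K h θ) (hp : Par D h 3 c d) (hζ : IsPrimitiveRoot ζ (3 ^ (c + d + 1))) (h2 : Sep K 2)
    {B : ℕ} (hB : ∀ l, cz K.R.ρ 2 l 0 = D.nroots ∨ cz K.R.ρ 2 l 0 ≤ B)
    (hB' : ∀ l, cz K.R.ρ 3 l 0 = D.nroots ∨ cz K.R.ρ 3 l 0 ≤ B) (hB'' : B ≤ D.nroots) {x : GL D.Idx E}
    (hx : x ∈ D.group E) (h3 : x ^ 3 = 1) (h1 : x ≠ 1) (ω : E) :
    3 * finrank E (Eg (rep _ E) ω x 0) ≤ 3 * D.rank + D.nroots + 2 * B := by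
  classical
  haveI := Fact.mk Nat.prime_three
  obtain ⟨y, h4, h5⟩ := conjN hD.eta hD.rho hp.ne (d := d + 1) hζ hp.c hD.ht hp.d
    (isPGroup_zpowers (k := 1) (x := x) (by rwa [pow_one])) (Subgroup.zpowers_le.2 hx)
  have h6 : finrank E (Eg (rep _ E) ω x 0) ≤ finrank E (Eg (rep _ E) ω (y * x * y⁻¹) 0) :=
    finrank_le_conj y fun v hv => Eg_conj hv
  have h7 : y * x * y⁻¹ ∈ NN K E hD.eta := h5 _ (Subgroup.mem_zpowers _)
  have h8 : (y * x * y⁻¹) ^ 3 = 1 := by rw [conj_pow, h3]; simp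
  have h9 : y * x * y⁻¹ ≠ 1 := by simpa
  generalize y * x * y⁻¹ = z at h6 h7 h8 h9
  refine (Nat.mul_le_mul_left 3 h6).trans ?_
  rw [Eg, ee_zero]
  by_cases h10 : z ∈ (K.full E).T
  · obtain ⟨χ, rfl⟩ := h10
    obtain ⟨lam, h11⟩ := exists_lam (prim_pow Nat.prime_three hζ) (χ := χ) (K.h_inj (by rw [K.h.map_pow, h8, map_one]))
    have h12 := (hB' lam).resolve_left (cz_lt K (prim_pow Nat.prime_three hζ) h11 h9)
    have h13 := finrank_T (K := K) χ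
    rw [Finset.filter_congr fun r _ => by
      rw [h11, ← zpow_zero (ζ ^ _), zpow_eq_iff (prim_pow Nat.prime_three hζ), Int.cast_zero]] at h13
    change _ ≤ _ + cz K.R.ρ 3 lam 0 at h13
    change 3 * finrank E (End.eigenspace (toLin' (K.h χ : Matrix D.Idx D.Idx E)) 1) ≤ _
    omega
  · have h11 := fix_le h2 hB (g := ⟨z, h7⟩) (n := 3) (by decide) (Subtype.ext h8) h10
    have h12 := finrank_N ⟨z, h7⟩ (by rw [← map_pow, show (⟨z, h7⟩ : NN K E hD.eta) ^ 3 = 1 from Subtype.ext h8, map_one])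
    exact h12.trans (by omega)

omit hl hp hζ [Finite E] in
theorem Dat.cz0 {m B : ℕ} [NeZero m] (hp : allK (List.ofFn θ) m (fun L =>
    Nat.beq (cntN (K.C.rho D.rank) D.nroots m L 0) D.nroots || Nat.ble (cntN (K.C.rho D.rank) D.nroots m L 0) B) = true)
    (l : Fin D.rank → ℤ) : cz K.R.ρ m l 0 = D.nroots ∨ cz K.R.ρ m l 0 ≤ B := by
  obtain ⟨L, h1, h2⟩ := alc hD.kil hD.pos hp l
  rw [h2 (stab_root K) (fun _ _ => rfl), ZMod.val_zero]
  simpa using h1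

end
end Cfsg.Agent.Lib.AltSec
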