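import Cfsg.Agent.Lib.AltSec.Wt2
import Cfsg.Agent.Lib.Forms.TriCen

/-! Irreducible modules for minimal preimages of alternating groups. -/

set_option autoImplicit false
set_option linter.style.haveILetI false
set_option linter.unusedSectionVars false

namespace Cfsg.Agent.Lib.AltSec

open Equiv Module Subgroup Cfsg.Agent.Lib.Forms Cfsg.Agent.Lib.Core
open scoped commutatorElement

universe u
variable {Ω : Type} [Fintype Ω] [DecidableEq Ω] {H : Type u} [Group H] [Finite H] {π : H →* Perm Ω}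
  {k V : Type} [Field k] [IsAlgClosed k] [AddCommGroup V] [Module k V] [FiniteDimensional k V] {ρ : H →* End k V}

theorem Min.caseE [Nontrivial V] (h : Min π) (inj : Function.Injective ρ)
    (irr : ∀ U : Submodule k V, (∀ h, ∀ v ∈ U, ρ h v ∈ U) → U = ⊥ ∨ U = ⊤)
    (E : Subgroup H) [hEn : E.Normal] (hE : ¬ E ≤ center H) (hc : ∀ x ∈ E, ∀ y ∈ E, ⁅x, y⁆ ∈ center H)
    (hz : ∀ x ∈ E, (∀ y ∈ E, Commute x y) → x ∈ center H) {l : ℕ} [hp : Fact l.Prime]
    (hl : ∀ x ∈ E, x ^ l ∈ center H) : 2 ^ (Fintype.card Ω - 2) ≤ finrank k V * finrank k V := by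
  let q := QuotientGroup.mk' (center H)
  have hq : ∀ x, q x = 1 ↔ x ∈ center H := fun x => QuotientGroup.eq_one_iff x
  let A := E.map q
  haveI : A.Normal := hEn.map q (QuotientGroup.mk'_surjective _)
  choose s hs hs' using fun a : A => mem_map.mp a.2
  have h1 := card_le_sq irr E hc fun x hx h1 => hz x hx fun y hy => inj (by rw [map_mul, map_mul, h1 y hy])
  letI : CommGroup A := { (inferInstance : Group A) with
    mul_comm := fun a b => Subtype.ext (by
      rw [coe_mul, coe_mul, ← commutatorElement_eq_one_iff_mul_comm, ← hs', ← hs', ← map_commutatorElement, hq]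
      exact hc _ (hs _) _ (hs _)) }
  rcases h.normal' ((MulAut.conjNormal (H := A)).comp q).ker with h2 | h2
  · exact ((Nat.pow_le_pow_left hp.out.two_le _).trans (elem h.toAS (A := A) (fun a => Subtype.ext (by
      rw [coe_pow, ← hs', ← map_pow]; exact (hq _).mpr (hl _ (hs _)))) _ h2)).trans h1
  · refine (hE ?_).elim
    rw [← centralizer_univ, ← coe_top, ← commutator_eq_bot_iff_le_centralizer]
    refine Core.commutator_eq_bot_of_perfect h.perfect ?_
    rw [commutator_eq_bot_iff_le_centralizer, coe_top, centralizer_univ, commutator_comm, commutator_le]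
    intro g _ x hx
    have h4 : q g * q x * (q g)⁻¹ = q x := congrArg (fun f : MulAut A => (f ⟨q x, mem_map_of_mem q hx⟩).1)
      (MonoidHom.mem_ker.mp (h2.ge (mem_top g)))
    rw [← hq, map_commutatorElement, commutatorElement_def, h4, mul_inv_cancel]

theorem Min.noncen [Nontrivial V] (h : Min π) (inj : Function.Injective ρ)
    (irr : ∀ U : Submodule k V, (∀ h, ∀ v ∈ U, ρ h v ∈ U) → U = ⊥ ∨ U = ⊤)
    (hV : finrank k V * finrank k V < 2 ^ (Fintype.card Ω - 2)) (hK : ¬ π.ker ≤ center H) :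
    ∃ E : Subgroup H, E.Normal ∧ ¬ E ≤ center H ∧ ∀ x y : E, Commute x y := by
  have h1 : π.ker ≤ frattini H := le_iInf₂ fun M hM => by
    by_contra h1
    refine hM.1 (h.min M fun σ hσ => ?_)
    obtain ⟨x, rfl⟩ := h.surj σ hσ
    obtain ⟨y, hy, z, hz, rfl⟩ := mem_sup_of_normal_right.mp ((hM.2 _ (left_lt_sup.mpr h1)).ge (mem_top x))
    exact ⟨y, hy, by rw [map_mul, MonoidHom.mem_ker.mp hz, mul_one]⟩
  obtain ⟨E, ⟨hE1, hE2, hE3⟩, hE4⟩ := (wellFounded_lt (α := Subgroup H)).has_min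
    {E | E.Normal ∧ E ≤ π.ker ∧ ¬ E ≤ center H} ⟨_, inferInstance, le_rfl, hK⟩
  have h2 : ∀ F : Subgroup H, F.Normal → F < E → F ≤ center H := fun F h1 h2 =>
    by_contra fun h3 => hE4 F ⟨h1, h2.le.trans hE2, h3⟩ h2
  refine ⟨E, hE1, hE3, by_contra fun hc => hV.not_ge ?_⟩
  have h3 : ∀ x ∈ E, ∀ y ∈ E, ⁅x, y⁆ ∈ center H := by
    haveI := frattini_nilpotent (G := H)
    haveI : Group.IsSolvable E :=
      Group.isSolvable_of_isSolvable_injective (inclusion_injective (hE2.trans h1))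
    haveI : Nontrivial E := (nontrivial_iff_ne_bot _).mpr fun e => hE3 (e ▸ bot_le)
    have h3 := map_subtype_lt_map_subtype.mpr (Group.IsSolvable.commutator_lt_top_of_nontrivial E)
    rw [map_subtype_commutator, ← MonoidHom.range_eq_map, range_subtype] at h3
    exact commutator_le.mp (h2 _ inferInstance h3)
  obtain ⟨x, hx, hx'⟩ := SetLike.not_le_iff_exists.mp hE3
  have hq : ∀ x, QuotientGroup.mk' (center H) x = 1 ↔ x ∈ center H := fun x => QuotientGroup.eq_one_iff x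
  obtain ⟨l, hl, m, hm⟩ := Nat.exists_prime_and_dvd (mt orderOf_eq_one_iff.mp (mt (hq x).mp hx'))
  haveI := Fact.mk hl
  let F : Subgroup H :=
    { carrier := {x | x ∈ E ∧ x ^ l ∈ center H}
      one_mem' := ⟨one_mem _, by simp⟩
      inv_mem' := fun hx => ⟨inv_mem hx.1, by simpa using hx.2⟩
      mul_mem' := fun {a b} ha hb => ⟨mul_mem ha.1 hb.1, by
        rw [← hq, map_pow, map_mul, Commute.mul_pow (commutatorElement_eq_one_iff_commute.mp (by
          rw [← map_commutatorElement, hq]; exact h3 _ ha.1 _ hb.1)), ← map_pow, ← map_pow, (hq _).mpr ha.2,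
          (hq _).mpr hb.2, mul_one]⟩ }
  have h4 : F = E := by
    refine eq_of_le_of_not_lt (fun _ h => h.1) fun h4 => ?_
    have h5 := h2 F ⟨fun a ha g => ⟨hE1.conj_mem a ha.1 g, by
      rw [conj_pow]; exact (normal_of_characteristic _).conj_mem _ ha.2 g⟩⟩ h4 (x := x ^ m) ⟨pow_mem hx m, by
      rw [← hq, ← pow_mul, map_pow, mul_comm, ← hm, pow_orderOf_eq_one]⟩
    rw [← hq, map_pow, ← orderOf_dvd_iff_pow_eq_one, hm] at h5
    have h6 := orderOf_pos (QuotientGroup.mk' (center H) x)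
    have := Nat.le_of_dvd (Nat.pos_of_mul_pos_left (hm ▸ h6)) h5
    nlinarith [hl.two_le]
  refine h.caseE inj irr E hE3 h3 (fun x hx hx' => h2 (E ⊓ centralizer E) inferInstance
    (lt_of_le_of_ne inf_le_left fun e => hc fun a b => Subtype.ext ((e.ge b.2).2 a a.2)) ⟨hx, fun y hy => (hx' y hy).symm⟩)
    (l := l) fun x hx => (h4.ge hx).2

omit [Finite H] [IsAlgClosed k] [FiniteDimensional k V] in
/-- modules for `A₄` without fixed points of the 3-elements -/
theorem a4 (h2 : (2 : k) ≠ 0) {C : Subgroup H} {W : Submodule k V} (hW : ∀ g ∈ C, ∀ v ∈ W, ρ g v ∈ W) {τ d : H}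
    (hτ : τ ∈ C) (hd : d ∈ C) (h3 : τ * τ * τ = 1) (hq : ∀ v ∈ W, v + ρ τ v + ρ τ (ρ τ v) = 0)
    (hc : Commute d (τ * d * τ⁻¹)) (hs : Commute (d * d) τ) {v : V} (hv : v ∈ W) :
    ρ (d * (τ * d * τ⁻¹)⁻¹) v = v := by
  have key : ∀ g ∈ C, v + ρ (g * τ * g⁻¹) v + ρ (g * τ * g⁻¹ * (g * τ * g⁻¹)) v = 0 := fun g hg => by
    have := congrArg (ρ g) (hq _ (hW _ (inv_mem hg) v hv))
    simp only [map_add, ← rho_mul, map_zero, mul_inv_cancel, map_one, End.one_apply] at this
    convert this using 3 <;> group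
  have e0 : d * (τ * d * τ⁻¹)⁻¹ * (d * (τ * d * τ⁻¹)⁻¹) = 1 := by
    rw [hc.inv_right.symm.mul_mul_mul_comm, ← mul_inv_rev, conj_mul, ← hs.eq]; simp
  have k1 := key d hd
  have k2 := key _ (mul_mem hτ hd)
  have k3 := key _ (mul_mem hτ (mul_mem hτ hd))
  have e1 : d * τ * d⁻¹ = d * (τ * d * τ⁻¹)⁻¹ * τ := by group
  have e2 : d * (τ * d * τ⁻¹)⁻¹ * τ * (d * (τ * d * τ⁻¹)⁻¹ * τ) * (d * (τ * d * τ⁻¹)⁻¹ * τ) = 1 := by
    rw [← e1, conj_mul, conj_mul, h3]; simp
  rw [show τ * d * τ * (τ * d)⁻¹ = τ * (d * τ * d⁻¹) * τ⁻¹ by group] at k2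
  rw [show τ * (τ * d) * τ * (τ * (τ * d))⁻¹ = τ * (τ * (d * τ * d⁻¹) * τ⁻¹) * τ⁻¹ by group] at k3
  rw [e1] at k1 k2 k3
  generalize d * (τ * d * τ⁻¹)⁻¹ = p at *
  obtain ⟨q, hq'⟩ : ∃ q, τ * p = q * τ := ⟨τ * p * τ⁻¹, by group⟩
  obtain ⟨r, hr⟩ : ∃ r, τ * q = r * τ := ⟨τ * q * τ⁻¹, by group⟩
  have hp : τ * r = p * τ := by
    rw [← mul_left_inj (τ * τ), mul_assoc p, ← mul_assoc τ τ τ, h3, mul_one, mul_assoc, ← mul_assoc r, ← hr, mul_assoc,
      ← hq', ← mul_assoc, ← mul_assoc, h3, one_mul]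
  have f : ∀ {a b}, τ * a = b * τ → b = τ * a * τ⁻¹ := fun h => by rw [h]; group
  have q2 : q * q = 1 := by rw [f hq', conj_mul, e0]; simp
  have r2 : r * r = 1 := by rw [f hr, conj_mul, q2]; simp
  have e3 : p * q * r = 1 := by
    rw [← e2, ← mul_one (p * q * r), ← h3]
    calc _ = p * q * (r * τ) * τ * τ := by group
      _ = p * (q * τ) * (q * τ) * τ := by rw [← hr]; group
      _ = _ := by rw [← hq']; group
  have pq : p * q = r := by rw [← mul_left_inj r, e3, r2]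
  have qr : q * r = p := by rw [← mul_right_inj p, ← mul_assoc, e3, e0]
  have pr : p * r = q := by rw [← pq, ← mul_assoc, e0, one_mul]
  have rp : r * p = q := by
    rw [← mul_right_inj r, ← mul_assoc, r2, one_mul, ← mul_left_inj q, pq, mul_assoc, q2, mul_one]
  have g : ∀ {a b c}, τ * a = b * τ → a * b = c → ρ (a * τ * (a * τ)) v = ρ c (ρ τ (ρ τ v)) := fun h1 h2 => by
    rw [← rho_mul, ← rho_mul, ← h2, f h1]; congr 2; group
  rw [show τ * (p * τ) * τ⁻¹ = q * τ by rw [← hq']; group] at k2 k3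
  rw [show τ * (q * τ) * τ⁻¹ = r * τ by rw [← hr]; group] at k3
  rw [g hq' pq, rho_mul] at k1
  rw [g hr qr, rho_mul] at k2
  rw [g hp rp, rho_mul] at k3
  have k0 := fun a => congrArg (ρ a) (hq v hv)
  simp only [map_add, map_zero] at k0
  have k4 : ρ p v + ρ q v + ρ r v = v + v + v := by
    linear_combination (norm := module) k0 p + k0 q + k0 r - k1 - k2 - k3
  have k5 := congrArg (ρ p) k4
  simp only [map_add, ← rho_mul, e0, pq, pr, map_one, End.one_apply] at k5
  exact smul_right_injective V (mul_ne_zero h2 h2) (by linear_combination (norm := module) k4 - k5)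

end Cfsg.Agent.Lib.AltSec
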