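import Cfsg.Agent.Lib.AltSec.Cov12

/-! No module with the weights `3·0 + (±1,0,0,0) + (±1,±1,±1,±1)` over a cover of `A₁₂`. -/

set_option autoImplicit false
set_option linter.style.haveILetI false
set_option linter.unusedSectionVars false
set_option maxRecDepth 100000
set_option maxHeartbeats 1000000

namespace Cfsg.Agent.Lib.AltSec

open Equiv Module Subgroup Cfsg.Agent.Lib.Forms Cfsg.Agent.Lib.Core Matrix
open scoped commutatorElement

universe u
variable {k V : Type} [Field k] [IsAlgClosed k] [AddCommGroup V] [Module k V] [FiniteDimensional k V]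
  {H : Type u} [Group H] {π : H →* Perm (Fin 4 × Z3)} {x : Perm (Fin 4 × Z3) → H} {ρ : H →* End k V} {ω : k}

theorem blk12 (hω : IsPrimitiveRoot ω 3) (hx : Fus π S4 x) (hm : ∀ l, finrank k (Wt ρ ω (fun a => x (cc a)) l) ≤ mx l)
    {Λ : Type*} [MulAction H Λ] {J : Λ → Submodule k V} (hJ : iSupIndep J)
    (h1 : ∀ (g : H) χ, ∀ v ∈ J χ, ρ g v ∈ J (g • χ)) {χ : Λ} {v : V} (hv : v ∈ J χ) (hv' : v ≠ 0)
    (h2 : x (cc ![1, 0, 0, 0]) • χ ≠ χ) : False := by
  classical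
  have add := hx.add cc4_mem
  have sq' := hx.sq cc4_mem
  generalize hX : (fun a => x (cc a)) = X at hm
  simp only [show ∀ a, x (cc a) = X a from congrFun hX] at add sq' h2
  have neg : ∀ a, X (-a) = (X a)⁻¹ := fun a => eq_inv_of_mul_eq_one_left (by rw [← add, neg_add_cancel, xx_zero add])
  obtain ⟨δ, d1, d2⟩ : ∃ δ : Fin 4 → Z3, δ ≠ 0 ∧ ∀ a, X a • χ = χ → a ⬝ᵥ δ = 0 := by
    haveI := Fact.mk Nat.prime_three
    let S : AddSubgroup (Fin 4 → Z3) :=
      { carrier := {a | X a • χ = χ}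
        zero_mem' := by simp [xx_zero add]
        add_mem' := fun {a b} ha hb => by rw [Set.mem_ofPred, add, mul_smul, hb, ha]
        neg_mem' := fun {a} ha => by rw [Set.mem_ofPred, neg, inv_smul_eq_iff, ha] }
    obtain ⟨f, f1, f2⟩ := (AddSubgroup.toZModSubmodule 3 S).exists_le_ker_of_lt_top
      (lt_top_iff_ne_top.2 fun e => h2 (e.ge (Submodule.mem_top (x := ![1, 0, 0, 0]))))
    have f3 : ∀ a, f a = a ⬝ᵥ fun i => f (Pi.single i 1) := fun a => by
      rw [LinearMap.pi_apply_eq_sum_univ]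
      exact Finset.sum_congr rfl fun i _ => congrArg (a i * f ·) (funext fun j => by simp [Pi.single_apply, eq_comm])
    exact ⟨_, fun e => f1 (LinearMap.ext fun a => by rw [f3, e]; simp), fun a ha => (f3 a).symm.trans (f2 ha)⟩
  have L1 : ∀ ψ δ, (∀ a, X a • ψ = ψ → a ⬝ᵥ δ = 0) → ∀ v ∈ J ψ, ∀ l, Pj ρ ω X l v ≠ 0 →
      Pj ρ ω X (l + δ) v ≠ 0 := fun ψ δ d v hv l h3 h4 => h3 (by
    have h5 : ∀ l, ∑ φ ∈ Finset.univ.image fun a => X a • ψ, ∑ a with X a • ψ = φ, ee ω (-(a ⬝ᵥ l)) • ρ (X a) v =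
        Pj ρ ω X l v := fun l => (Finset.sum_fiberwise_of_maps_to (fun a ha => Finset.mem_image_of_mem _ ha) _).trans
      (Pj_apply l v).symm
    rw [← h5] at h4 ⊢
    refine Finset.sum_eq_zero fun φ hφ => ?_
    have h6 := (iSupIndep_iff_finsetSum_eq_zero_imp_eq_zero _).1 hJ _
      (fun φ => ∑ a with X a • ψ = φ, ee ω (-(a ⬝ᵥ (l + δ))) • ρ (X a) v) (fun φ _ =>
      Submodule.sum_mem _ fun a ha => Submodule.smul_mem _ _ ((Finset.mem_filter.1 ha).2 ▸ h1 _ _ v hv)) h4 φ hφ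
    obtain ⟨b, -, rfl⟩ := Finset.mem_image.1 hφ
    rw [← smul_zero (ee ω (b ⬝ᵥ δ)), ← h6, Finset.smul_sum]
    refine Finset.sum_congr rfl fun a ha => ?_
    have h7 := d (-b + a) (by rw [add, neg, mul_smul, (Finset.mem_filter.1 ha).2, inv_smul_smul])
    rw [smul_smul, ← ee_add hω, dotProduct_add]
    rw [add_dotProduct, neg_dotProduct] at h7
    exact congrArg (fun t => ee ω t • ρ (X a) v) (by linear_combination h7))
  have L2 : ∀ l v, Pj ρ ω X l v ≠ 0 → mx l ≠ 0 := fun l v h3 e =>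
    h3 ((Submodule.finrank_eq_zero.1 (Nat.le_zero.1 (e ▸ hm l))).le (Pj_mem hω add l v))
  have L3 : ∀ μ, Pj ρ ω X μ v ≠ 0 → ∀ n (τ : Fin n → Perm (Fin 4)) ε, ¬ Fam μ δ τ ε := fun μ h3 n τ ε ⟨f1, f2, f3, f4⟩ => by
    choose g _ g1 _ using fun j => sq' _ _ (f4 j)
    have g2 : ∀ j a, X a • g j • χ = g j • χ → a ⬝ᵥ sg (τ j) (ε j) δ = 0 := fun j a e => by
      obtain ⟨a, rfl⟩ := (sg_bij (τ j) (ε j)).2 a
      rw [← g1, ← mul_smul, inv_mul_cancel_right, mul_smul, smul_left_cancel_iff] at e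
      rw [sg_dot, d2 a e]
    have g3 : ∀ j, Pj ρ ω X μ (ρ (g j) v) ≠ 0 := fun j => by
      rw [← Pj_conj (sg_bij _ _) (g1 j) (l := μ) fun a => by nth_rw 1 [← f2 j]; exact sg_dot _ _ a μ]
      exact mt (rho_inj _) h3
    have g4 : ∀ j, sg (τ j) (ε j) δ ≠ 0 := fun j e => d1 ((sg_bij (τ j) (ε j)).1 (e.trans (funext fun _ => by simp [sg])))
    let O := fun j => Set.range fun a => X a • g j • χ
    have g5 : ∀ i j, i ≠ j → O i ⊆ (O j)ᶜ := by
      rintro i j hij _ ⟨a, rfl⟩ ⟨b, e⟩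
      have e1 := L1 _ _ (g2 j) _ (h1 _ _ v hv)
      have e2 := L1 _ _ (fun c e' => g2 i c (by
        rw [← smul_left_cancel_iff (X a), ← mul_smul, ← add, add_comm, add, mul_smul, ← show _ = X a • _ from e,
          ← mul_smul, ← add, add_comm, add, mul_smul, e'])) _ (h1 _ _ v hv)
      rcases lines1 μ (sg (τ j) (ε j) δ) with e | e | e | e | e
      · exact L2 _ _ (g3 j) e
      · exact L2 _ _ (e1 _ (g3 j)) e
      · exact L2 _ _ (e1 _ (e1 _ (g3 j))) e
      · exact g4 j e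
      rcases e (sg (τ i) (ε i) δ) with e | e | e | e | e | e | e | e
      exacts [g4 i e, ((f3 i j).resolve_left hij).1 e, ((f3 i j).resolve_left hij).2 e, L2 _ _ (e2 _ (g3 j)) e,
        L2 _ _ (e2 _ (e2 _ (g3 j))) e, L2 _ _ (e2 _ (e1 _ (g3 j))) e, L2 _ _ (e2 _ (e1 _ (e1 _ (g3 j)))) e,
        L2 _ _ (e1 _ (e2 _ (e2 _ (g3 j)))) e]
    have g6 : iSupIndep fun j => ⨆ φ ∈ O j, J φ := fun j =>
      (hJ.disjoint_biSup_biSup (disjoint_compl_right (a := O j))).mono_right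
        (iSup₂_le fun i hi => biSup_mono (g5 i j hi))
    have g7 := sum_le_finrank (U := Wt ρ ω X μ) (g6.mono (t := fun j => (⨆ φ ∈ O j, J φ) ⊓ Wt ρ ω X μ)
      fun j => inf_le_left) fun j => inf_le_right
    refine f1.not_ge (le_trans ?_ (g7.trans (hm μ)))
    refine le_of_eq_of_le (by simp) (Finset.card_nsmul_le_sum _ _ 1 fun j _ => Submodule.one_le_finrank_iff.2
      ((Submodule.ne_bot_iff _).2 ⟨_, ⟨?_, Pj_mem hω add μ _⟩, g3 j⟩))
    rw [Pj_apply]
    exact Submodule.sum_mem _ fun a _ => Submodule.smul_mem _ _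
      (Submodule.mem_iSup_of_mem _ (Submodule.mem_iSup_of_mem ⟨a, rfl⟩ (h1 _ _ _ (h1 _ _ v hv))))
  obtain ⟨l, hl⟩ := not_forall.1 (mt (eq_zero_of_Pj (ρ := ρ) hω add) hv')
  have e1 := L1 _ _ d2 v hv
  rcases lines2 l δ with e | e | e | e | ⟨μ, e, e'⟩
  · exact L2 _ _ hl e
  · exact L2 _ _ (e1 _ hl) e
  · exact L2 _ _ (e1 _ (e1 _ hl)) e
  · exact d1 e
  have : Pj ρ ω X μ v ≠ 0 := by
    simp only [List.mem_cons, List.not_mem_nil, or_false] at e
    rcases e with rfl | rfl | rfl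
    exacts [hl, e1 _ hl, e1 _ (e1 _ hl)]
  rcases e' with e' | e' | ⟨_, _, e'⟩ <;> exact L3 μ this _ _ _ e'

theorem ab12 (hω : IsPrimitiveRoot ω 3) [Nontrivial V] (h : Min π) (hx : Fus π S4 x) (inj : Function.Injective ρ)
    (irr : ∀ U : Submodule k V, (∀ h, ∀ v ∈ U, ρ h v ∈ U) → U = ⊥ ∨ U = ⊤)
    (hm : ∀ l, finrank k (Wt ρ ω (fun a => x (cc a)) l) ≤ mx l) (E : Subgroup H) [E.Normal] (hE : ¬ E ≤ center H)
    (hc : ∀ x y : E, Commute x y) : False := by
  have p0 := hx.pi _ (cc4_mem ![1, 0, 0, 0])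
  letI : MulAction H E := MulAction.compHom E (MulAut.conjNormal (H := E))
  letI : MulAction H (E → k) := arrowAction
  have h1 : ∀ (g : H) χ, ∀ v ∈ JE (fun x : E => ρ x) χ, ρ g v ∈ JE (fun x : E => ρ x) (g • χ) := fun g χ v hv =>
    mem_JE.mpr fun x => by
      rw [← map_smul, show (g • χ) x = χ (MulAut.conjNormal g⁻¹ x) from rfl, ← mem_JE.mp hv, ← rho_mul, ← rho_mul]
      simp [mul_assoc]
  obtain ⟨χ, v, hv, hv', h2⟩ : ∃ χ, ∃ v ∈ JE (fun x : E => ρ x) χ, v ≠ 0 ∧ x (cc ![1, 0, 0, 0]) • χ ≠ χ := by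
    obtain ⟨χ, hχ⟩ := exists_JE_ne_bot (f := fun x : E => ρ x) fun x y => (hc x y).map (ρ.comp E.subtype)
    obtain ⟨v, hv, hv'⟩ := (Submodule.ne_bot_iff _).mp hχ
    by_contra! h3
    rcases h.normal' (MulAction.toPermHom H (MulAction.orbit H χ)).ker with h4 | h4
    · refine absurd (p0.symm.trans (h4 _ (Equiv.ext ?_))) (by decide +kernel)
      rintro ⟨_, g, rfl⟩
      exact Subtype.ext (h3 _ _ (h1 g χ v hv) (mt (rho_inj g) hv'))
    · have h5 := (irr _ fun g v hv => by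
        have := h1 g χ v hv
        have h6 := congrArg Subtype.val (DFunLike.congr_fun (MonoidHom.mem_ker.mp (h4.ge (mem_top g)))
          ⟨χ, MulAction.mem_orbit_self χ⟩)
        rwa [show g • χ = χ from h6] at this).resolve_left hχ
      refine hE fun x hx => mem_center_iff.mpr fun g => inj (LinearMap.ext fun v => ?_)
      have h6 := fun v => mem_JE.mp (h5.ge (Submodule.mem_top (x := v))) ⟨x, hx⟩
      rw [rho_mul, rho_mul, h6, h6, map_smul]
  exact blk12 hω hx hm (iSupIndep_JE _) h1 hv hv' h2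

theorem no12 (h2 : (2 : k) ≠ 0) (hω : IsPrimitiveRoot ω 3) [Finite H] (h : Min π) (hx : Fus π S4 x)
    (hm : ∀ l, finrank k (Wt ρ ω (fun a => x (cc a)) l) ≤ mx l) {v : V} (hv : v ∈ Wt ρ ω (fun a => x (cc a)) 1)
    (hv' : v ≠ 0) : False := by
  induction hn : finrank k V using Nat.strong_induction_on generalizing V with | _ n IH => ?_
  subst hn
  have add := hx.add cc4_mem
  by_cases irr : ∀ U : Submodule k V, (∀ h, ∀ v ∈ U, ρ h v ∈ U) → U = ⊥ ∨ U = ⊤
  swap
  · push Not at irr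
    obtain ⟨U, hU, h1, h3⟩ := irr
    by_cases h4 : v ∈ U
    · exact IH _ (Submodule.finrank_lt h3) (ρ := Representation.subrepresentation ρ U hU) (fun l => le_trans
        (LinearMap.finrank_le_finrank_of_injective (f := U.subtype.restrict fun w hw => mem_Wt.2 fun a =>
          congrArg Subtype.val (mem_Wt.1 hw a)) fun a b e => by
            have := congrArg Subtype.val e
            exact Subtype.ext (Subtype.ext this))
          (hm l))
        (v := ⟨v, h4⟩) (mem_Wt.2 fun a => Subtype.ext (mem_Wt.1 hv a)) (fun e => hv' (congrArg Subtype.val e)) rfl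
    have h5 := U.finrank_quotient_add_finrank
    have h6 := Submodule.one_le_finrank_iff.mpr h1
    have h7 : ∀ l, ∀ w ∈ Wt ρ ω (fun a => x (cc a)) l, U.mkQ w ∈ Wt (Representation.quotient ρ U hU) ω (fun a => x (cc a)) l :=
      fun l w hw => mem_Wt.2 fun a => congrArg U.mkQ (mem_Wt.1 hw a)
    refine IH _ (by omega) (ρ := Representation.quotient ρ U hU) (fun l => le_trans
      (LinearMap.finrank_le_finrank_of_surjective (f := U.mkQ.restrict (h7 l)) ?_) (hm l)) (h7 _ v hv)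
      (mt (Submodule.Quotient.mk_eq_zero U).1 h4) rfl
    rintro ⟨w, hw⟩
    obtain ⟨w, rfl⟩ := U.mkQ_surjective w
    refine ⟨⟨_, Submodule.smul_mem _ ((Fintype.card (Fin 4 → Z3) : ℕ) : k)⁻¹ (Pj_mem hω add l w)⟩, Subtype.ext ?_⟩
    have := Pj_self hω hw
    rw [LinearMap.coe_restrict_apply, map_smul, inv_smul_eq_iff₀ (card_ne hω), ← this, Pj_apply, Pj_apply, map_sum]
    rfl
  haveI : Nontrivial V := ⟨⟨v, 0, hv'⟩⟩
  have h1 : ρ.ker ≤ π.ker := (h.normal' ρ.ker).resolve_right fun e => hv' (eq_zero_of_ee hω (s := 0) (t := 1) (by decide)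
    (by simpa [MonoidHom.mem_ker.1 (e.ge (mem_top _))] using mem_Wt.1 hv (Pi.single 0 1)))
  have h3 : Min (QuotientGroup.lift _ π h1) := ⟨⟨fun σ hσ => (h.surj σ hσ).elim fun x hx => ⟨x, hx⟩,
    fun x => QuotientGroup.induction_on x h.even, h.card⟩, fun S hS => by
      have := h.min (S.comap (QuotientGroup.mk' _)) fun σ hσ => by
        obtain ⟨y, h3, h4⟩ := hS σ hσ
        induction y using QuotientGroup.induction_on with | _ y => exact ⟨y, h3, h4⟩
      exact eq_top_iff.2 fun y _ => QuotientGroup.induction_on y fun y => this.ge (mem_top y)⟩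
  have h4 := hx.map (QuotientGroup.mk' ρ.ker) (π' := QuotientGroup.lift _ π h1) fun _ => rfl
  have inj : Function.Injective (QuotientGroup.lift ρ.ker ρ le_rfl) :=
    (injective_iff_map_eq_one _).2 fun y => QuotientGroup.induction_on y fun y e => (QuotientGroup.eq_one_iff y).2 e
  have irr' : ∀ U : Submodule k V, (∀ h, ∀ v ∈ U, QuotientGroup.lift ρ.ker ρ le_rfl h v ∈ U) → U = ⊥ ∨ U = ⊤ :=
    fun U hU => irr U fun g => hU g
  by_cases hK : (QuotientGroup.lift _ π h1).ker ≤ center _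
  · exact cov12 h2 hω ⟨h3.surj, h3.even, fun z hz g => (mem_center_iff.mp (hK hz) g).symm, h3.card⟩ h4 inj irr' hm hv hv'
  have h5 : finrank k V ≤ 27 := (total hω add).trans_le ((Finset.sum_le_sum fun l _ => hm l).trans (by decide +kernel))
  obtain ⟨E, _, h6, h7⟩ := h3.noncen inj irr' ((Nat.mul_le_mul h5 h5).trans_lt (by decide)) hK
  exact ab12 hω h3 h4 inj irr' hm E h6 h7

end Cfsg.Agent.Lib.AltSec
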