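import Cfsg.Agent.Lib.AltSec.No15

/-! No section `A₁₄` in type E₇ away from characteristic 7. -/

set_option autoImplicit false
set_option linter.style.haveILetI false
set_option linter.unusedSectionVars false
set_option maxRecDepth 100000

namespace Cfsg.Agent.Lib.AltSec
open Matrix Cfsg.Lie Cfsg.Agent.Lib.Chev Cfsg.Agent.Lib.Core Cfsg.Agent.Lib.Forms Equiv Module Finset
open scoped MatrixGroups

abbrev Z77 := ZMod 7 × ZMod 7

def m1 (c : Z77) : Z77 := (2 * c.1, c.2)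
def m3 (c : Z77) : Z77 := (3 * c.2, c.1)
def cls (c : Z77) : Fin 3 := if c = 0 then 0 else if c.1 = 0 ∨ c.2 = 0 then 1 else 2
def rp : Fin 3 → Z77 := ![0, (1, 0), (1, 1)]

theorem orb7 : ∀ c, ∃ i : Fin 3, ∃ j : Fin 12, c = m1^[i] (m3^[j] (rp (cls c))) := by decide +kernel
theorem m_inj : Function.Injective m1 ∧ Function.Injective m3 := by unfold Function.Injective; decide +kernel
theorem cls_card : (∀ k, #{c | cls c = k} = ![1, 12, 36] k) ∧ (∀ k, #{c ∈ {c : Z77 | c.1 = 0} | cls c = k} = ![1, 6, 0] k) ∧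
    (∀ k, #{c ∈ {c : Z77 | c.1 = 1} | cls c = k} = ![0, 1, 6] k) ∧
    ∀ k, #{c ∈ {c : Z77 | c.1 + c.2 = 0} | cls c = k} = ![1, 0, 6] k := by decide +kernel

theorem it_inv {α β : Type*} {G : α → β} {f : α → α} (h : ∀ c, G (f c) = G c) (n : ℕ) (c : α) : G (f^[n] c) = G c :=
  congrFun (Function.iterate_invariant (funext h) n) c

theorem cz_dl {N n : ℕ} (u : Fin N → Fin n → ℤ) (m : ℕ) (l : Fin n → ℤ) (t : ZMod m) :
    cz u m l t = #{a | dl m l (u a) = t} := rfl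

theorem sum_cls {G : Z77 → ℕ} (h1 : ∀ c, G (m1 c) = G c) (h3 : ∀ c, G (m3 c) = G c) {S : Finset Z77} {n : Fin 3 → ℕ}
    (hn : ∀ k, #{c ∈ S | cls c = k} = n k) : ∑ c ∈ S, G c = n 0 * G 0 + n 1 * G (1, 0) + n 2 * G (1, 1) := by
  have e : ∀ c, G c = G (rp (cls c)) := fun c => by
    obtain ⟨i, j, e⟩ := orb7 c
    exact (congrArg G e).trans ((it_inv h1 _ _).trans (it_inv h3 _ _))
  rw [← sum_fiberwise S cls, sum_congr rfl fun k _ => sum_const_nat (m := G (rp k)) fun c hc => by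
    rw [e, (mem_filter.1 hc).2], Fin.sum_univ_three, hn, hn, hn]
  rfl

theorem no7c {Φ : Type} [Fintype Φ] [DecidableEq Φ] {n : ℕ} {R : RS Φ n}
    (hp : ∀ β, #{γ | ∃ δ, R.ρ δ = R.ρ β + R.ρ γ} = 32) {f g : (Fin n → ℤ) →+ ZMod 7} {u1 u3 : List (Fin n)}
    (h1 : ∀ v, (2 • f) v = f (R.LW u1 v)) (h1' : ∀ v, g v = g (R.LW u1 v))
    (h3 : ∀ v, (3 • g) v = f (R.LW u3 v)) (h3' : ∀ v, f v = g (R.LW u3 v))
    (t1 : (#{r | f (R.ρ r) = 0}, #{r | f (R.ρ r) = 1}) ∈ [(30, 16), (12, 19), (24, 17)]) {x : ℕ}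
    (t2 : (#{r | (f + g) (R.ρ r) = 0}, x) ∈ [(30, 16), (12, 19), (24, 17)]) : False := by
  let F := f.prod g
  replace h1 : ∀ v, F (R.LW u1 v) = m1 (F v) := fun v => Prod.ext ((h1 v).symm.trans (nsmul_eq_mul _ _)) (h1' v).symm
  replace h3 : ∀ v, F (R.LW u3 v) = m3 (F v) := fun v => Prod.ext ((h3 v).symm.trans (nsmul_eq_mul _ _)) (h3' v).symm
  change (#{r | (F (R.ρ r)).1 = 0}, #{r | (F (R.ρ r)).1 = 1}) ∈ _ at t1
  change (#{r | (F (R.ρ r)).1 + (F (R.ρ r)).2 = 0}, x) ∈ _ at t2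
  clear_value F
  let N : Z77 → ℕ := fun c => #{r | F (R.ρ r) = c}
  let S : Finset (Φ × Φ) := {p | F (R.ρ p.1) = 0 ∧ ∃ δ, R.ρ δ = R.ρ p.1 + R.ρ p.2}
  let T : Z77 → ℕ := fun c => #{p ∈ S | F (R.ρ p.2) = c}
  have inv : ∀ (u : List (Fin n)) (M : Z77 → Z77), Function.Injective M → M 0 = 0 → (∀ v, F (R.LW u v) = M (F v)) →
      (∀ c, N (M c) = N c) ∧ ∀ c, T (M c) = T c := fun u M hM h0 h => by
    let σ : Perm Φ := ⟨R.inv u, R.inv u.reverse, R.inv_reverse_inv u, R.inv_inv_reverse u⟩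
    have e : ∀ r c, F (R.ρ (σ r)) = M c ↔ F (R.ρ r) = c := fun r c => by
      rw [show R.ρ (σ r) = _ from R.ρ_inv u r, h, hM.eq_iff]
    refine ⟨fun c => (card_equiv σ fun r => by simp [e]).symm, fun c => (card_equiv (σ.prodCongr σ) fun p => ?_).symm⟩
    simp only [S, mem_filter, mem_univ, true_and, prodCongr_apply, Prod.map_fst, Prod.map_snd, e,
      par_iff (σ := σ) (u := u) rfl]
    rw [← e p.1 0, h0]
  obtain ⟨n1, s1⟩ := inv u1 m1 m_inj.1 (by decide) h1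
  obtain ⟨n3, s3⟩ := inv u3 m3 m_inj.2 (by decide) h3
  have cN : ∀ (P : Z77 → Prop) [DecidablePred P], #{r | P (F (R.ρ r))} = ∑ c with P c, N c := fun P _ => by
    rw [sum_card_fiberwise_eq_card_filter]; simp
  rw [cN (·.1 = 0), cN (·.1 = 1), sum_cls n1 n3 cls_card.2.1, sum_cls n1 n3 cls_card.2.2.1] at t1
  rw [cN fun c => c.1 + c.2 = 0, sum_cls n1 n3 cls_card.2.2.2] at t2
  have e1 : ∑ c, T c = N 0 * 32 := by
    rw [← card_eq_sum_card_fiberwise fun _ _ => mem_univ _, card_filter, Fintype.sum_prod_type,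
      ← sum_const_nat fun β _ => hp β, sum_filter]
    refine sum_congr rfl fun β _ => ?_
    by_cases h : F (R.ρ β) = 0
    · simp only [h, true_and, if_true, card_filter]
    · simp only [h, false_and, if_false, sum_const_zero]
  rw [sum_cls s1 s3 cls_card.1] at e1
  have e2 : T 0 ≤ N 0 * N 0 := by
    rw [← card_product]
    exact card_le_card fun p hp => by simp only [S, mem_filter, mem_product, mem_univ, true_and] at hp ⊢; exact ⟨hp.1.1, hp.2⟩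
  have e3 : ∀ c p, p ∈ {p ∈ S | F (R.ρ p.2) = c} → ∃ δ, R.ρ δ = R.ρ p.1 + R.ρ p.2 ∧
      (R.neg p.1, δ) ∈ {p ∈ S | F (R.ρ p.2) = c} := fun c p hp => by
    simp only [S, mem_filter, mem_univ, true_and] at hp ⊢
    obtain ⟨⟨h4, δ, h5⟩, h6⟩ := hp
    exact ⟨δ, h5, ⟨by rw [R.ρ_neg, map_neg, h4, neg_zero], p.2, by rw [R.ρ_neg, h5, neg_add_cancel_left]⟩,
      by rw [h5, map_add, h4, zero_add, h6]⟩
  choose δ e3 e4 using e3
  have e5 : ∀ c p hp, δ c p hp ≠ p.2 := fun c p hp e => R.ne_zero p.1 (by simpa [e] using e3 c p hp)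
  have e6 : 2 ∣ T (1, 1) := by
    rw [← ZMod.natCast_eq_zero_iff, show T (1, 1) = _ from card_eq_sum_ones _, Nat.cast_sum]
    refine sum_involution (fun p hp => (R.neg p.1, δ _ p hp)) (fun _ _ => rfl)
      (fun p hp _ e => e5 _ p hp (congrArg Prod.snd e)) (e4 _) fun p hp => Prod.ext (R.neg_neg' _) (R.inj ?_)
    rw [e3, R.ρ_neg, e3, neg_add_cancel_left]
  have e7 : N (1, 0) ≤ 1 → T (1, 0) = 0 := fun h => card_eq_zero.2 (eq_empty_of_forall_notMem fun p hp =>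
    e5 _ p hp (card_le_one.1 h _ (by simpa using (mem_filter.1 (e4 _ p hp)).2) _ (by simpa using (mem_filter.1 hp).2)))
  simp only [List.mem_cons, Prod.mk.injEq, List.not_mem_nil, or_false, cons_val_zero, cons_val_one,
    Matrix.cons_val] at t1 t2 e1
  have e8 : N 0 = 6 ∧ N (1, 0) = 1 := by omega
  rw [e8.1] at e1 e2
  omega

/-- the unit `3` modulo `7` -/
def v3 : (ZMod 7)ˣ := ⟨3, 5, by decide, by decide⟩

theorem pow_v3 : ∀ t : ZMod 7, t = 0 ∨ ∃ i : Fin 6, t = (HMul.hMul (v3 : ZMod 7))^[i] 1 := by decide +kernel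

theorem tab7 {lam : Fin chevE7.rank → ℤ} (h1 : ∀ t, cz e7Cert.R.ρ 7 lam t = cz e7Cert.R.ρ 7 lam (v3 * t))
    (h2 : cz e7Cert.R.ρ 7 lam 0 ≠ 126) : (cz e7Cert.R.ρ 7 lam 0, cz e7Cert.R.ρ 7 lam 1) ∈ [(30, 16), (12, 19), (24, 17)] ∧
      ∀ t, ¬ 7 ∣ cz e7Cert.R.ρ 7 lam t := by
  obtain ⟨L, h3, h4⟩ := alc dat7.kil dat7.pos alc7_7 lam
  replace h4 := h4 (stab_root _) fun _ _ => rfl
  simp only [Bool.or_eq_true, Nat.beq_eq, Bool.not_eq_true', ← Bool.not_eq_true, nall_iff, decide_eq_true_eq] at h3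
  have h5 : (cz e7Cert.R.ρ 7 lam 0, cz e7Cert.R.ρ 7 lam 1) ∈ [(126, 0), (30, 16), (12, 19), (24, 17)] := by
    rw [h4, h4]
    refine h3.resolve_left fun h3 => h3 fun t ht => ?_
    have := h1 (t : ZMod 7)
    rwa [h4, h4, ZMod.val_mul, ZMod.val_cast_of_lt ht] at this
  replace h5 := (List.mem_cons.1 h5).resolve_left fun e => h2 (congrArg Prod.fst e)
  refine ⟨h5, fun t => ?_⟩
  simp only [List.mem_cons, Prod.mk.injEq, List.not_mem_nil, or_false] at h5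
  obtain rfl | ⟨i, rfl⟩ := pow_v3 t
  · omega
  · rw [it_inv (G := cz _ 7 lam) (fun t => (h1 t).symm)]
    omega

def a7 (i : Fin 2) : Multiplicative (Fin 2 → ZMod 7) := .ofAdd (Pi.single i 1)
def c7 (i : Fin 2) : Perm (Fin 2 × ZMod 7) := cv 2 7 (a7 i)

theorem S7_syl : IsSyl 7 (Subgroup.closure (Set.range c7 ∪ Set.range (Empty.elim : _ → Perm (Fin 2 × ZMod 7))))
    (alternatingGroup _) := by
  haveI := Fact.mk Nat.prime_seven
  have hp := isPGroup_closure₂ (l := 7) (c := c7) (y := Empty.elim) (by decide +kernel) (by decide +kernel)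
    (fun i => i.elim) (fun i => i.elim) (fun _ i => i.elim)
  exact isSyl_of_le hp (le_alt (by decide) hp) (k := 2) (pow_le_card hp c7
    (fun i => Subgroup.subset_closure (Or.inl ⟨i, rfl⟩)) (fun i p => p = (i, 0))
    (by decide +kernel +revert) (by decide +kernel +revert)) (by decide +kernel)

theorem c7_c7 : ∀ i i', c7 i * c7 i' = c7 i' * c7 i ∧ (i = i' ∨ Perm.sign (mo 1 v3 (Pi.single i 2)) = 1 ∧
    mo 1 v3 (Pi.single i 2) * c7 i * (mo 1 v3 (Pi.single i 2))⁻¹ = c7 i ^ (1 + 1) ∧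
    mo 1 v3 (Pi.single i 2) * c7 i' * (mo 1 v3 (Pi.single i 2))⁻¹ = c7 i') := by decide +kernel
theorem c7_inv : Perm.sign (mo (k := 2) 1 v3 fun _ => 3) = 1 ∧
    ∀ i, (mo 1 v3 fun _ => 3) * c7 i * (mo 1 v3 fun _ => 3)⁻¹ = (c7 i)⁻¹ := by decide +kernel
theorem sign7 : Perm.sign (mo (k := 2) 1 v3 fun _ => 1) = 1 ∧ Perm.sign (mo 1 v3 ![2, 0]) = 1 ∧
    Perm.sign (mo (swap 0 1) v3 ![1, 0]) = 1 := by decide +kernel
theorem a7_m : (∀ i, (a7 0 ^ 2).toAdd ((1 : Perm (Fin 2)) i) = (v3 : ZMod 7) ^ ![2, 0] i * (a7 0).toAdd i) ∧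
    (∀ i, (a7 1).toAdd ((1 : Perm (Fin 2)) i) = (v3 : ZMod 7) ^ ![2, 0] i * (a7 1).toAdd i) ∧
    (∀ i, (a7 1 ^ 3).toAdd (swap 0 1 i) = (v3 : ZMod 7) ^ ![1, 0] i * (a7 0).toAdd i) ∧
    (∀ i, (a7 0).toAdd (swap 0 1 i) = (v3 : ZMod 7) ^ ![1, 0] i * (a7 1).toAdd i) ∧ a7 0 ≠ 1 ∧ a7 0 * a7 1 ≠ 1 := by
  decide +kernel

theorem e7_14 {E : Type*} [Field E] [Finite E] {H : Type*} [Group H] [Finite H] {ι : H →* GL chevE7.Idx E} {ζ : Eˣ}
    (he : Emb chevE7 ι) (hζ : IsPrimitiveRoot ζ (7 ^ (2 + 1 + 1))) {π : H →* Perm (Fin 2 × ZMod 7)} (h : Min π) :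
    False := by
  haveI := Fact.mk Nat.prime_three
  haveI := Fact.mk Nat.prime_seven
  have hp : Par chevE7 18 7 2 1 := ⟨by decide, by decide, by decide⟩
  have hB : ¬ 7 ^ (1 + 1) ∣ Nat.card (GL (Fin chevE7.rank) (ZMod 3)) := by rw [card_GL]; exact gl7_3.2
  obtain ⟨X, h1, h2⟩ := exists_X (by decide) h.toAS fun κ => h.ker_triv (by decide) (fun κ => h.central (by decide)
    fun D hD => (he.card_le dat7 hp hζ (fun r s e => Or.inl (inj7_3 r s e)) (fun Q hQ => card_le_of_exp hQ hB)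
      D hD).trans_lt (by simp; decide)) S7_syl (j := 1) (by decide)
      (fun i i' => (c7_c7 i i').imp_right (Or.imp_right fun h => ⟨_, h⟩)) (fun i => i.elim) (fun _ i => i.elim)
      c7_inv.1 c7_inv.2 fun i => i.elim
  obtain ⟨w, lam, h3⟩ := he.cells dat7 hp hζ inj7_3 hB h1 cv_exp
  obtain ⟨g, hg⟩ := h2 _ _ _ sign7.1
  have tb := fun a ha ha' => tab7 (h3.rat (a := a) ha (j := v3) (hg a (a ^ 3) fun i => by
    rw [toAdd_pow, pow_one, Pi.smul_apply, nsmul_eq_mul]; rfl)) (h3.ne a ha ha')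
  by_cases h4 : ∀ a, a ∈ w.ker
  · obtain ⟨g1, hg1⟩ := h2 _ _ _ sign7.2.1
    obtain ⟨g3, hg3⟩ := h2 _ _ _ sign7.2.2
    obtain ⟨u1, hu1⟩ := h3.fus g1
    obtain ⟨u3, hu3⟩ := h3.fus g3
    have t1 := (tb _ (h4 _) a7_m.2.2.2.2.1).1
    have t2 := (tb _ (h4 _) a7_m.2.2.2.2.2).1
    rw [cz_dl, cz_dl] at t1
    rw [cz_dl, h3.mul _ (h4 _) _ (h4 _)] at t2
    exact no7c (R := e7Cert.R) (fun β => by convert par7 β)
      (h3.pow (h4 _) 2 ▸ hu1 _ (h4 _) _ (h4 _) (hg1 _ _ a7_m.1)) (hu1 _ (h4 _) _ (h4 _) (hg1 _ _ a7_m.2.1))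
      (h3.pow (h4 _) 3 ▸ hu3 _ (h4 _) _ (h4 _) (hg3 _ _ a7_m.2.2.1)) (hu3 _ (h4 _) _ (h4 _) (hg3 _ _ a7_m.2.2.2.1)) t1 t2
  · obtain ⟨z, hz⟩ := not_forall.1 h4
    obtain ⟨k, k1, k2, k3⟩ := h3.fix z hz
    replace k3 : #{r | w z r = r} ≤ 3 := k3.trans (by clear k3; revert k; decide)
    have h5 := h3.card
    simp only [Nat.card_eq_fintype_card (α := Multiplicative _), Fintype.card_multiplicative, Fintype.card_fun,
      ZMod.card, Fintype.card_fin] at h5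
    obtain ⟨a, ha, ha'⟩ := w.ker.bot_or_exists_ne_one.resolve_left fun e => by simp [e] at h5
    choose r h6 h7 using fun t => exists_fix (σ := w z) (by rw [← map_pow, cv_exp, map_one])
      (p := fun r => dl 7 (lam a) (e7Cert.R.ρ r) = t) (fun r => by rw [h3.inv z a ha]) ((tb a ha ha').2 t)
    have := (card_le_card_of_injOn (s := univ) r (fun t _ => by simp [h7])
      fun t _ t' _ e => by rw [← h6 t, e, h6]).trans k3
    simp at this

end Cfsg.Agent.Lib.AltSec
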