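import Cfsg.Agent.Lib.AltSec.Cell

/-! No section `A₁₅` in type E₇ away from characteristic 5. -/

set_option autoImplicit false
set_option linter.style.haveILetI false
set_option linter.unusedSectionVars false
set_option maxRecDepth 100000

namespace Cfsg.Agent.Lib.AltSec
open Matrix Cfsg.Lie Cfsg.Agent.Lib.Chev Cfsg.Agent.Lib.Core Cfsg.Agent.Lib.Forms Equiv Module Finset
open scoped MatrixGroups

theorem par_iff {Φ : Type} {n : ℕ} {R : RS Φ n} {σ : Perm Φ} {u : List (Fin n)} (h : ⇑σ = R.inv u) (β γ : Φ) :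
    (∃ δ, R.ρ δ = R.ρ (σ β) + R.ρ (σ γ)) ↔ ∃ δ, R.ρ δ = R.ρ β + R.ρ γ :=
  (σ.exists_congr fun δ => by rw [h, RS.ρ_inv, RS.ρ_inv, RS.ρ_inv, ← map_add, (LW_inj _ u).eq_iff]).symm

/-- the unit `2` modulo `5` -/
def v2 : (ZMod 5)ˣ := ⟨2, 3, by decide, by decide⟩

theorem tab5 {lam : Fin chevE7.rank → ℤ} (h1 : ∀ t, cz e7Cert.R.ρ 5 lam t = cz e7Cert.R.ρ 5 lam (v2 * t))
    (h2 : cz e7Cert.R.ρ 5 lam 0 ≠ 126) (t : ZMod 5) : cz e7Cert.R.ρ 5 lam t = if t = 0 then 26 else 25 := by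
  obtain ⟨L, h3, h4⟩ := alc dat7.kil dat7.pos alc7_5 lam
  replace h4 := h4 (stab_root _) fun _ _ => rfl
  simp only [Bool.or_eq_true, Nat.beq_eq, Bool.not_eq_true', ← Bool.not_eq_true, nall_iff, decide_eq_true_eq] at h3
  have h5 : (cz e7Cert.R.ρ 5 lam 0, cz e7Cert.R.ρ 5 lam 1) ∈ [(126, 0), (26, 25)] := by
    rw [h4, h4]
    refine h3.resolve_left fun h3 => h3 fun t ht => ?_
    have := h1 (t : ZMod 5)
    rwa [h4, h4, ZMod.val_mul, ZMod.val_cast_of_lt ht] at this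
  have e1 : cz _ 5 lam 1 = cz _ 5 lam 2 := h1 1
  have e2 : cz _ 5 lam 2 = cz _ 5 lam 4 := h1 2
  have e3 : cz _ 5 lam 4 = cz _ 5 lam 3 := h1 4
  simp only [List.mem_cons, Prod.mk.injEq, h2, false_and, false_or, List.not_mem_nil, or_false] at h5
  obtain rfl | rfl | rfl | rfl | rfl : t = 0 ∨ t = 1 ∨ t = 2 ∨ t = 3 ∨ t = 4 := by revert t; decide
  · exact h5.1
  all_goals rw [if_neg (by decide)]; omega

theorem no5 [Fact (Nat.Prime 5)] {H A : Type*} [Group H] [CommGroup A] [Finite A] {X : A →* H}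
    {w : A →* Perm (Fin chevE7.nroots)} {lam : A → Fin chevE7.rank → ℤ} (h : Cells e7Cert 5 3 X w lam)
    (hA : Nat.card A = 125) (h5 : ∀ a : A, a ^ 5 = 1) (hr : ∀ a, ∃ g, g * X a * g⁻¹ = X (a ^ 2)) : False := by
  classical
  haveI := Fintype.ofFinite w.ker
  let R := e7Cert.R
  let χ : Fin chevE7.nroots → w.ker →* Multiplicative (ZMod 5) := fun r => MonoidHom.mk'
    (fun b => .ofAdd (dl 5 (lam b) (R.ρ r))) fun a b => by rw [Subgroup.coe_mul, h.mul _ a.2 _ b.2]; rfl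
  have h1 : ∀ ψ : w.ker →* Multiplicative (ZMod 5),
      5 * #{b | ψ b = 1} + 500 = (4 * #{r | χ r = ψ} + 1) * Fintype.card w.ker := fun ψ => by
    have e := cell_count χ ψ
    rw [sum_congr rfl (g := fun b => 25 + (if ψ b = 1 then 1 else 0) + if b = 1 then 100 else 0) fun b _ => ?_] at e
    · simp only [sum_add_distrib, ← card_filter, sum_const, card_univ, smul_eq_mul, sum_ite_eq', mem_univ, if_true,
        Fintype.card_fin] at e
      change _ = (_ + 126) * _ at e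
      nlinarith
    by_cases hb : b = 1
    · simp [hb]; rfl
    · obtain ⟨g, hg⟩ := hr b
      have := tab5 (h.rat b.2 (j := v2) hg) (h.ne b b.2 fun e => hb (Subtype.ext e)) (ψ b).toAdd
      rw [if_neg hb]
      refine Eq.trans ?_ (this.trans ?_)
      · rfl
      · simp only [toAdd_eq_zero]; split_ifs <;> rfl
  have h2 : #{r | χ r = 1} * Fintype.card w.ker = 125 + Fintype.card w.ker := by
    have := h1 1
    simp only [MonoidHom.one_apply, filter_true, card_univ] at this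
    nlinarith
  have h3 : ∀ ψ ≠ 1, #{r | χ r = ψ} * Fintype.card w.ker = 125 := fun ψ hψ => by
    have := h1 ψ
    have e := card_eq_hom hψ
    simp only [MonoidHom.one_apply] at e
    nlinarith
  have h4 : ∀ β γ δ, χ β = 1 → R.ρ δ = R.ρ β + R.ρ γ → χ δ = χ γ := fun β γ δ e e' => MonoidHom.ext fun b => by
    change Multiplicative.ofAdd (dl 5 (lam b) (R.ρ δ)) = _
    rw [e', map_add, show dl 5 (lam b) (R.ρ β) = 0 from DFunLike.congr_fun e b, zero_add]; rfl
  have h6 := h.card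
  have h7 := w.ker.card_subgroup_dvd_card
  rw [hA, Nat.card_eq_fintype_card] at h6 h7
  obtain h8 | h8 := (by decide : ∀ N < 126, N ∣ 125 → 25 ≤ N → N = 25 ∨ N = 125) _
    (Nat.lt_succ_of_le (Nat.le_of_dvd (by decide) h7)) h7 (by omega)
  · obtain ⟨z, hz⟩ : ∃ z, w z ≠ 1 := not_forall.1 fun e => by
      rw [← Nat.card_eq_fintype_card, (Subgroup.eq_top_iff' w.ker).2 e, Subgroup.card_top, hA] at h8
      omega
    rw [h8] at h2 h3
    obtain ⟨k, k1, k2, k3⟩ := h.fix z hz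
    replace k3 : #{r | w z r = r} ≤ 27 := k3.trans (by clear k3; revert k; decide)
    obtain ⟨u, hu⟩ := h.weyl z
    have hσ : w z ^ 5 = 1 := by rw [← map_pow, h5, map_one]
    have e : ∀ r, χ (w z r) = χ r := fun r => MonoidHom.ext fun b => congrArg Multiplicative.ofAdd (h.inv z b b.2 r)
    obtain ⟨β, b1, b2⟩ := exists_fix hσ (p := fun r => χ r = 1) (fun r => by rw [e]) (by omega)
    have s1 : ({γ | ∃ δ, R.ρ δ = R.ρ β + R.ρ γ} : Finset _) ⊆
        ({r | w z r = r} : Finset _) ∪ ({r | χ r = 1} : Finset _) := fun γ hγ => by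
      simp only [mem_union, mem_filter, mem_univ, true_and] at hγ ⊢
      refine or_iff_not_imp_right.2 fun hψ => fix_of_lt hσ (p := fun x => (∃ δ, R.ρ δ = R.ρ β + R.ρ x) ∧ χ x = χ γ)
        (fun x => by rw [e, ← par_iff hu β x, b2]) ?_ ⟨hγ, rfl⟩
      obtain ⟨m, m1, m2⟩ := exists_top R β (S := {x | χ x = χ γ}) ⟨γ, by simp⟩
      have := card_lt_card (s := {x | (∃ δ, R.ρ δ = R.ρ β + R.ρ x) ∧ χ x = χ γ}) (t := {x | χ x = χ γ})
        ⟨fun x hx => by simpa using (mem_filter.1 hx).2.2, fun hx => by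
          obtain ⟨⟨δ, d1⟩, d2⟩ := (mem_filter.1 (hx m1)).2
          exact m2 δ (by simp [h4 β m δ b1 d1, d2]) d1⟩
      have := h3 _ hψ
      omega
    have s2 : {β, R.neg β} ⊆ ({r | w z r = r} : Finset _) ∩ ({r | χ r = 1} : Finset _) := by
      simp only [insert_subset_iff, singleton_subset_iff, mem_inter, mem_filter, mem_univ, true_and]
      refine ⟨⟨b2, b1⟩, by rw [hu, RS.inv_neg, ← hu, b2], MonoidHom.ext fun b => ?_⟩
      change Multiplicative.ofAdd (dl 5 (lam b) (R.ρ _)) = _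
      rw [R.ρ_neg, map_neg, show dl 5 (lam b) (R.ρ β) = 0 from DFunLike.congr_fun b1 b, neg_zero]; rfl
    have s3 := card_le_card s2
    rw [card_pair fun e => R.ne_zero β (funext fun i => by
      have := congrFun (R.ρ_neg β) i
      rw [← e, Pi.neg_apply] at this
      change _ = 0
      omega)] at s3
    have s4 := (par7 β).ge.trans (card_le_card s1)
    have := card_union_add_card_inter ({r | w z r = r} : Finset _) ({r | χ r = 1} : Finset _)
    omega
  · rw [h8] at h2 h3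
    obtain ⟨β, hβ⟩ := card_pos.1 (show 0 < #{r | χ r = 1} by omega)
    have := (par7 β).ge.trans (card_le_card (t := {r | χ r = 1}) fun γ hγ => by
      obtain ⟨δ, hδ⟩ := (mem_filter.1 hγ).2
      refine mem_filter.2 ⟨mem_univ _, by_contra fun hψ => R.ne_zero β ?_⟩
      have := h3 _ hψ
      rwa [card_le_one.1 (show #{r | χ r = χ γ} ≤ 1 by omega) δ (by simp [h4 β γ δ (mem_filter.1 hβ).2 hδ]) γ
        (by simp), right_eq_add] at hδ)
    omega

def c5 (i : Fin 3) : Perm (Fin 3 × ZMod 5) := cv 3 5 (.ofAdd (Pi.single i 1))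

theorem S5_syl : IsSyl 5 (Subgroup.closure (Set.range c5 ∪ Set.range (Empty.elim : _ → Perm (Fin 3 × ZMod 5))))
    (alternatingGroup _) := by
  haveI := Fact.mk Nat.prime_five
  have hp := isPGroup_closure₂ (l := 5) (c := c5) (y := Empty.elim) (by decide +kernel) (by decide +kernel)
    (fun i => i.elim) (fun i => i.elim) (fun _ i => i.elim)
  exact isSyl_of_le hp (le_alt (by decide) hp) (k := 3) (pow_le_card hp c5
    (fun i => Subgroup.subset_closure (Or.inl ⟨i, rfl⟩)) (fun i p => p = (i, 0))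
    (by decide +kernel +revert) (by decide +kernel +revert)) (by decide +kernel)

def t5 : Fin 7 → Perm (Fin 3) × (Fin 3 → ℕ) := ![(1, ![0, 1, 1]), (1, ![1, 0, 1]), (1, ![1, 1, 0]),
  (swap 0 1, ![1, 1, 1]), (swap 0 1, ![2, 0, 1]), (swap 0 1, ![3, 3, 1]), (swap 0 1, ![0, 2, 1])]

theorem t5_sign : ∀ j, Perm.sign (mo (t5 j).1 v2 (t5 j).2) = 1 := by decide +kernel
theorem t5_rat : ∀ a : Fin 3 → ZMod 5, ∃ j, ∀ i, 2 * a ((t5 j).1 i) = (v2 : ZMod 5) ^ (t5 j).2 i * a i := by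
  decide +kernel
theorem c5_c5 : ∀ i i', c5 i * c5 i' = c5 i' * c5 i ∧ (i = i' ∨ Perm.sign (mo 1 v2 (Pi.single i 2)) = 1 ∧
    mo 1 v2 (Pi.single i 2) * c5 i * (mo 1 v2 (Pi.single i 2))⁻¹ = c5 i ^ (3 + 1) ∧
    mo 1 v2 (Pi.single i 2) * c5 i' * (mo 1 v2 (Pi.single i 2))⁻¹ = c5 i') := by decide +kernel
theorem c5_inv : Perm.sign (mo (k := 3) 1 v2 fun _ => 2) = 1 ∧
    ∀ i, (mo 1 v2 fun _ => 2) * c5 i * (mo 1 v2 fun _ => 2)⁻¹ = (c5 i)⁻¹ := by decide +kernel
theorem gl7_3 : ¬ 5 ^ (1 + 1) ∣ ∏ i : Fin 7, (3 ^ 7 - 3 ^ i.val) ∧ ¬ 7 ^ (1 + 1) ∣ ∏ i : Fin 7, (3 ^ 7 - 3 ^ i.val) := by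
  decide +kernel

theorem e7_15 {E : Type*} [Field E] [Finite E] {H : Type*} [Group H] [Finite H] {ι : H →* GL chevE7.Idx E} {ζ : Eˣ}
    (he : Emb chevE7 ι) (hζ : IsPrimitiveRoot ζ (5 ^ (3 + 2 + 1))) {π : H →* Perm (Fin 3 × ZMod 5)} (h : Min π) :
    False := by
  haveI := Fact.mk Nat.prime_three
  haveI := Fact.mk Nat.prime_five
  have hp : Par chevE7 18 5 3 2 := ⟨by decide, by decide, by decide⟩
  have hB : ¬ 5 ^ (1 + 1) ∣ Nat.card (GL (Fin chevE7.rank) (ZMod 3)) := by rw [card_GL]; exact gl7_3.1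
  obtain ⟨X, h1, h2⟩ := exists_X (by decide) h.toAS fun κ => h.ker_triv (by decide) (fun κ => h.central (by decide)
    fun D hD => (he.card_le dat7 hp hζ (fun r s e => Or.inl (inj7_3 r s e)) (fun Q hQ => card_le_of_exp hQ hB)
      D hD).trans_lt (by simp; decide)) S5_syl (j := 3) (by decide)
      (fun i i' => (c5_c5 i i').imp_right (Or.imp_right fun h => ⟨_, h⟩)) (fun i => i.elim) (fun _ i => i.elim)
      c5_inv.1 c5_inv.2 fun i => i.elim
  obtain ⟨w, lam, h3⟩ := he.cells dat7 hp hζ inj7_3 hB h1 cv_exp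
  refine no5 h3 (by simp) cv_exp fun a => ?_
  obtain ⟨j, hj⟩ := t5_rat a.toAdd
  exact (h2 _ _ _ (t5_sign j)).imp fun g hg => hg a _ fun i => by rw [← hj]; simp

end Cfsg.Agent.Lib.AltSec
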