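import Cfsg.Agent.Lib.AltSec.A18

/-! No 248-dimensional representation with small fixed spaces over a cover of `A₁₈`. -/

set_option autoImplicit false
set_option linter.style.haveILetI false
set_option linter.unusedSectionVars false
set_option maxRecDepth 100000
set_option maxHeartbeats 4000000

namespace Cfsg.Agent.Lib.AltSec

open Equiv Module Cfsg.Agent.Lib.Forms Matrix Cfsg.Agent.Lib.Core

theorem arith18 (a b c d e f g : ℕ) (h1 : a + 12 * b + 60 * c + 160 * d + 240 * e + 192 * f + 64 * g = 248)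
    (h2 : a + 10 * b + 40 * c + 80 * d + 80 * e + 32 * f ≤ 173) (h3 : b + d ≤ c + a / 2 + 2 * (d / 2))
    (h4 : c + e ≤ d + b / 2 + 2 * (e / 2)) (h5 : d + f ≤ e + c / 2 + 2 * (f / 2)) (h6 : e + g ≤ f + d / 2 + g / 2) :
    False := by
  have : c ≤ 4 := by omega
  have : d ≤ 1 := by omega
  have : e ≤ 1 := by omega
  have : f ≤ 1 := by omega
  have : g ≤ 3 := by omega
  interval_cases c <;> interval_cases d <;> interval_cases e <;> interval_cases f <;> interval_cases g <;> omega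

universe u
variable {k V : Type*} [Field k] [AddCommGroup V] [Module k V] [FiniteDimensional k V] {H : Type u} [Group H]
  {π : H →* Perm (Fin 6 × Z3)} {x : Perm (Fin 6 × Z3) → H} {ρ : H →* End k V} {ω : k}

theorem no18 (hω : IsPrimitiveRoot ω 3) (hx : Fus π S6 x) (hV : finrank k V = 248)
    (hf : finrank k (Eg ρ ω (x (c6 0)) 0) ≤ 173) : False := by
  have add := hx.add cc6_mem
  obtain ⟨M, hm⟩ : ∃ M : ℕ → ℕ, ∀ l, finrank k (Wt ρ ω (fun a => x (cc a)) l) = M (sz l) :=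
    ⟨fun s => finrank k (Wt ρ ω (fun a => x (cc a)) (cn 6 s)), hx.canon cc6_mem (by decide) sign6 pot (cn 6) canon6 ρ ω⟩
  have e1 := (total (ρ := ρ) hω add).trans ((Finset.sum_congr rfl fun l _ => (if_pos trivial).symm).trans
    (sum_sz' hm (fun _ => True) (n := 7) (by decide) ![1, 12, 60, 160, 240, 192, 64] (by decide +kernel)))
  have e2 := (sum_sz' hm (fun l => l 0 = 0) (n := 7) (by decide) ![1, 10, 40, 80, 80, 32, 0]
    (by decide +kernel)).ge.trans ((sum_le hω _ (U := Eg ρ ω (x (c6 0)) 0) fun l hl v hv => mem_Eg.2 (by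
      simpa [hl, c6] using mem_Wt.1 hv (Pi.single 0 1))).trans hf)
  have hy : ∀ a, x (y6 0) * x (cc a) * (x (y6 0))⁻¹ = x (cc (sg (c3 0 1 2) 1 a)) := fun a => by
    rw [hx.cj (y6_mem 0) (cc6_mem a), ← sq_conj]; rfl
  obtain ⟨g, -, hg⟩ := hx.conj hb6 (by decide +kernel)
  have g1 : hb6 * cc ![1, 1, 1, 0, 0, 0] * hb6⁻¹ = y6 0 := by decide +kernel
  have g2 : ∀ j, hb6 * cc (b6 j) * hb6⁻¹ = cc (b6 j) := by decide +kernel
  obtain ⟨j, -, j1, j2⟩ := hx.sq cc6_mem (swap 0 1 * swap 3 4) 1 (by decide +kernel)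
  have j3 : (sq (swap 0 1 * swap 3 4) 1)⁻¹ * y6 0 * (sq (swap 0 1 * swap 3 4) 1)⁻¹⁻¹ = (y6 0)⁻¹ := by decide +kernel
  have j4 := j2 _ (y6_mem 0) (j3 ▸ inv_mem (y6_mem 0))
  rw [j3, hx.inv (y6_mem 0)] at j4
  obtain ⟨s, -, s1, s2⟩ := hx.sq cc6_mem s6 1 (by decide +kernel)
  have s3 : ∀ a, (sq s6 1)⁻¹ * yy6 a * (sq s6 1)⁻¹⁻¹ = yy6 (sg (swap 0 1) (ng 0) a) := by decide +kernel
  have add' : ∀ a b, x (yy6 (a + b)) = x (yy6 a) * x (yy6 b) := fun a b => by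
    rw [← hx.mul _ (yy6_mem a) _ (yy6_mem b)]; exact congrArg x (by revert a b; decide +kernel)
  have m6 : finrank k (Wt ρ ω (fun a => x (cc a)) 1) ≤ 3 := by
    rw [hm, show sz (1 : Fin 6 → Z3) = 6 by decide]
    simp [Fin.sum_univ_succ, hV] at e1
    omega
  have g0 := four hω add' m6 (fun a v hv => by
    have h1 : ∀ a, ∃ τ : Perm (Fin 6), yy6 a = (sq τ 1)⁻¹ := fun a =>
      ⟨c3 0 1 2 ^ (a 0).val * c3 3 4 5 ^ (a 1).val, by revert a; decide +kernel⟩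
    obtain ⟨τ, hτ⟩ := h1 a
    exact Wt_conj (sg_bij τ 1) (fun b => by rw [hx.cj (yy6_mem a) (cc6_mem b), hτ, sq_conj])
      (fun b => (congrArg _ (funext fun i => by simp [sg])).trans (sg_dot τ 1 b 1)) hv) (s := s)
    (fun v hv => Wt_conj (sg_bij s6 1) s1 (fun b => (congrArg _ (funext fun i => by simp [sg])).trans
      (sg_dot s6 1 b 1)) hv) (sg_bij (swap 0 1) (ng 0)) (sg_dot _ _)
    (fun a => by rw [s2 _ (yy6_mem a) (s3 a ▸ yy6_mem _), s3]) (a := ![1, 0]) (by decide +kernel)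
  rw [show yy6 ![1, 0] = y6 0 by decide +kernel] at g0
  have key := fun (μ : Fin 3 → Z3) (hμ : μ 0 = μ 1) => yr3 hω add b6 μ ![1, 1, 1, 0, 0, 0] (sg (c3 0 1 2) 1)
    (sg_bij _ _) (sg_dot _ _) hy (h := g) (by rw [hg _ (cc6_mem _) (g1 ▸ y6_mem 0), g1])
    (fun j => by rw [hg _ (cc6_mem _) ((g2 j).symm ▸ cc6_mem _), g2]) (by decide +kernel) (by decide +kernel) cd6
    (· ≠ 1) hm (G := fun s => M s / 2) (n := 7) (hn := by decide) fun l h4 h5 => by
    split_ifs with h6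
    · have h7 : ∀ l : Fin 6 → Z3, b6 0 ⬝ᵥ l = b6 1 ⬝ᵥ l → sg (c3 0 1 2) 1 l = l → sg (swap 0 1 * swap 3 4) 1 l = l := by
        decide +kernel
      have := half hω (U := Wt ρ ω (fun a => x (cc a)) l) j4 fun v hv => Wt_conj (sg_bij _ _) j1
        (fun a => by nth_rw 1 [← h7 l (by rw [h4, h4, hμ]) h5]; exact sg_dot _ _ a l) hv
      rw [hm] at this
      omega
    · rw [not_not.1 h6, g0, finrank_bot]
  have e3 := key ![0, 0, 0] rfl ![0, 3, 3, 3, 0, 0, 0] ![0, 2, 4, 2, 0, 0, 0] ![1, 0, 0, 2, 0, 0, 0]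
    (by decide +kernel) (by decide +kernel) (by decide +kernel)
  have e4 := key ![0, 0, 1] rfl ![0, 0, 3, 3, 3, 0, 0] ![0, 0, 2, 4, 2, 0, 0] ![0, 1, 0, 0, 2, 0, 0]
    (by decide +kernel) (by decide +kernel) (by decide +kernel)
  have e5 := key ![1, 1, 0] rfl ![0, 0, 0, 3, 3, 3, 0] ![0, 0, 0, 2, 4, 2, 0] ![0, 0, 1, 0, 0, 2, 0]
    (by decide +kernel) (by decide +kernel) (by decide +kernel)
  have e6 := key ![1, 1, 1] rfl ![0, 0, 0, 0, 3, 3, 3] ![0, 0, 0, 0, 2, 4, 2] ![0, 0, 0, 1, 0, 0, 1]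
    (by decide +kernel) (by decide +kernel) (by decide +kernel)
  simp [Fin.sum_univ_succ, hV] at e1 e2 e3 e4 e5 e6
  exact arith18 (M 0) (M 1) (M 2) (M 3) (M 4) (M 5) (M 6) (by omega) (by omega) (by omega) (by omega) (by omega)
    (by omega)

end Cfsg.Agent.Lib.AltSec
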