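import Cfsg.Agent.Lib.Chev.Torus
import Cfsg.Agent.Lib.Chev.Field

/-! The monomial subgroup of a Chevalley group. -/

set_option autoImplicit false
set_option linter.style.haveILetI false
set_option linter.unusedSectionVars false

namespace Cfsg.Agent.Lib.AltSec
open Matrix Cfsg.Lie Cfsg.Agent.Lib.Core Cfsg.Agent.Lib.Chev Module Equiv
open scoped MatrixGroups

noncomputable section

section
variable {α F : Type*} [Fintype α] [DecidableEq α] [Field F]

theorem finrank_le_card {U : Submodule F (α → F)} (A : Finset α) (h : ∀ v ∈ U, (∀ a ∈ A, v a = 0) → v = 0) :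
    finrank F U ≤ A.card := by
  rw [← Fintype.card_coe, ← finrank_fintype_fun_eq_card F]
  exact LinearMap.finrank_le_finrank_of_injective (f := LinearMap.funLeft F F Subtype.val ∘ₗ U.subtype)
    ((injective_iff_map_eq_zero _).2 fun v hv => Subtype.ext (h v v.2 fun a ha => congrFun hv ⟨a, ha⟩))

theorem finrank_mon {U : Submodule F (α → F)} (f : Perm α) (hf : ∀ a, f (f (f a)) = a)
    (h : ∀ v ∈ U, ∀ a, f a ≠ a → v a = 0 → v (f a) = 0) :
    3 * finrank F U ≤ Fintype.card α + 2 * (Finset.univ.filter fun a => f a = a).card := by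
  let e : α → ℕ := fun a => Fintype.equivFin α a
  have he : ∀ a b, e a = e b → a = b := fun a b h => (Fintype.equivFin α).injective (Fin.ext h)
  let p : α → Prop := fun a => e a < e (f a) ∧ e a < e (f (f a))
  have h1 := finrank_le_card (U := U) (Finset.univ.filter p ∪ Finset.univ.filter fun a => f a = a) fun v hv h1 => by
    have h2 : ∀ a, p a → v a = 0 ∧ v (f a) = 0 ∧ v (f (f a)) = 0 := fun a ha => by
      have h3 := h1 a (by simp [ha])
      have h4 : f a ≠ a := fun h => by have := ha.1; rw [h] at this; omega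
      exact ⟨h3, h v hv a h4 h3, h v hv _ (f.injective.ne h4) (h v hv a h4 h3)⟩
    funext a
    by_cases h3 : f a = a
    · exact h1 a (by simp [h3])
    have h4 := mt (he _ _) h3
    have h5 := mt (he _ _) (f.injective.ne h3)
    have h6 := mt (he _ _) (f.injective.ne (f.injective.ne h3))
    have h7 := h2 (f a)
    have h8 := h2 (f (f a))
    simp only [p, hf] at h6 h7 h8
    by_cases h9 : p a
    · exact (h2 a h9).1
    by_cases h10 : e (f a) < e (f (f a)) ∧ e (f a) < e a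
    · exact (h7 h10).2.2
    · exact (h8 (by simp only [p] at h9; omega)).2.1
  have h2 := Finset.card_union_le (Finset.univ.filter p) (Finset.univ.filter fun a => f a = a)
  have h3 : ∑ a, (((if p a then 1 else 0) + (if p (f a) then 1 else 0) + (if p (f (f a)) then 1 else 0)) +
      if f a = a then 1 else 0) ≤ ∑ _a : α, 1 := Finset.sum_le_sum fun a _ => by
    simp only [p, hf]
    by_cases h3 : f a = a
    · simp [h3]
    · split_ifs <;> omega
  rw [Finset.sum_add_distrib, Finset.sum_add_distrib, Finset.sum_add_distrib,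
    Equiv.sum_comp f fun a => if p (f a) then 1 else 0, Equiv.sum_comp f fun a => if p a then 1 else 0,
    ← Finset.card_filter, ← Finset.card_filter] at h3
  simp only [Finset.sum_const, Finset.card_univ, smul_eq_mul, mul_one] at h3
  change (Finset.univ.filter p).card + (Finset.univ.filter p).card + (Finset.univ.filter p).card + _ ≤ _ at h3
  omega

omit [DecidableEq α] in
theorem perm_pow {l : ℕ} (hl : l.Prime) {f : Perm α} {k c : ℕ} (h : f ^ l ^ k = 1) (hc : Fintype.card α < l ^ (c + 1)) :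
    f ^ l ^ c = 1 := by
  ext a
  have h1 : Function.IsPeriodicPt f (l ^ k) a := by
    rw [Function.IsPeriodicPt, Function.IsFixedPt, ← Perm.coe_pow, h]; rfl
  obtain ⟨j, -, hj⟩ := (Nat.dvd_prime_pow hl).1 h1.minimalPeriod_dvd
  have h2 := (hj ▸ Function.minimalPeriod_le_card (f := f) (x := a)).trans_lt hc
  rw [Nat.pow_lt_pow_iff_right hl.one_lt] at h2
  exact Function.isPeriodicPt_iff_minimalPeriod_dvd.2 (hj ▸ pow_dvd_pow l (by omega))

end

variable {D : ChevalleyDatum} (K : Cert D) {F : Type*} [Field F] (hη : K.EtaOK)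

variable (F) in
def NN : Subgroup (GL D.Idx F) where
  carrier := {g | ∃ w, ∃ k ∈ (K.full F).T, g = K.nW F w * k}
  one_mem' := ⟨[], 1, one_mem _, by simp [Cert.nW, Fold.nW]⟩
  mul_mem' := by
    rintro _ _ ⟨w, k, hk, rfl⟩ ⟨w', k', hk', rfl⟩
    exact ⟨w ++ w', _, mul_mem ((K.full F).nW_T w' hk) hk', by simp only [Cert.nW, Fold.nW_append]; group⟩
  inv_mem' := by
    rintro _ ⟨w, k, hk, rfl⟩
    have h1 := K.nW_mem_T (F := F) hη (w ++ w.reverse) fun r hr => by rwa [RS.inv_append, RS.inv_reverse_inv]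
    exact ⟨w.reverse, _, mul_mem ((K.full F).nW_T w.reverse (inv_mem hk)) (inv_mem h1), by
      simp only [Cert.nW, Fold.nW_append]; group⟩

def Mon (g : GL D.Idx F) (f : Fin D.nroots → Fin D.nroots) : Prop :=
  ∀ r, ∃ c : F, c ≠ 0 ∧ (g : Matrix D.Idx D.Idx F) *ᵥ Pi.single (Sum.inr r) 1 = c • Pi.single (Sum.inr (f r)) 1

theorem Mon.unique {g : GL D.Idx F} {f f' : Fin D.nroots → Fin D.nroots} (h : Mon g f) (h' : Mon g f') : f = f' := by
  funext r
  obtain ⟨c, h1, h2⟩ := h r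
  obtain ⟨c', -, h3⟩ := h' r
  by_contra h4
  have := congrFun (h2.symm.trans h3) (Sum.inr (f r))
  simp [h1, h4] at this

theorem Mon.mul {g g' : GL D.Idx F} {f f' : Fin D.nroots → Fin D.nroots} (h : Mon g f) (h' : Mon g' f') :
    Mon (g * g') (f ∘ f') := fun r => by
  obtain ⟨c', h1, h2⟩ := h' r
  obtain ⟨c, h3, h4⟩ := h (f' r)
  exact ⟨c' * c, mul_ne_zero h1 h3, by rw [Units.val_mul, ← mulVec_mulVec, h2, mulVec_smul, h4, smul_smul]; rfl⟩

theorem h_mulVec (χ : Chr D.rank F) (r : Fin D.nroots) : (K.h χ : Matrix D.Idx D.Idx F) *ᵥ Pi.single (Sum.inr r) 1 =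
    (χ.ev (K.R.ρ r) : F) • Pi.single (Sum.inr r) 1 := by
  rw [K.h_val, diagonal_mulVec_single, mul_one, ← Pi.single_smul, smul_eq_mul, mul_one]; rfl

theorem mon_N (w : List (Fin D.rank)) {k : GL D.Idx F} (hk : k ∈ (K.full F).T) :
    Mon (K.nW F w * k) (K.R.inv w.reverse) := by
  obtain ⟨χ, rfl⟩ := hk
  refine Mon.mul (g := K.nW F w) (g' := K.h χ) (f := K.R.inv w.reverse) (f' := id) (fun r => ?_)
    fun r => ⟨_, (χ.ev _).ne_zero, h_mulVec K χ r⟩
  simpa only [RS.inv_inv_reverse] using K.nW_mulVec (F := F) w (K.R.inv w.reverse r)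

def pw (w : List (Fin D.rank)) : Perm (Fin D.nroots) :=
  ⟨K.R.inv w, K.R.inv w.reverse, K.R.inv_reverse_inv w, K.R.inv_inv_reverse w⟩

theorem mon_sig (g : NN K F hη) : Mon g.1 (pw K g.2.choose.reverse) := by
  obtain ⟨k, hk, e⟩ := g.2.choose_spec
  exact (congrArg (Mon · _) e).mpr (mon_N K _ hk)

/-- the action on roots -/
def sig : NN K F hη →* Perm (Fin D.nroots) :=
  MonoidHom.mk' (fun g => pw K g.2.choose.reverse) fun a b =>
    DFunLike.coe_injective ((mon_sig K hη (a * b)).unique ((mon_sig K hη a).mul (mon_sig K hη b)))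

variable {K hη}

theorem sig_mon (g : NN K F hη) : Mon g.1 (sig K hη g) := mon_sig K hη g

theorem sig_W (g : NN K F hη) : ∃ w, ⇑(sig K hη g) = K.R.inv w := ⟨_, rfl⟩

theorem T_le : (K.full F).T ≤ NN K F hη := fun k hk => ⟨[], k, hk, by simp [Cert.nW, Fold.nW]⟩

theorem sig_eq_one {g : NN K F hη} : sig K hη g = 1 ↔ g.1 ∈ (K.full F).T := by
  constructor
  · intro h
    obtain ⟨w, k, hk, e⟩ := g.2
    have h1 := (sig_mon g).unique (e ▸ mon_N K w hk)
    rw [e]
    refine mul_mem (K.nW_mem_T hη w fun r hr => ?_) hk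
    rwa [← K.R.inv_reverse_inv w r, ← h1, h] at hr
  · intro h
    have := mon_N K [] h
    rw [show K.nW F [] = 1 from rfl, one_mul] at this
    exact DFunLike.coe_injective ((sig_mon g).unique this)

theorem sig_h {g : NN K F hη} {χ χ' : Chr D.rank F} (h : g.1 * K.h χ * g.1⁻¹ = K.h χ') (r : Fin D.nroots) :
    χ'.ev (K.R.ρ (sig K hη g r)) = χ.ev (K.R.ρ r) := by
  obtain ⟨c, h1, h2⟩ := sig_mon g r
  have := congrArg (fun x : GL D.Idx F => ((x : Matrix D.Idx D.Idx F) *ᵥ Pi.single (Sum.inr r) 1)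
    (Sum.inr (sig K hη g r))) (mul_inv_eq_iff_eq_mul.1 h)
  simp only [Units.val_mul, ← mulVec_mulVec, h2, h_mulVec, mulVec_smul] at this
  simpa [h1, mul_comm c, Units.ext_iff, eq_comm] using this

theorem N_inl {g : GL D.Idx F} (hg : g ∈ NN K F hη) (s : Fin D.nroots) (i : Fin D.rank) :
    (g : Matrix D.Idx D.Idx F) (Sum.inr s) (Sum.inl i) = 0 := by
  have mul : ∀ g g' : GL D.Idx F, (∀ s i, (g : Matrix D.Idx D.Idx F) (Sum.inr s) (Sum.inl i) = 0) →
      (∀ s i, (g' : Matrix D.Idx D.Idx F) (Sum.inr s) (Sum.inl i) = 0) →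
      ∀ s i, (g * g' : GL D.Idx F).1 (Sum.inr s) (Sum.inl i) = 0 := fun g g' h h' s i => by
    rw [Units.val_mul, mul_apply]
    refine Finset.sum_eq_zero ?_
    rintro (a | a) -
    · rw [h, zero_mul]
    · rw [h', mul_zero]
  obtain ⟨w, _, ⟨χ, rfl⟩, rfl⟩ := hg
  refine mul _ _ ?_ (fun s i => by rw [K.h_val, diagonal_apply_ne _ (by simp)]) s i
  induction w with
  | nil => exact fun s i => one_apply_ne (by simp)
  | cons j w ih =>
    rw [K.nW_cons]
    refine mul _ _ (fun s i => by_contra fun h => K.R.ne_zero s ?_) ih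
    simpa [Cert.wt] using K.n_mono j _ _ h

theorem sig_row (g : NN K F hη) (r : Fin D.nroots) : ∃ c : F, ∀ v,
    ((g.1 : Matrix D.Idx D.Idx F) *ᵥ v) (Sum.inr (sig K hη g r)) = c * v (Sum.inr r) := by
  refine ⟨(g.1 : Matrix D.Idx D.Idx F) (Sum.inr (sig K hη g r)) (Sum.inr r), fun v => ?_⟩
  rw [mulVec, dotProduct]
  refine Finset.sum_eq_single (Sum.inr r : D.Idx) ?_ fun h => absurd (Finset.mem_univ _) h
  rintro (a | a) - ha
  · rw [N_inl g.2, zero_mul]
  · obtain ⟨c, -, h⟩ := sig_mon g a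
    have := congrFun h (Sum.inr (sig K hη g r))
    rw [mulVec_single_one, col_apply] at this
    rw [this, Pi.smul_apply, Pi.single_eq_of_ne (by simpa [eq_comm] using ha), smul_zero, zero_mul]

theorem finrank_N (g : NN K F hη) (h3 : sig K hη g ^ 3 = 1) :
    3 * finrank F (End.eigenspace (toLin' (g.1 : Matrix D.Idx D.Idx F)) 1) ≤
      3 * D.rank + D.nroots + 2 * (Finset.univ.filter fun r => sig K hη g r = r).card := by
  refine (finrank_mon (Equiv.sumCongr (Equiv.refl _) (sig K hη g)) ?_ ?_).trans (le_of_eq ?_)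
  · rintro (a | a)
    · rfl
    · exact congrArg Sum.inr (DFunLike.congr_fun h3 a)
  · rintro v hv (a | a) h1 h2
    · exact h2
    · obtain ⟨c, hc⟩ := sig_row g a
      have := hc v
      rwa [← toLin'_apply, End.mem_eigenspace_iff.1 hv, one_smul, h2, mul_zero] at this
  · simp only [Finset.card_filter, Fintype.sum_sum_type, Fintype.card_sum, Fintype.card_fin]
    simp
    ring

theorem finrank_T [DecidableEq F] (χ : Chr D.rank F) : finrank F (End.eigenspace (toLin' (K.h χ : Matrix D.Idx D.Idx F)) 1) ≤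
    D.rank + (Finset.univ.filter fun r => χ.ev (K.R.ρ r) = 1).card := by
  refine (finrank_le_card (Finset.univ.filter fun a => χ.ev (K.wt a) = 1) fun v hv h => funext fun a => ?_).trans
    (le_of_eq ?_)
  · by_cases h1 : χ.ev (K.wt a) = 1
    · exact h a (by simpa)
    · have := congrFun (End.mem_eigenspace_iff.1 hv) a
      rw [toLin'_apply, K.h_val, mulVec_diagonal, one_smul] at this
      exact by_contra fun h2 => h1 (Units.ext (mul_right_cancel₀ h2 (this.trans (one_mul _).symm)))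
  · simp only [Finset.card_filter, Fintype.sum_sum_type]
    exact congrArg₂ _ (by simp [Cert.wt]) rfl

variable (K) in
def Rho2 : Prop := ∃ c : Fin D.rank → ℤ, ∀ j, ∑ i, c i * K.R.cart i j = 2

theorem h_sq_mem (hρ : Rho2 K) (ξ : Fˣ) : K.h (Chr.mk fun _ => ξ ^ 2) ∈ D.group F := by
  obtain ⟨c, hc⟩ := hρ
  have : (Chr.mk fun _ => ξ ^ 2) = ∏ i, K.κ i (ξ ^ c i) := Chr.ext' fun j => by
    have : ∀ (s : Finset (Fin D.rank)) (g : Fin D.rank → Chr D.rank F) v,
        Chr.ev (∏ i ∈ s, g i) v = ∏ i ∈ s, (g i).ev v := fun s g v => by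
      simp [Chr.ev, MonoidHom.finsetProd_apply]
    rw [this]
    simp only [Cert.κ, Chr.ev_mk_single, ← _root_.zpow_mul]
    rw [← zpow_natCast, show ((2 : ℕ) : ℤ) = _ from (hc j).symm]
    induction (Finset.univ : Finset (Fin D.rank)) using Finset.induction_on with
    | empty => simp
    | insert a s ha ih => rw [Finset.sum_insert ha, Finset.prod_insert ha, _root_.zpow_add, ih]
  rw [this]
  exact Subgroup.prod_mem ((D.group F).comap K.h) (fun i _ => K.h_κ_mem i _)

variable (hη) in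
theorem conjN [Finite F] (hρ : Rho2 K) {l : ℕ} [hl : Fact l.Prime] (h2 : l ≠ 2) {c d : ℕ} {ζ : Fˣ}
    (hζ : IsPrimitiveRoot ζ (l ^ (c + d))) (hc : D.nroots < l ^ (c + 1)) {m : ℤ} (hm : ∀ a, |RS.ht (K.wt a)| ≤ m)
    (hd : 2 * m < (l ^ d : ℕ)) {P : Subgroup (GL D.Idx F)} (hP : IsPGroup l P) (hPG : P ≤ D.group F) :
    ∃ y ∈ D.group F, ∀ x ∈ P, y * x * y⁻¹ ∈ NN K F hη := by
  have h1 : IsPrimitiveRoot (ζ ^ 2) (l ^ (c + d)) :=
    hζ.pow_of_coprime 2 (((Nat.coprime_primes Nat.prime_two hl.out).2 h2.symm).pow_right _)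
  have hR := K.reg_of_prim (h1.pow (pow_pos hl.out.pos _) (pow_add l c d)) hm hd
  have e : ∀ n : ℕ, K.h (Chr.mk fun _ => ζ ^ 2) ^ n = K.h (Chr.mk fun _ => (ζ ^ 2) ^ n) := fun n => by
    rw [← map_pow]
    exact congrArg _ (Chr.ext' fun i => by rw [Chr.ev_pow, Chr.ev_mk_single, Chr.ev_mk_single])
  obtain ⟨S, hS, h0⟩ := exists_isSyl_ge (H := NN K F hη ⊓ D.group F) (Q := Subgroup.zpowers _)
    (isPGroup_zpowers (k := c + d) (x := K.h (Chr.mk fun _ => ζ ^ 2)) (by
      rw [e, h1.pow_eq_one, ← map_one K.h]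
      exact congrArg _ (Chr.ext' fun i => by rw [Chr.ev_mk_single, Chr.ev_one])))
    (Subgroup.zpowers_le.2 ⟨T_le ⟨_, rfl⟩, h_sq_mem hρ ζ⟩)
  have hSC : IsSyl l S (D.group F) := isSyl_of_maximal (hS.le.trans inf_le_right) hS.isPGroup fun Q hQ h3 h4 => by
    by_contra h5
    obtain ⟨g, ⟨hg, hg'⟩, h6⟩ := SetLike.exists_of_lt (lt_inf_normalizer_of_isPGroup hQ (lt_of_le_of_ne h3 (Ne.symm h5)))
    have h7 := (Subgroup.mem_normalizer_iff.1 hg' _).1 (h0 (Subgroup.mem_zpowers _))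
    obtain ⟨b, hb⟩ := pow_eq_one_of_isPGroup hS.isPGroup h7
    have h8 : sig K hη (⟨_, (hS.le h7).1⟩ ^ l ^ c) = 1 := by
      rw [map_pow]
      refine perm_pow hl.out (k := b) ?_ (by simpa)
      rw [← map_pow, ← map_one (sig K hη (F := F))]
      exact congrArg _ (Subtype.ext hb)
    rw [sig_eq_one, Subgroup.coe_pow, conj_pow, e] at h8
    obtain ⟨b, hb⟩ := pow_eq_one_of_isPGroup hQ hg
    exact h6 (hS.le_of_le_normalizer' (isPGroup_zpowers hb) (Subgroup.zpowers_le.2 ⟨K.mem_N hR (h4 hg) h8, h4 hg⟩)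
      (Subgroup.zpowers_le.2 hg') (Subgroup.mem_zpowers _))
  obtain ⟨y, hy, h⟩ := hSC.exists_conj_le hP hPG
  exact ⟨y, hy, fun x hx => (hS.le (h ⟨x, hx, rfl⟩)).1⟩

/-! ### reduction modulo `q` -/

variable (K) in
def mat (q : ℕ) (f : Fin D.nroots → Fin D.nroots) : Matrix (Fin D.rank) (Fin D.rank) (ZMod q) :=
  of fun i j => K.R.ρ (f (K.R.sim j)) i

theorem mat_mulVec (q : ℕ) (w : List (Fin D.rank)) (r : Fin D.nroots) :
    mat K q (K.R.inv w) *ᵥ (fun i => (K.R.ρ r i : ZMod q)) = fun i => (K.R.ρ (K.R.inv w r) i : ZMod q) := by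
  funext i
  have h1 : K.R.ρ r = ∑ j, K.R.ρ r j • Pi.single j (1 : ℤ) := by
    funext j; simp [Finset.sum_apply, Pi.single_apply]
  simp only [mat, mulVec, dotProduct, of_apply, RS.ρ_inv, K.R.ρ_sim]
  conv_rhs => rw [h1, map_sum]
  simp only [map_zsmul, Finset.sum_apply, Pi.smul_apply, smul_eq_mul, Int.cast_sum, Int.cast_mul, mul_comm]

theorem mat_sig (q : ℕ) (g : NN K F hη) (r : Fin D.nroots) :
    mat K q (sig K hη g) *ᵥ (fun i => (K.R.ρ r i : ZMod q)) = fun i => (K.R.ρ (sig K hη g r) i : ZMod q) :=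
  mat_mulVec q _ r

variable (K hη) in
def phi (q : ℕ) : NN K F hη →* GL (Fin D.rank) (ZMod q) := MonoidHom.toHomUnits
  { toFun := fun g => mat K q (sig K hη g)
    map_one' := by ext i j; simp [mat, K.R.ρ_sim, Pi.single_apply, one_apply]
    map_mul' := fun a b => by
      ext i j
      exact Eq.trans (by rw [map_mul]; rfl) (congrFun (mat_sig q a (sig K hη b (K.R.sim j))) i).symm }

theorem phi_val (q : ℕ) (g : NN K F hη) : (phi K hη q g : Matrix _ _ _) = mat K q (sig K hη g) := rfl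

variable (K) in
def Sep (q : ℕ) : Prop := ∀ r s, (∀ i, (K.R.ρ r i : ZMod q) = K.R.ρ s i) → s = r ∨ s = K.R.neg r

theorem mem_T_of_phi {q : ℕ} (hq : Sep K q) {g : NN K F hη} (h : phi K hη q g = 1) {n : ℕ} (hn : Odd n)
    (h1 : g ^ n = 1) : g.1 ∈ (K.full F).T := by
  have h2 : sig K hη g ^ 2 = 1 := by
    ext r : 1
    have h3 := mat_sig q g r
    rw [← phi_val, h, Units.val_one, one_mulVec] at h3
    obtain ⟨w, hw⟩ := sig_W g
    rw [pow_two, Perm.mul_apply, Perm.one_apply]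
    rcases hq r _ (congrFun h3) with e | e
    · rw [e, e]
    · rw [e, hw, RS.inv_neg, ← hw, e, RS.neg_neg']
  exact sig_eq_one.1 ((pow_eq_one_iff_of_coprime (Nat.coprime_two_left.2 hn)).1 ⟨h2, by rw [← map_pow, h1, map_one]⟩)

theorem card_T {H : Type*} [Group H] {f : H →* GL D.Idx F} (hf : Function.Injective f) (hT : ∀ x, f x ∈ (K.full F).T)
    {l : ℕ} [NeZero l] (h : ∀ x : H, x ^ l = 1) : Nat.card H ≤ l ^ D.rank := by
  choose χ hχ using hT
  have h1 : ∀ x i, (χ x).ev (Pi.single i 1) ∈ rootsOfUnity l F := fun x i => by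
    rw [mem_rootsOfUnity, ← Chr.ev_pow, K.h_inj (show K.h (χ x ^ l) = K.h 1 by
      rw [K.h.map_pow, hχ, ← map_pow, h, map_one, map_one]), Chr.ev_one]
  refine (Nat.card_le_card_of_injective (fun x i => (⟨_, h1 x i⟩ : rootsOfUnity l F)) fun x y e => hf ?_).trans ?_
  · rw [← hχ, ← hχ, Chr.ext' fun i => congrArg Subtype.val (congrFun e i)]
  · rw [Nat.card_fun, Nat.card_eq_fintype_card (α := Fin _), Fintype.card_fin]
    exact Nat.pow_le_pow_left (by simpa using card_rootsOfUnity F l) _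

theorem card_N {q : ℕ} (hq : Sep K q) {H : Type*} [Group H] {f : H →* NN K F hη} (hf : Function.Injective f)
    {l : ℕ} (hl : Odd l) (h : ∀ x : H, x ^ l = 1) :
    Nat.card H ≤ Nat.card ((phi K hη q).comp f).range * l ^ D.rank := by
  haveI : NeZero l := ⟨hl.pos.ne'⟩
  rw [Subgroup.card_eq_card_quotient_mul_card_subgroup ((phi K hη q).comp f).ker,
    Nat.card_congr (QuotientGroup.quotientKerEquivRange _).toEquiv]
  exact Nat.mul_le_mul_left _ (card_T (K := K) (f := (Subgroup.subtype _).comp (f.comp (Subgroup.subtype _)))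
    (Subtype.val_injective.comp (hf.comp Subtype.val_injective))
    (fun x => mem_T_of_phi hq x.2 hl ((f.map_pow x l).symm.trans (by rw [h, map_one]))) fun x => Subtype.ext (h x))

theorem card_le_of_exp {G : Type*} [Group G] [Finite G] {l : ℕ} [hl : Fact l.Prime] {Q : Subgroup G}
    (h : ∀ x ∈ Q, x ^ l = 1) {v : ℕ} (hv : ¬ l ^ (v + 1) ∣ Nat.card G) : Nat.card Q ≤ l ^ v := by
  obtain ⟨n, hn⟩ := (isPGroup_of_forall_pow fun x hx => ⟨1, by simpa using h x hx⟩ : IsPGroup l Q).exists_card_eq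
  have := Subgroup.card_subgroup_dvd_card Q
  rw [hn] at this ⊢
  exact Nat.pow_le_pow_right hl.out.pos (not_lt.1 fun h5 => hv ((pow_dvd_pow _ h5).trans this))

theorem card_fix {q : ℕ} [hq : Fact q.Prime] {n l : ℕ} [Fact l.Prime] {M : Matrix (Fin n) (Fin n) (ZMod q)}
    (h : M ^ l = 1) (h1 : M ≠ 1) : ∃ k < n, q ^ k ≡ q ^ n [MOD l] ∧
      (Finset.univ.filter fun v => M *ᵥ v = v).card = q ^ k := by
  let A := (toLin' M - 1).toAddMonoidHom.ker
  have hA : ∀ v, v ∈ A ↔ M *ᵥ v = v := fun v => by simp [A, sub_eq_zero]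
  have h2 := A.card_addSubgroup_dvd_card
  have h3 : Nat.card (Fin n → ZMod q) = q ^ n := by simp
  obtain ⟨k, hk, e⟩ := (Nat.dvd_prime_pow hq.out).1 (h3 ▸ h2)
  have h4 : (Finset.univ.filter fun v => M *ᵥ v = v).card = q ^ k := by
    rw [← e, ← Fintype.card_subtype, ← Nat.card_eq_fintype_card]
    exact Nat.card_congr (Equiv.subtypeEquivRight fun v => (hA v).symm)
  refine ⟨k, lt_of_le_of_ne hk fun h5 => h1 ?_, ?_, h4⟩
  · have := (AddSubgroup.card_eq_iff_eq_top A).1 (by rw [e, h3, h5])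
    exact Matrix.ext_of_mulVec_single fun i => by rw [(hA _).1 (this.ge trivial), one_mulVec]
  · have := Equiv.Perm.card_fixedPoints_modEq (f := fun v => M *ᵥ v) (p := l) (n := 1) (by
      funext v
      change (fun v => M *ᵥ v)^[l ^ 1] v = v
      rw [pow_one]
      have : ∀ j : ℕ, (fun v => M *ᵥ v)^[j] v = (M ^ j) *ᵥ v := fun j => by
        induction j with
        | zero => simp
        | succ j ih => rw [Function.iterate_succ_apply', ih, mulVec_mulVec, _root_.pow_succ']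
      rw [this, h, one_mulVec])
    rw [← h4, ← h3, Nat.card_eq_fintype_card, ← Fintype.card_subtype]
    convert this.symm
    rfl

end
end Cfsg.Agent.Lib.AltSec
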