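import Cfsg.Agent.Lib.Forms.AltMain
import Cfsg.Agent.Lib.Forms.TriAlt
import Cfsg.Agent.Lib.PGroup.Critical
import Cfsg.Agent.Lib.Transfer.Focal

/-! Minimal preimages of alternating groups: reduction lemmas. -/

set_option autoImplicit false
set_option linter.style.haveILetI false

namespace Cfsg.Agent.Lib.AltSec

open Equiv Module Subgroup Cfsg.Agent.Lib.Forms Cfsg.Agent.Lib.Core
open scoped commutatorElement

universe u

variable {Ω : Type} [Fintype Ω] [DecidableEq Ω] {H : Type u} [Group H] {π : H →* Perm Ω}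

structure Min (π : H →* Perm Ω) : Prop extends AS π where
  min : ∀ S : Subgroup H, (∀ σ, Perm.sign σ = 1 → ∃ x ∈ S, π x = σ) → S = ⊤

theorem exists_min [Finite H] (h : AS π) : ∃ S : Subgroup H, Min (π.comp S.subtype) := by
  obtain ⟨S, h1, h2⟩ := (wellFounded_lt (α := Subgroup H)).has_min
    {S | ∀ σ, Perm.sign σ = 1 → ∃ x ∈ S, π x = σ} ⟨⊤, fun σ hσ => (h.surj σ hσ).imp fun x hx => ⟨trivial, hx⟩⟩
  refine ⟨S, ⟨fun σ hσ => (h1 σ hσ).elim fun x hx => ⟨⟨x, hx.1⟩, hx.2⟩, fun x => h.even x, h.card⟩, fun T hT => ?_⟩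
  have h3 : T.map S.subtype = S := eq_of_le_of_not_lt (map_subtype_le T) (h2 _ fun σ hσ =>
    (hT σ hσ).elim fun x hx => ⟨x, mem_map_of_mem _ hx.1, hx.2⟩)
  rw [eq_top_iff]
  intro x _
  obtain ⟨y, hy, e⟩ := h3.ge x.2
  rwa [← Subtype.ext e]

theorem exists_as {K : Subgroup H} [K.Normal] {r m : ℕ} (e : H ⧸ K ≃* alternatingGroup (Fin r)) (hm : m ≤ r)
    (h9 : 9 ≤ m) : ∃ (S : Subgroup H) (π : S →* Perm (Fin m)), AS π := by
  let π0 := (alternatingGroup _).subtype.comp (e.toMonoidHom.comp (QuotientGroup.mk' K))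
  have hπ : Function.Surjective (e.toMonoidHom.comp (QuotientGroup.mk' K)) :=
    e.surjective.comp (QuotientGroup.mk'_surjective K)
  let J := Jp (Fin.castLEEmb hm)
  have hJ : Function.Injective J := Perm.viaEmbeddingHom_injective _
  have surj : ∀ σ : Perm (Fin m), Perm.sign σ = 1 → ∃ g, π0 g = J σ :=
    fun σ hσ => (hπ ⟨_, (sign_Jp _ σ).trans hσ⟩).imp fun _ h => congrArg Subtype.val h
  let π1 : J.range.comap π0 →* Perm (Fin m) := (MonoidHom.ofInjective hJ).symm.toMonoidHom.comp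
    ((π0.comp (Subgroup.subtype _)).codRestrict J.range fun x => x.2)
  have h1 : ∀ x, J (π1 x) = π0 x := fun x => MonoidHom.apply_ofInjective_symm hJ _
  refine ⟨_, π1, fun σ hσ => ?_, fun x => ?_, by simpa⟩
  · obtain ⟨g, hg⟩ := surj σ hσ
    exact ⟨⟨g, σ, hg.symm⟩, hJ ((h1 _).trans hg)⟩
  · rw [← sign_Jp (Fin.castLEEmb hm), h1]; exact (e _).2

theorem exists_min' [Finite H] {K : Subgroup H} [K.Normal] {r m : ℕ} (e : H ⧸ K ≃* alternatingGroup (Fin r))
    (hm : m ≤ r) (h9 : 9 ≤ m) : ∃ (H' : Type u) (_ : Group H') (_ : Finite H') (j : H' →* H)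
      (π : H' →* Perm (Fin m)), Function.Injective j ∧ Min π := by
  obtain ⟨S, π, h⟩ := exists_as e hm h9
  obtain ⟨T, hT⟩ := exists_min h
  exact ⟨T, inferInstance, inferInstance, S.subtype.comp T.subtype, _,
    Subtype.val_injective.comp Subtype.val_injective, hT⟩

theorem Min.normal' (h : Min π) (N : Subgroup H) [N.Normal] : (∀ x ∈ N, π x = 1) ∨ N = ⊤ :=
  (h.toAS.normal N).imp_right (h.min N)

theorem Min.perfect (h : Min π) : ⁅(⊤ : Subgroup H), (⊤ : Subgroup H)⁆ = ⊤ :=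
  (h.normal' _).resolve_left fun h3 => h.not_comm fun _ _ => h3 _ (commutator_mem_commutator trivial trivial)

variable [Finite H] {l : ℕ} [hl : Fact l.Prime]

theorem Min.syl_normal (h : Min π) {R : Subgroup H} (hR : IsSyl l R π.ker) : R.Normal := by
  refine normalizer_eq_top_iff.mp (h.min _ fun σ hσ => ?_)
  obtain ⟨g, rfl⟩ := h.surj σ hσ
  obtain ⟨n, hn, m, hm, rfl⟩ := hR.frattini (normalizer_eq_top_iff.mpr inferInstance).ge (mem_top g)
  exact ⟨m, hm, by rw [map_mul, MonoidHom.mem_ker.mp hn, one_mul]⟩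

theorem elem0 (h : AS π) {A : Type*} [CommGroup A] [Finite A] [Module (ZMod l) (Additive A)] (φ : H →* MulAut A)
    (hφ : ∀ x, φ x = 1 → π x = 1) : l ^ (Fintype.card Ω - 2) ≤ Nat.card A := by
  let σ : H →* End (ZMod l) (Additive A) :=
    { toFun := fun g => (MonoidHom.toAdditive (φ g).toMonoidHom).toZModLinearMap l
      map_one' := by ext v; simp
      map_mul' := fun a b => by ext v; simp }
  have h2 : ∀ x, σ x = 1 → π x = 1 := fun x hx => hφ x (MulEquiv.ext fun a => LinearMap.congr_fun hx (Additive.ofMul a))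
  rw [Nat.card_congr Additive.ofMul, Module.natCard_eq_pow_finrank (K := ZMod l), Nat.card_zmod]
  exact Nat.pow_le_pow_right hl.out.pos ((mainP _).finite l σ rfl h h2).1

theorem elem (h : AS π) {A : Type*} [CommGroup A] [Finite A] (h1 : ∀ a : A, a ^ l = 1) (φ : H →* MulAut A)
    (hφ : ∀ x, φ x = 1 → π x = 1) : l ^ (Fintype.card Ω - 2) ≤ Nat.card A := by
  letI : Module (ZMod l) (Additive A) := AddCommGroup.zmodModule fun a => h1 a.toMul
  exact elem0 h φ hφ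

/-- conjugation action on the abelianization of a normal subgroup -/
def abAut (D : Subgroup H) [D.Normal] : H →* MulAut (Abelianization D) :=
  MonoidHom.mk' (fun g => (MulAut.conjNormal g : MulAut D).abelianizationCongr) fun a b => by
    ext x
    induction x using QuotientGroup.induction_on with | _ x => ?_
    change Abelianization.of _ = Abelianization.of _
    simp

omit hl in
theorem exists_two (h : AS π) : ∃ s, PE 2 s ∧ π s ≠ 1 := by
  obtain ⟨e⟩ : Nonempty (Fin 4 ↪ Ω) := Function.Embedding.nonempty_of_card_le (by have := h.card; simp; omega)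
  obtain ⟨x, hx⟩ := h.surj _ ((sign_Jp e (swap 0 1 * swap 2 3)).trans (by decide))
  obtain ⟨s, -, h1, h2⟩ := exists_PE_lift (π := π) (l := 2) (y := x) (by
    rw [hx, ← map_pow, ← map_one (Jp e)]; exact congrArg _ (by decide))
  refine ⟨s, h2, ?_⟩
  rw [h1, hx, Ne, map_eq_one_iff _ (Perm.viaEmbeddingHom_injective e)]
  decide

omit [Finite H] in
theorem coprime_two (h2 : l ≠ 2) {s : H} (hs : PE 2 s) {M : Type*} [Group M] (f : H →* M) :
    (orderOf (f s)).Coprime l := by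
  obtain ⟨n, hn⟩ := hs
  refine Nat.Coprime.coprime_dvd_left (orderOf_dvd_of_pow_eq_one (n := 2 ^ n) (by rw [← map_pow, hn, map_one])) ?_
  exact Nat.Coprime.pow_left _ ((Nat.coprime_primes Nat.prime_two hl.out).2 h2.symm)

theorem Min.central (h : Min π) (h2 : l ≠ 2)
    (hb : ∀ D : Subgroup H, (∀ x ∈ D, x ^ l = 1) → Nat.card D < l ^ (Fintype.card Ω - 2)) {κ : H} (h1 : π κ = 1)
    (hκ : PE l κ) : κ ∈ center H := by
  obtain ⟨R, hR, h6⟩ := exists_isSyl_ge hκ.isPGroup (zpowers_le.mpr (show κ ∈ π.ker from h1))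
  haveI := h.syl_normal hR
  obtain ⟨D, hD1, hD2, -, hD3⟩ := PGroup.exists_critical_exponent h2 hR.isPGroup
  let D' := D.map R.subtype
  have hD' : ∀ x ∈ D', x ^ l = 1 := by
    rintro _ ⟨x, hx, rfl⟩
    rw [← map_pow, hD2 x hx, map_one]
  have hp : IsPGroup l D' := isPGroup_of_forall_pow fun x hx => ⟨1, by simpa using hD' x hx⟩
  rcases h.normal' (abAut D').ker with h3 | h3
  · have h4 := elem h.toAS (l := l) (A := Abelianization D') (fun a => by
      induction a using QuotientGroup.induction_on with | _ x => ?_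
      change Abelianization.of x ^ l = 1
      rw [← map_pow, show x ^ l = 1 from Subtype.ext (hD' x x.2), map_one]) _ h3
    exact absurd ((hb D' hD').trans_le h4) (not_lt.2 (Nat.card_le_card_of_surjective _ (QuotientGroup.mk_surjective)))
  obtain ⟨s, hs, hs'⟩ := exists_two h.toAS
  have h4 : (MulAut.conjNormal s : MulAut D') = 1 :=
    PGroup.mulAut_eq_one_of_frattini hp (coprime_two h2 hs _) fun x => PGroup.commutator_le_frattini hp
      (QuotientGroup.eq.1 (DFunLike.congr_fun (MonoidHom.mem_ker.1 (h3.ge (mem_top s))) (Abelianization.of x)).symm)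
  have h5 : (MulAut.conjNormal s : MulAut R) = 1 := hD3 _ (coprime_two h2 hs _) fun x hx =>
    Subtype.ext (show s * x * s⁻¹ = x from
      congrArg Subtype.val (DFunLike.congr_fun h4 (⟨x, mem_map_of_mem _ hx⟩ : D')))
  rcases h.normal' (MulAut.conjNormal (H := R)).ker with h7 | h7
  · exact absurd (h7 s h5) hs'
  · refine mem_center_iff.2 fun g => mul_inv_eq_iff_eq_mul.1 ?_
    exact congrArg Subtype.val (DFunLike.congr_fun (MonoidHom.mem_ker.1 (h7.ge (mem_top g))) ⟨κ, h6 (mem_zpowers κ)⟩)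

theorem syl_surj {S : Subgroup (Perm Ω)} (h : AS π) (hS : IsPGroup l S) (hS' : S ≤ alternatingGroup Ω) {P : Subgroup H}
    (hP : IsSyl l P (S.comap π)) {s : Perm Ω} (hs : s ∈ S) : ∃ a ∈ P, π a = s := by
  have h1 := hP.map π
  rw [map_comap_eq_self (fun s hs => h.surj s (hS' hs))] at h1
  exact (h1.eq_of_le hS h1.le le_rfl).le hs

theorem lz {S : Subgroup (Perm Ω)} (h : AS π) (hS : IsPGroup l S) (hS' : S ≤ alternatingGroup Ω) {P : Subgroup H}
    (hP : IsSyl l P (S.comap π)) {σ : Perm Ω} (hσ : Perm.sign σ = 1) :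
    ∃ g, π g = σ ∧ ∀ a ∈ P, σ * π a * σ⁻¹ ∈ S → g * a * g⁻¹ ∈ P := by
  obtain ⟨g, rfl⟩ := h.surj σ hσ
  obtain ⟨k, hk, h1⟩ := hP.exists_conj_le (Q := (P ⊓ (S.comap π).comap (MulAut.conj g).toMonoidHom).map
    (MulAut.conj g).toMonoidHom) ((hP.isPGroup.to_inf_left).map _) (by rintro _ ⟨a, ha, rfl⟩; exact ha.2)
  obtain ⟨p, hp, h2⟩ := syl_surj h hS hS' hP hk
  refine ⟨p⁻¹ * k * g, by simp [h2], fun a ha h3 => ?_⟩
  have := h1 (mem_map_of_mem _ (mem_map_of_mem _ (show a ∈ _ from ⟨ha, by simpa using h3⟩)))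
  simpa [mul_assoc] using mul_mem (mul_mem (inv_mem hp) this) hp

/-- fusion-preserving lift of an `l`-subgroup -/
structure Fus (π : H →* Perm Ω) (S : Subgroup (Perm Ω)) (x : Perm Ω → H) : Prop where
  pi : ∀ s ∈ S, π (x s) = s
  mul : ∀ s ∈ S, ∀ t ∈ S, x (s * t) = x s * x t
  conj : ∀ σ, Perm.sign σ = 1 → ∃ g, π g = σ ∧ ∀ s ∈ S, σ * s * σ⁻¹ ∈ S → g * x s * g⁻¹ = x (σ * s * σ⁻¹)

theorem exists_fus {S : Subgroup (Perm Ω)} (h : AS π) (hS : IsPGroup l S) (hS' : S ≤ alternatingGroup Ω)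
    (hK : ∀ κ, π κ = 1 → PE l κ → κ = 1) : ∃ x, Fus π S x := by
  obtain ⟨P, hP⟩ := exists_isSyl l (S.comap π)
  choose! x h1 h2 using fun s (hs : s ∈ S) => syl_surj h hS hS' hP hs
  have inj : ∀ a ∈ P, ∀ b ∈ P, π a = π b → a = b := fun a ha b hb e =>
    mul_inv_eq_one.1 (hK _ (by simp [e]) (PE.of_mem hP.isPGroup (mul_mem ha (inv_mem hb))))
  refine ⟨x, h2, fun s hs t ht => inj _ (h1 _ (mul_mem hs ht)) _ (mul_mem (h1 s hs) (h1 t ht))
    (by rw [map_mul, h2 s hs, h2 t ht, h2 _ (mul_mem hs ht)]), fun σ hσ => ?_⟩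
  obtain ⟨g, h3, h4⟩ := lz h hS hS' hP hσ
  exact ⟨g, h3, fun s hs hs' => inj _ (h4 _ (h1 s hs) (by rwa [h2 s hs])) _ (h1 _ hs')
    (by rw [h2 _ hs', map_mul, map_mul, map_inv, h2 s hs, h3])⟩

section
omit [Finite H] hl
variable {S : Subgroup (Perm Ω)} {x : Perm Ω → H}

theorem Fus.one (h : Fus π S x) : x 1 = 1 := by simpa using h.mul 1 (one_mem _) 1 (one_mem _)

/-- the lift as a homomorphism -/
def Fus.hom (h : Fus π S x) : S →* H := MonoidHom.mk' (fun s => x s) fun s t => h.mul _ s.2 _ t.2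

theorem Fus.pow (h : Fus π S x) {s : Perm Ω} (hs : s ∈ S) (n : ℕ) : x (s ^ n) = x s ^ n :=
  h.hom.map_pow ⟨s, hs⟩ n

theorem Fus.inv (h : Fus π S x) {s : Perm Ω} (hs : s ∈ S) : x s⁻¹ = (x s)⁻¹ := h.hom.map_inv ⟨s, hs⟩

theorem Fus.comm (h : Fus π S x) {s t : Perm Ω} (hs : s ∈ S) (ht : t ∈ S) (e : s * t = t * s) :
    Commute (x s) (x t) := by rw [Commute, SemiconjBy, ← h.mul s hs t ht, e, h.mul t ht s hs]

theorem Fus.map (h : Fus π S x) {H' : Type u} [Group H'] {π' : H' →* Perm Ω} (f : H →* H') (hf : ∀ g, π' (f g) = π g) :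
    Fus π' S fun s => f (x s) :=
  ⟨fun s hs => (hf _).trans (h.pi s hs), fun s hs t ht => by rw [h.mul s hs t ht, map_mul], fun σ hσ =>
    (h.conj σ hσ).elim fun g hg => ⟨f g, (hf g).trans hg.1, fun s hs hs' => by
      rw [← hg.2 s hs hs', map_mul, map_mul, map_inv]⟩⟩

end

omit [Fintype Ω] [DecidableEq Ω] [Finite H] in
theorem comm_of_pow (hZ : ∀ κ, π κ = 1 → PE l κ → κ ∈ center H) {P : Subgroup H} (hP : IsPGroup l P) {a b g : H}
    (ha : a ∈ P) (hb : b ∈ P) (ha' : g * a * g⁻¹ ∈ P) (hb' : g * b * g⁻¹ ∈ P) (h0 : π a * π b = π b * π a) {j : ℕ}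
    (hj : j.Coprime l) (h1 : π g * π a * (π g)⁻¹ = π a ^ (j + 1)) (h2 : π g * π b * (π g)⁻¹ = π b) : Commute a b := by
  have hz : a * b * a⁻¹ * b⁻¹ ∈ P := mul_mem (mul_mem (mul_mem ha hb) (inv_mem ha)) (inv_mem hb)
  have z1 := mem_center_iff.1 (hZ _ (by simp [h0]) (PE.of_mem hP hz))
  have z2 := mem_center_iff.1 (hZ (g * a * g⁻¹ * (a ^ (j + 1))⁻¹) (by simp [h1])
    (PE.of_mem hP (mul_mem ha' (inv_mem (pow_mem ha _)))))
  have z3 := mem_center_iff.1 (hZ (g * b * g⁻¹ * b⁻¹) (by simp [h2]) (PE.of_mem hP (mul_mem hb' (inv_mem hb))))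
  obtain ⟨n, hn⟩ := PE.of_mem hP hz
  have e0 : a * b = (a * b * a⁻¹ * b⁻¹) * (b * a) := by group
  have e1 : g * a * g⁻¹ = (g * a * g⁻¹ * (a ^ (j + 1))⁻¹) * a ^ (j + 1) := by group
  have e2 : g * b * g⁻¹ = (g * b * g⁻¹ * b⁻¹) * b := by group
  generalize a * b * a⁻¹ * b⁻¹ = z at z1 hn e0
  generalize g * a * g⁻¹ * (a ^ (j + 1))⁻¹ = r at z2 e1
  generalize g * b * g⁻¹ * b⁻¹ = r' at z3 e2
  have e3 : ∀ n : ℕ, a ^ n * b = z ^ n * (b * a ^ n) := fun n => by
    induction n with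
    | zero => simp
    | succ n ih =>
      calc a ^ (n + 1) * b = a ^ n * (a * b) := by rw [pow_succ, mul_assoc]
        _ = z * (a ^ n * b) * a := by rw [e0, ← mul_assoc, z1]; group
        _ = _ := by rw [ih]; group
  have e4 : (g * a * g⁻¹) * (g * b * g⁻¹) = z * ((g * b * g⁻¹) * (g * a * g⁻¹)) := by
    calc _ = g * (a * b) * g⁻¹ := by group
      _ = _ := by rw [e0, ← mul_assoc g, z1]; group
  rw [e1, e2] at e4
  have e5 : r * r' * (a ^ (j + 1) * b) = r * r' * (z * (b * a ^ (j + 1))) := by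
    calc _ = r * (a ^ (j + 1) * r') * b := by rw [z3 (a ^ (j + 1))]; group
      _ = z * r' * (b * r) * a ^ (j + 1) := by rw [show r * (a ^ (j + 1) * r') * b = r * a ^ (j + 1) * (r' * b) by group, e4]; group
      _ = (z * r' * r) * (b * a ^ (j + 1)) := by rw [z2]; group
      _ = _ := by rw [z2, z3 z]; group
  rw [mul_right_inj, e3, mul_left_inj, pow_succ, mul_eq_right] at e5
  rw [(pow_eq_one_iff_of_coprime (hj.pow_right n)).1 ⟨e5, hn⟩, one_mul] at e0
  exact e0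

theorem Min.ker_triv (h : Min π) (h2 : l ≠ 2) (hZ : ∀ κ, π κ = 1 → PE l κ → κ ∈ center H) {α β : Type} {c : α → Perm Ω}
    {y : β → Perm Ω} (hS : IsSyl l (closure (Set.range c ∪ Set.range y)) (alternatingGroup Ω)) {j : ℕ}
    (hj : j.Coprime l)
    (hc : ∀ i i', c i * c i' = c i' * c i ∧ (i = i' ∨ ∃ σ, Perm.sign σ = 1 ∧ σ * c i * σ⁻¹ = c i ^ (j + 1) ∧
      σ * c i' * σ⁻¹ = c i'))
    (hy : ∀ i i', y i * y i' = y i' * y i ∧ (i = i' ∨ ∃ σ, Perm.sign σ = 1 ∧ σ * y i * σ⁻¹ = y i ^ (j + 1) ∧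
      σ * y i' * σ⁻¹ = y i'))
    (hcy : ∀ i k, ∃ i', y k * c i * (y k)⁻¹ = c i') {ι : Perm Ω} (hι : Perm.sign ι = 1)
    (h3 : ∀ i, ι * c i * ι⁻¹ = (c i)⁻¹) (h4 : ∀ k, ι * y k * ι⁻¹ = y k) {κ : H} (h1 : π κ = 1) (hκ : PE l κ) :
    κ = 1 := by
  set S := closure (Set.range c ∪ Set.range y)
  have hc' : ∀ i, c i ∈ S := fun i => subset_closure (Or.inl ⟨i, rfl⟩)
  have hy' : ∀ i, y i ∈ S := fun i => subset_closure (Or.inr ⟨i, rfl⟩)
  obtain ⟨P, hP, hκP⟩ := exists_isSyl_ge (H := S.comap π) hκ.isPGroup (zpowers_le.2 (by simp [h1]))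
  have cm : ∀ a ∈ P, ∀ b ∈ P, π a * π b = π b * π a → (∃ σ, Perm.sign σ = 1 ∧ σ * π a * σ⁻¹ = π a ^ (j + 1) ∧
      σ * π b * σ⁻¹ = π b) → Commute a b := by
    rintro a ha b hb e ⟨σ, e1, e2, e3⟩
    obtain ⟨g, rfl, h5⟩ := lz h.toAS hS.isPGroup hS.le hP e1
    exact comm_of_pow hZ hP.isPGroup ha hb (h5 a ha (e2 ▸ pow_mem (show π a ∈ S from hP.le ha) _)) (h5 b hb (e3.symm ▸ hP.le hb)) e hj e2 e3
  have sq : ∀ r ∈ P, r * r = 1 → r = 1 := fun r hr e => by
    obtain ⟨n, hn⟩ := PE.of_mem hP.isPGroup hr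
    exact (pow_eq_one_iff_of_coprime (((Nat.coprime_primes Nat.prime_two hl.out).2 h2.symm).pow_right n)).1
      ⟨by rwa [pow_two], hn⟩
  have cen : ∀ r ∈ P, π r = 1 → ∀ g, g * r = r * g := fun r hr e =>
    mem_center_iff.1 (hZ r e (PE.of_mem hP.isPGroup hr))
  obtain ⟨t, ht, ht'⟩ := lz h.toAS hS.isPGroup hS.le hP hι
  have ha : ∀ i, ∃ a ∈ P, π a = c i ∧ t * a * t⁻¹ = a⁻¹ := fun i => by
    obtain ⟨a, h5, h6⟩ := syl_surj h.toAS hS.isPGroup hS.le hP (hc' i)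
    have h7 := mul_mem (ht' a h5 (by rw [h6, h3]; exact inv_mem (hc' i))) h5
    have h8 : π (t * a * t⁻¹ * a) = 1 := by simp [ht, h6, h3]
    obtain ⟨n, hn⟩ := PE.of_mem hP.isPGroup h7
    obtain ⟨m, hm⟩ : Odd (l ^ n) := (hl.out.odd_of_ne_two h2).pow
    have e : t * a * t⁻¹ = (t * a * t⁻¹ * a) * a⁻¹ := by group
    generalize t * a * t⁻¹ * a = r at h7 h8 hn e
    have h9 := cen _ (pow_mem h7 m) (by rw [map_pow, h8, one_pow])
    refine ⟨a * r ^ m, mul_mem h5 (pow_mem h7 m), by rw [map_mul, map_pow, h8, h6, one_pow, mul_one], ?_⟩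
    calc t * (a * r ^ m) * t⁻¹ = t * a * t⁻¹ * r ^ m := by rw [mul_assoc (t * a) t⁻¹, h9 t⁻¹]; group
      _ = (r ^ m)⁻¹ * r ^ (2 * m + 1) * a⁻¹ := by rw [e, mul_assoc r, h9]; group
      _ = _ := by rw [← hm, hn]; group
  choose a a1 a2 a3 using ha
  choose b b1 b2 using fun k => syl_surj h.toAS hS.isPGroup hS.le hP (hy' k)
  have aa : ∀ i i', Commute (a i) (a i') := fun i i' => (hc i i').2.elim (fun e => e ▸ Commute.refl _) fun e =>
    cm _ (a1 i) _ (a1 i') (by rw [a2, a2, (hc i i').1]) (by rwa [a2, a2])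
  have bb : ∀ i i', Commute (b i) (b i') := fun i i' => (hy i i').2.elim (fun e => e ▸ Commute.refl _) fun e =>
    cm _ (b1 i) _ (b1 i') (by rw [b2, b2, (hy i i').1]) (by rwa [b2, b2])
  let I := closure (Set.range a)
  have IP : I ≤ P := (closure_le _).2 (by rintro _ ⟨i, rfl⟩; exact a1 i)
  have I1 : ∀ u ∈ I, ∀ i, Commute u (a i) := fun u hu i => closure_induction (by rintro _ ⟨i', rfl⟩; exact aa _ _)
    (Commute.one_left _) (fun _ _ _ _ => Commute.mul_left) (fun _ _ => Commute.inv_left) hu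
  have I2 : ∀ u ∈ I, ∀ v ∈ I, Commute u v := fun u hu v hv => closure_induction (by rintro _ ⟨i', rfl⟩; exact I1 u hu _)
    (Commute.one_right _) (fun _ _ _ _ => Commute.mul_right) (fun _ _ => Commute.inv_right) hv
  have I3 : ∀ u ∈ I, t * u * t⁻¹ = u⁻¹ := fun u hu => closure_induction (p := fun u _ => t * u * t⁻¹ = u⁻¹)
    (by rintro _ ⟨i, rfl⟩; exact a3 i) (by simp) (fun u v hu hv e e' => by
      rw [← conj_mul, e, e', mul_inv_rev, (I2 u hu v hv).inv_inv.eq]) (fun u _ e => by rw [← conj_inv, e]) hu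
  have ba : ∀ k i, b k * a i * (b k)⁻¹ ∈ I := fun k i => by
    obtain ⟨i', e⟩ := hcy i k
    have r1 := mul_mem (mul_mem (mul_mem (b1 k) (a1 i)) (inv_mem (b1 k))) (inv_mem (a1 i'))
    have r2 := cen _ r1 (by simp [a2, b2, e])
    have r3 := cen _ (mul_mem (ht' _ (b1 k) (by rw [b2, h4]; exact hy' k)) (inv_mem (b1 k))) (by simp [b2, ht, h4])
    have e1 : b k * a i * (b k)⁻¹ = (b k * a i * (b k)⁻¹ * (a i')⁻¹) * a i' := by group
    have e2 : t * b k * t⁻¹ = (t * b k * t⁻¹ * (b k)⁻¹) * b k := by group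
    generalize b k * a i * (b k)⁻¹ * (a i')⁻¹ = r at r1 r2 e1
    generalize t * b k * t⁻¹ * (b k)⁻¹ = r' at r3 e2
    have e3 : (r * a i')⁻¹ = r * (a i')⁻¹ := by
      calc _ = r' * (b k * (a i)⁻¹ * (b k)⁻¹) * r'⁻¹ := by rw [← r3, ← e1]; group
        _ = (t * b k * t⁻¹) * (t * a i * t⁻¹) * (t * b k * t⁻¹)⁻¹ := by rw [e2, a3]; group
        _ = t * (r * a i') * t⁻¹ := by rw [← e1]; group
        _ = _ := by rw [← mul_assoc, r2, ← a3]; group
    rw [e1, sq r r1 (by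
      rw [← r2, mul_inv_rev, mul_left_inj] at e3; rw [← mul_eq_one_iff_inv_eq] at e3; exact e3), one_mul]
    exact subset_closure ⟨i', rfl⟩
  let N := normalizer (I : Set H)
  let T : Set H := Set.range a ∪ Set.range b ∪ {r | r ∈ P ∧ π r = 1}
  have TN : closure T ≤ N := (closure_le _).2 (by
    rintro _ ((⟨i, rfl⟩ | ⟨k, rfl⟩) | hr)
    · exact le_normalizer (subset_closure ⟨i, rfl⟩)
    · exact mem_normalizer_fintype fun u hu => closure_induction (p := fun u _ => b k * u * (b k)⁻¹ ∈ I)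
        (by rintro _ ⟨i, rfl⟩; exact ba k i) (by simp) (fun u v _ _ e e' => by rw [← conj_mul]; exact mul_mem e e')
        (fun u _ e => by rw [← conj_inv]; exact inv_mem e) hu
    · exact mem_normalizer_fintype fun u hu => by rwa [← cen _ hr.1 hr.2, mul_inv_cancel_right])
  have PT : P ≤ closure T := fun p hp => by
    have : S ≤ (closure T ⊓ P).map π := (closure_le _).2 (by
      rintro _ (⟨i, rfl⟩ | ⟨k, rfl⟩)
      exacts [⟨_, ⟨subset_closure (Or.inl (Or.inl ⟨i, rfl⟩)), a1 i⟩, a2 i⟩,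
        ⟨_, ⟨subset_closure (Or.inl (Or.inr ⟨k, rfl⟩)), b1 k⟩, b2 k⟩])
    obtain ⟨q, hq, e⟩ := this (hP.le hp)
    rw [← mul_inv_cancel_left q p]
    exact mul_mem hq.1 (subset_closure (Or.inr ⟨mul_mem (inv_mem hq.2) hp, by simp [e]⟩))
  have cj : ∀ p ∈ closure T, ∀ u ∈ I, p * u * p⁻¹ ∈ I := fun p hp u hu => (mem_normalizer_iff.1 (TN hp) u).1 hu
  have C1 : ∀ p ∈ closure T, ∀ q ∈ T, ⁅p, q⁆ ∈ I := fun p hp q hq => by
    refine closure_induction (p := fun p _ => ⁅p, q⁆ ∈ I) ?_ (by simp) (fun u v hu _ e e' => ?_) (fun u hu e => ?_) hp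
    · rintro p ((⟨i, rfl⟩ | ⟨k, rfl⟩) | hr)
      · rw [commutatorElement_def, mul_assoc, mul_assoc, ← mul_assoc q]
        exact mul_mem (subset_closure ⟨i, rfl⟩) (cj _ (subset_closure hq) _ (inv_mem (subset_closure ⟨i, rfl⟩)))
      · rcases hq with (⟨i, rfl⟩ | ⟨k', rfl⟩) | hr
        · exact mul_mem (ba k i) (inv_mem (subset_closure ⟨i, rfl⟩))
        · rw [(bb k k').commutator_eq]; exact one_mem _
        · rw [Commute.commutator_eq (cen _ hr.1 hr.2 _)]; exact one_mem _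
      · rw [Commute.commutator_eq (cen _ hr.1 hr.2 _).symm]; exact one_mem _
    · rw [show ⁅u * v, q⁆ = u * ⁅v, q⁆ * u⁻¹ * ⁅u, q⁆ by simp only [commutatorElement_def]; group]
      exact mul_mem (cj u hu _ e') e
    · rw [show ⁅u⁻¹, q⁆ = u⁻¹ * ⁅u, q⁆⁻¹ * u⁻¹⁻¹ by simp only [commutatorElement_def]; group]
      exact cj _ (inv_mem hu) _ (inv_mem e)
  have C2 : ⁅P, P⁆ ≤ I := commutator_le.2 fun p hp q hq => by
    refine closure_induction (p := fun q _ => ⁅p, q⁆ ∈ I) (C1 p (PT hp)) (by simp) (fun u v hu _ e e' => ?_)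
      (fun u hu e => ?_) (PT hq)
    · rw [show ⁅p, u * v⁆ = ⁅p, u⁆ * (u * ⁅p, v⁆ * u⁻¹) by simp only [commutatorElement_def]; group]
      exact mul_mem e (cj u hu _ e')
    · rw [show ⁅p, u⁻¹⁆ = u⁻¹ * ⁅p, u⁆⁻¹ * u⁻¹⁻¹ by simp only [commutatorElement_def]; group]
      exact cj _ (inv_mem hu) _ (inv_mem e)
  have hP' : IsSyl l P ⊤ := hP.trans le_top (by
    obtain ⟨Q, hQ, h5⟩ := exists_isSyl_ge hP.isPGroup le_top
    have h6 : Q.map π = S := hS.eq_of_le (hQ.isPGroup.map π) (fun s hs => by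
      obtain ⟨a, h7, h8⟩ := syl_surj h.toAS hS.isPGroup hS.le hP hs
      exact ⟨a, h5 h7, h8⟩) (by rintro _ ⟨q, -, rfl⟩; exact h.even q)
    exact hQ.not_dvd_relIndex fun q hq => h6.le (mem_map_of_mem _ hq))
  obtain ⟨Q, rfl⟩ := hP'.exists_sylow_top
  have h5 := C2 (Transfer.hall_inf_commutator_inf_center_le Q.card_coprime_index
    (show κ ∈ _ from ⟨⟨hκP (mem_zpowers κ), h.perfect.ge trivial⟩, hZ κ h1 hκ⟩))
  have h6 := I3 κ h5
  rw [cen κ (hκP (mem_zpowers κ)) h1, mul_inv_cancel_right] at h6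
  exact sq κ (hκP (mem_zpowers κ)) (by nth_rw 2 [h6]; simp)

omit [Finite H] [DecidableEq Ω] in
theorem pow_le_card {S : Subgroup (Perm Ω)} (hS : IsPGroup l S) {k : ℕ} (g : Fin k → Perm Ω) (hg : ∀ i, g i ∈ S)
    (A : Fin k → Ω → Bool) (h1 : ∀ i j, j < i → ∀ a, A i (g j a) = A i a) (h2 : ∀ i, ∃ a, A i (g i a) ≠ A i a) :
    l ^ k ≤ Nat.card S := by
  let T : ℕ → Subgroup (Perm Ω) := fun n => closure (g '' {j | j.val < n})
  have hT : ∀ n, T n ≤ S := fun n => (closure_le _).2 (by rintro _ ⟨j, -, rfl⟩; exact hg j)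
  have key : ∀ n ≤ k, l ^ n ≤ Nat.card (T n) := fun n hn => by
    induction n with
    | zero => exact Nat.card_pos
    | succ n ih =>
      have h3 : T n < T (n + 1) := lt_of_le_of_ne (closure_mono (Set.image_mono fun j hj => Nat.lt_succ_of_lt hj))
        fun e => by
          have h4 : g ⟨n, hn⟩ ∈ T n := e.ge (subset_closure ⟨_, Nat.lt_succ_self n, rfl⟩)
          obtain ⟨a, ha⟩ := h2 ⟨n, hn⟩
          refine ha (closure_induction (p := fun σ _ => ∀ a, A ⟨n, hn⟩ (σ a) = A ⟨n, hn⟩ a) ?_ (fun _ => rfl)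
            (fun σ τ _ _ e e' a => by rw [Perm.mul_apply, e, e']) (fun σ _ e a => by rw [← e]; simp) h4 a)
          rintro _ ⟨j, hj, rfl⟩
          exact h1 _ j hj
      obtain ⟨a, ha⟩ := (hS.to_le (hT n)).exists_card_eq
      obtain ⟨b, hb⟩ := (hS.to_le (hT (n + 1))).exists_card_eq
      have h4 := Set.Finite.card_lt_card (Set.toFinite _) (SetLike.coe_ssubset_coe.2 h3)
      have h5 := ih (by omega)
      change Nat.card (T n) < Nat.card (T (n + 1)) at h4
      rw [ha, hb, Nat.pow_lt_pow_iff_right hl.out.one_lt] at h4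
      rw [ha, Nat.pow_le_pow_iff_right hl.out.one_lt] at h5
      rw [hb]
      exact Nat.pow_le_pow_right hl.out.pos (by omega)
  exact (key k le_rfl).trans (card_le_of_le (hT k))

omit [Finite H] in
theorem isSyl_of_le {S : Subgroup (Perm Ω)} (hS : IsPGroup l S) (hS' : S ≤ alternatingGroup Ω) {k : ℕ}
    (h1 : l ^ k ≤ Nat.card S) (h2 : ¬ l ^ (k + 1) ∣ (Fintype.card Ω).factorial) : IsSyl l S (alternatingGroup Ω) := by
  refine isSyl_of_maximal hS' hS fun Q hQ h3 _ => (eq_of_le_of_card_ge h3 ?_).symm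
  obtain ⟨n, hn⟩ := hQ.exists_card_eq
  have h4 := card_subgroup_dvd_card Q
  rw [Nat.card_perm, Nat.card_eq_fintype_card (α := Ω), hn] at h4
  exact hn ▸ (Nat.pow_le_pow_right hl.out.pos (not_lt.1 fun h5 => h2 ((pow_dvd_pow _ h5).trans h4))).trans h1

omit [Finite H] hl [Fintype Ω] [DecidableEq Ω] in
theorem isPGroup_closure {G α : Type*} [Group G] {c : α → G} (h1 : ∀ i j, c i * c j = c j * c i)
    (h2 : ∀ i, c i ^ l = 1) : IsPGroup l (closure (Set.range c)) := by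
  have I1 : ∀ u ∈ closure (Set.range c), ∀ i, Commute u (c i) := fun u hu i =>
    closure_induction (by rintro _ ⟨i', rfl⟩; exact h1 _ _)
    (Commute.one_left _) (fun _ _ _ _ => Commute.mul_left) (fun _ _ => Commute.inv_left) hu
  have I2 : ∀ u ∈ closure (Set.range c), ∀ v ∈ closure (Set.range c), Commute u v := fun u hu v hv =>
    closure_induction (by rintro _ ⟨i', rfl⟩; exact I1 u hu _)
    (Commute.one_right _) (fun _ _ _ _ => Commute.mul_right) (fun _ _ => Commute.inv_right) hv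
  exact isPGroup_of_forall_pow fun x hx => ⟨1, closure_induction (p := fun x _ => x ^ l ^ 1 = 1)
    (by rintro _ ⟨i, rfl⟩; simpa using h2 i) (one_pow _)
    (fun u v hu hv e e' => by rw [(I2 u hu v hv).mul_pow, e, e', one_mul]) (fun u _ e => by rw [inv_pow, e, inv_one]) hx⟩

omit [Finite H] hl in
theorem isPGroup_closure₂ {α β : Type} {c : α → Perm Ω} {y : β → Perm Ω} (h1 : ∀ i j, c i * c j = c j * c i)
    (h2 : ∀ i, c i ^ l = 1) (h3 : ∀ i j, y i * y j = y j * y i) (h4 : ∀ i, y i ^ l = 1)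
    (h5 : ∀ i k, ∃ i', y k * c i * (y k)⁻¹ = c i') : IsPGroup l (closure (Set.range c ∪ Set.range y)) := by
  rw [Subgroup.closure_union, sup_comm]
  refine isPGroup_sup_of_le_normalizer (isPGroup_closure h3 h4) (isPGroup_closure h1 h2) ((closure_le _).2 ?_)
  rintro _ ⟨k, rfl⟩
  exact mem_normalizer_fintype fun u hu => closure_induction (p := fun u _ => y k * u * (y k)⁻¹ ∈ closure (Set.range c))
    (by rintro _ ⟨i, rfl⟩; exact (h5 i k).elim fun i' e => subset_closure ⟨i', e.symm⟩) (by simp)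
    (fun u v _ _ e e' => by rw [← conj_mul]; exact mul_mem e e') (fun u _ e => by rw [← conj_inv]; exact inv_mem e) hu

end Cfsg.Agent.Lib.AltSec
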