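import Cfsg.Agent.Lib.AltSec.Wt

/-! Weight multiplicities for the lift of `3^n ≤ A_{3n}`. -/

set_option autoImplicit false
set_option linter.style.haveILetI false
set_option linter.unusedSectionVars false

namespace Cfsg.Agent.Lib.AltSec

open Equiv Module Cfsg.Agent.Lib.Forms Matrix Cfsg.Agent.Lib.Core

universe u
variable {k V ι : Type*} [Field k] [AddCommGroup V] [Module k V] [Fintype ι] [DecidableEq ι] [FiniteDimensional k V]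

section
variable {H : Type*} [Group H] {ρ : H →* End k V} {ω : k} {xx : (ι → Z3) → H}

theorem Wt_conj_eq {g : H} {M : (ι → Z3) → ι → Z3} (hM : Function.Bijective M) (h : ∀ a, g * xx a * g⁻¹ = xx (M a))
    {l l' : ι → Z3} (h' : ∀ a, M a ⬝ᵥ l' = a ⬝ᵥ l) : finrank k (Wt ρ ω xx l') = finrank k (Wt ρ ω xx l) :=
  le_antisymm (finrank_le_conj g⁻¹ fun v hv => mem_Wt.2 fun a => by
    rw [← h', ← map_smul, ← mem_Wt.1 hv, ← h, ← rho_mul, ← rho_mul]; congr 2; group)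
    (finrank_le_conj g fun _ => Wt_conj hM h h')

theorem sum_sz' {m : (ι → Z3) → ℕ} {M : ℕ → ℕ} (h : ∀ l, m l = M (sz l)) (p : (ι → Z3) → Prop) [DecidablePred p]
    {n : ℕ} (hn : Fintype.card ι + 1 = n) (c : Fin n → ℕ)
    (hc : ∀ s, (Finset.univ.filter fun l => p l ∧ sz l = s.val).card = c s) :
    ∑ l, (if p l then m l else 0) = ∑ s, c s * M s := by
  subst hn; exact sum_sz h p c hc

variable (hω : IsPrimitiveRoot ω 3) (hx : ∀ a b, xx (a + b) = xx a * xx b)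
include hω hx

theorem yr2 {κ : Type*} [Fintype κ] (b : κ → ι → Z3) (μ : κ → Z3) {r : ι → Z3} {y h : H} {M : (ι → Z3) → ι → Z3}
    (hM : Function.Bijective M) (hM' : ∀ a l, M a ⬝ᵥ M l = a ⬝ᵥ l) (hy : ∀ a, y * xx a * y⁻¹ = xx (M a))
    (h1 : h * xx r * h⁻¹ = y) (h2 : ∀ j, h * xx (b j) * h⁻¹ = xx (b j)) (h3 : ∀ l, M (M (M l)) = l)
    (h4 : ∀ j, M (b j) = b j) (cd : (ι → Z3) → ℕ) (q : (ι → Z3) → Prop) [DecidablePred q] (G : (ι → Z3) → ℕ)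
    (hG : ∀ l, (∀ j, b j ⬝ᵥ l = μ j) → M l = l → finrank k ↥(Eg ρ ω y 1 ⊓ Wt ρ ω xx l) ≤ if q l then G l else 0) :
    ∑ l, (if (∀ j, b j ⬝ᵥ l = μ j) ∧ r ⬝ᵥ l = 1 then finrank k (Wt ρ ω xx l) else 0) ≤
      ∑ l, (if (∀ j, b j ⬝ᵥ l = μ j) ∧ cd l ≤ cd (M l) ∧ cd l ≤ cd (M (M l)) ∧ M l ≠ l then finrank k (Wt ρ ω xx l)
        else 0) + ∑ l, if (∀ j, b j ⬝ᵥ l = μ j) ∧ M l = l ∧ q l then G l else 0 := by
  refine (yr hω hx b μ hM hM' hy h1 h2 (fun l => (∀ j, b j ⬝ᵥ l = μ j) ∧ cd l ≤ cd (M l) ∧ cd l ≤ cd (M (M l)))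
    fun l hl => ?_).trans ?_
  · have h5 : ∀ l, (∀ j, b j ⬝ᵥ l = μ j) → ∀ j, b j ⬝ᵥ M l = μ j := fun l hl j => by rw [← h4, hM', hl]
    by_cases h6 : cd l ≤ cd (M l) ∧ cd l ≤ cd (M (M l))
    · exact ⟨l, ⟨hl, h6⟩, Or.inl rfl⟩
    by_cases h7 : cd (M l) ≤ cd (M (M l)) ∧ cd (M l) ≤ cd l
    · exact ⟨M l, ⟨h5 l hl, by rwa [h3]⟩, Or.inr (Or.inr (h3 l).symm)⟩
    · exact ⟨M (M l), ⟨h5 _ (h5 l hl), by rw [h3]; omega⟩, Or.inr (Or.inl (h3 l).symm)⟩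
  · rw [← Finset.sum_add_distrib]
    refine Finset.sum_le_sum fun l _ => ?_
    by_cases h5 : ∀ j, b j ⬝ᵥ l = μ j
    · by_cases h6 : M l = l
      · simpa [h5, h6] using hG l h5 h6
      · simp [h5, h6]
    · simp [h5]

theorem yr3 {κ : Type*} [Fintype κ] (b : κ → ι → Z3) (μ : κ → Z3) (r : ι → Z3) {y h : H} (M : (ι → Z3) → ι → Z3)
    (hM : Function.Bijective M) (hM' : ∀ a l, M a ⬝ᵥ M l = a ⬝ᵥ l) (hy : ∀ a, y * xx a * y⁻¹ = xx (M a))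
    (h1 : h * xx r * h⁻¹ = y) (h2 : ∀ j, h * xx (b j) * h⁻¹ = xx (b j)) (h3 : ∀ l, M (M (M l)) = l)
    (h4 : ∀ j, M (b j) = b j) (cd : (ι → Z3) → ℕ) (q : (ι → Z3) → Prop) [DecidablePred q] {m G : ℕ → ℕ}
    (hm : ∀ l, finrank k (Wt ρ ω xx l) = m (sz l))
    (hG : ∀ l, (∀ j, b j ⬝ᵥ l = μ j) → M l = l → finrank k ↥(Eg ρ ω y 1 ⊓ Wt ρ ω xx l) ≤ if q l then G (sz l) else 0)
    {n : ℕ} (hn : Fintype.card ι + 1 = n) (c1 c2 c3 : Fin n → ℕ)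
    (e1 : ∀ s, (Finset.univ.filter fun l => ((∀ j, b j ⬝ᵥ l = μ j) ∧ r ⬝ᵥ l = 1) ∧ sz l = s.val).card = c1 s)
    (e2 : ∀ s, (Finset.univ.filter fun l => ((∀ j, b j ⬝ᵥ l = μ j) ∧ cd l ≤ cd (M l) ∧ cd l ≤ cd (M (M l)) ∧ M l ≠ l) ∧
      sz l = s.val).card = c2 s)
    (e3 : ∀ s, (Finset.univ.filter fun l => ((∀ j, b j ⬝ᵥ l = μ j) ∧ M l = l ∧ q l) ∧ sz l = s.val).card = c3 s) :
    ∑ s, c1 s * m s ≤ ∑ s, c2 s * m s + ∑ s, c3 s * G s := by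
  rw [← sum_sz' hm _ hn c1 e1, ← sum_sz' hm _ hn c2 e2, ← sum_sz' (M := G) (fun _ => rfl) _ hn c3 e3]
  exact yr2 hω hx b μ hM hM' hy h1 h2 h3 h4 cd q _ hG

/-- four conjugate weights -/
theorem four {U : Submodule k V} (hU : finrank k U ≤ 3) (h1 : ∀ a, ∀ v ∈ U, ρ (xx a) v ∈ U) {s : H}
    (h2 : ∀ v ∈ U, ρ s v ∈ U) {M : (ι → Z3) → ι → Z3} (hM : Function.Bijective M) (hM' : ∀ a l, M a ⬝ᵥ M l = a ⬝ᵥ l)
    (hs : ∀ a, s * xx a * s⁻¹ = xx (M a)) {a : ι → Z3}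
    (h3 : ∀ l, a ⬝ᵥ l = 1 → ({l, M l, M (M l), M (M (M l))} : Finset _).card = 4) : Eg ρ ω (xx a) 1 ⊓ U = ⊥ := by
  refine (Submodule.eq_bot_iff _).2 fun v hv => eq_zero_of_Pj (ρ := ρ) hω hx fun l => by_contra fun h4 => ?_
  have h5 := h3 l (by_contra fun h => h4 (Pj_eq_zero hω hx h hv.1))
  have h6 : ∀ l, finrank k ↥(Wt ρ ω xx l ⊓ U) ≤ finrank k ↥(Wt ρ ω xx (M l) ⊓ U) := fun l =>
    finrank_le_conj s fun v hv => ⟨Wt_conj hM hs (fun a => hM' a l) hv.1, h2 v hv.2⟩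
  have h7 : 1 ≤ finrank k ↥(Wt ρ ω xx l ⊓ U) := Submodule.one_le_finrank_iff.2 ((Submodule.ne_bot_iff _).2
    ⟨_, ⟨Pj_mem hω hx l v, by
      rw [Pj_apply]; exact U.sum_mem fun a _ => U.smul_mem _ (h1 a v hv.2)⟩, h4⟩)
  have h8 := sum_le_finrank (U := U) ((indep_Wt (ρ := ρ) (xx := xx) hω).mono (t := fun l => Wt ρ ω xx l ⊓ U)
    fun l => inf_le_left) fun l => inf_le_right
  have h9 := (Finset.card_nsmul_le_sum _ (fun l => finrank k ↥(Wt ρ ω xx l ⊓ U)) 1 fun l' hl' => by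
    simp only [Finset.mem_insert, Finset.mem_singleton] at hl'
    rcases hl' with rfl | rfl | rfl | rfl
    exacts [h7, h7.trans (h6 _), (h7.trans (h6 _)).trans (h6 _), ((h7.trans (h6 _)).trans (h6 _)).trans (h6 _)]).trans
    (Finset.sum_le_sum_of_subset (Finset.subset_univ ({l, M l, M (M l), M (M (M l))} : Finset _)))
  rw [h5] at h9
  simp only [smul_eq_mul] at h9
  omega

end

theorem cc_mem {S : Subgroup (Perm (ι × Z3))} (h : ∀ i, cc (Pi.single i 1) ∈ S) (a : ι → Z3) : cc a ∈ S := by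
  have h0 : cc (0 : ι → Z3) = 1 := xx_zero cc_add
  have h1 : ∀ i (t : ℕ), cc (Pi.single i (t : Z3)) ∈ S := fun i t => by
    induction t with
    | zero => rw [Nat.cast_zero, Pi.single_zero, h0]; exact one_mem _
    | succ t ih => rw [Nat.cast_succ, Pi.single_add, cc_add]; exact mul_mem ih (h i)
  rw [← Finset.univ_sum_single a]
  induction (Finset.univ : Finset ι) using Finset.induction_on with
  | empty => rw [Finset.sum_empty, h0]; exact one_mem _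
  | insert i s hi ih =>
    rw [Finset.sum_insert hi, cc_add]
    exact mul_mem (ZMod.natCast_zmod_val (a i) ▸ h1 i _) ih

theorem le_alt {Ω : Type} [Fintype Ω] [DecidableEq Ω] {l : ℕ} (hl : Odd l) {S : Subgroup (Perm Ω)} (h : IsPGroup l S) :
    S ≤ alternatingGroup Ω := fun σ hσ => by
  obtain ⟨n, hn⟩ := pow_eq_one_of_isPGroup h hσ
  have := congrArg Perm.sign hn
  rw [map_pow, map_one] at this
  exact (Int.units_eq_one_or _).resolve_right fun e => by rw [e, hl.pow.neg_one_pow] at this; exact absurd this (by decide)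

section
variable {Ω : Type} [Fintype Ω] [DecidableEq Ω] {H : Type u} [Group H] {π : H →* Perm Ω} {S : Subgroup (Perm Ω)}
  {x : Perm Ω → H}

theorem Fus.cj (h : Fus π S x) {s t : Perm Ω} (hs : s ∈ S) (ht : t ∈ S) : x s * x t * (x s)⁻¹ = x (s * t * s⁻¹) := by
  rw [h.mul _ (mul_mem hs ht) _ (inv_mem hs), h.mul s hs t ht, h.inv hs]

end

def hbF (n : ℕ) [NeZero n] (p : Fin n × Z3) : Fin n × Z3 := if p.1.val < 3 then (Fin.ofNat n (-p.2).val, p.1.val) else p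
def hbG (n : ℕ) [NeZero n] (p : Fin n × Z3) : Fin n × Z3 := if p.1.val < 3 then (Fin.ofNat n p.2.val, -p.1.val) else p

section
variable {ι : Type} [Fintype ι] [DecidableEq ι] {H : Type u} [Group H] {π : H →* Perm (ι × Z3)}
  {S : Subgroup (Perm (ι × Z3))} {x : Perm (ι × Z3) → H} (h : Fus π S x) (hS : ∀ a, cc a ∈ S)
include h hS

theorem Fus.add (a b : ι → Z3) : x (cc (a + b)) = x (cc a) * x (cc b) := by rw [cc_add, h.mul _ (hS a) _ (hS b)]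

theorem Fus.sq (τ : Perm ι) (ε : ι → Z3ˣ) (h1 : Perm.sign (sq τ ε) = 1) : ∃ g, π g = (sq τ ε)⁻¹ ∧
    (∀ a, g * x (cc a) * g⁻¹ = x (cc (sg τ ε a))) ∧
    ∀ s ∈ S, (sq τ ε)⁻¹ * s * (sq τ ε)⁻¹⁻¹ ∈ S → g * x s * g⁻¹ = x ((sq τ ε)⁻¹ * s * (sq τ ε)⁻¹⁻¹) := by
  obtain ⟨g, h2, h3⟩ := h.conj (AltSec.sq τ ε)⁻¹ (by simpa)
  exact ⟨g, h2, fun a => by rw [← sq_conj, h3 _ (hS a) (by rw [sq_conj]; exact hS _)], h3⟩

theorem Fus.canon (h4 : 3 < Fintype.card ι) (h1 : ∀ i j k : ι, i ≠ j → Perm.sign (AltSec.sq (swap i j) (ng k)) = 1)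
    (pot : (ι → Z3) → ℕ) (cn : ℕ → ι → Z3)
    (hc : ∀ l, l = cn (sz l) ∨ (∃ k, sz (sg 1 (ng k) l) = sz l ∧ pot (sg 1 (ng k) l) < pot l) ∨
      ∃ i j, sz (sg (swap i j) 1 l) = sz l ∧ pot (sg (swap i j) 1 l) < pot l) (ρ : H →* End k V) (ω : k) (l : ι → Z3) :
    finrank k (Wt ρ ω (fun a => x (cc a)) l) = finrank k (Wt ρ ω (fun a => x (cc a)) (cn (sz l))) := by
  refine AltSec.canon h4 (f := fun l => finrank k (Wt ρ ω (fun a => x (cc a)) l)) (fun i j k l hij => ?_) pot cn hc l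
  obtain ⟨g, -, h2, -⟩ := h.sq hS _ _ (h1 i j k hij)
  exact Wt_conj_eq (sg_bij _ _) h2 fun a => sg_dot _ _ a l

end

def pot {n : ℕ} (l : Fin n → Z3) : ℕ := ∑ i, (i.val + 1) * (l i).val
def cn (n s : ℕ) (i : Fin n) : Z3 := if i.val < s then 1 else 0

end Cfsg.Agent.Lib.AltSec
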